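import Cfsg.Agent.Class.Wr.GlobA

/-!
The global theorem when the root subgroups have two elements.
-/

set_option autoImplicit false
set_option linter.unusedSectionVars false

namespace Cfsg.Lib.Class.Wr

open Module Submodule Tens Tn FE AO
open LinearMap (range ker)

theorem exists_swap_inv {G : Type*} [Group G] {u v y : G} (hu : u * u = 1) (hv : v * v = 1)
    (hy : y ∈ Subgroup.closure ({u, v} : Set G)) (e : y * u * y⁻¹ = v) :
    ∃ k ∈ Subgroup.closure ({u, v} : Set G), k * u * k⁻¹ * u * (k * u * k⁻¹) = v ∧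
      ∀ g, g * u * g⁻¹ = v → g * v * g⁻¹ = u → g * (k * u * k⁻¹) = k * u * k⁻¹ * g := by
  set r := u * v with hr
  have hui : u⁻¹ = u := inv_eq_of_mul_eq_one_right hu
  have hvi : v⁻¹ = v := inv_eq_of_mul_eq_one_right hv
  have h1 : u * r * u⁻¹ = r⁻¹ := by rw [hr, ← mul_assoc, hu, one_mul, mul_inv_rev, hvi]
  have h2 : ∀ m : ℤ, u * r ^ m = r ^ (-m) * u := fun m => by
    rw [zpow_neg, ← inv_zpow, ← h1, conj_zpow, inv_mul_cancel_right]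
  have hv' : v = r ^ (-1 : ℤ) * u := by
    rw [zpow_neg_one, hr, mul_inv_rev, hui, hvi, mul_assoc, hu, mul_one]
  have h3 : ∀ y ∈ Subgroup.closure ({u, v} : Set G), ∃ j : ℤ, y = r ^ j ∨ y = r ^ j * u := by
    intro y hy
    induction hy using Subgroup.closure_induction'' with
    | mem x hx =>
      rcases hx with rfl | rfl
      · exact ⟨0, Or.inr (by simp)⟩
      · exact ⟨-1, Or.inr hv'⟩
    | inv_mem x hx =>
      rcases hx with rfl | rfl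
      · exact ⟨0, Or.inr (by simp [hui])⟩
      · exact ⟨-1, Or.inr (hvi.trans hv')⟩
    | one => exact ⟨0, Or.inl (by simp)⟩
    | mul x y _ _ ihx ihy =>
      obtain ⟨i, rfl | rfl⟩ := ihx <;> obtain ⟨j, rfl | rfl⟩ := ihy
      · exact ⟨i + j, Or.inl (zpow_add _ _ _).symm⟩
      · exact ⟨i + j, Or.inr (by rw [zpow_add, mul_assoc])⟩
      · exact ⟨i + -j, Or.inr (by rw [zpow_add, mul_assoc, h2, mul_assoc])⟩
      · exact ⟨i + -j, Or.inl (by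
          rw [zpow_add, mul_assoc, ← mul_assoc u, h2, mul_assoc, hu, mul_one])⟩
  have h4 : ∀ m : ℤ, r ^ m * u * (r ^ m)⁻¹ = r ^ (2 * m) * u := fun m => by
    rw [← zpow_neg, mul_assoc, h2, neg_neg, ← mul_assoc, ← zpow_add, two_mul]
  obtain ⟨j, hj⟩ := h3 y hy
  have h5 : r ^ (2 * j + 1) = 1 := by
    have : r ^ j * u * (r ^ j)⁻¹ = v := by
      rcases hj with rfl | rfl
      · exact e
      · rw [← e, mul_inv_rev, hui, mul_assoc (r ^ j) u u, hu, mul_one, mul_assoc]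
    rw [h4, hv', mul_left_inj] at this
    rw [zpow_add, this, ← zpow_add]
    simp
  have h6 : r ^ (j * (j + 1)) * u * (r ^ (j * (j + 1)))⁻¹ = r ^ j * u := by
    rw [h4, show 2 * (j * (j + 1)) = (2 * j + 1) * j + j by ring, zpow_add, zpow_mul, h5, one_zpow,
      one_mul]
  refine ⟨r ^ (j * (j + 1)), zpow_mem (mul_mem (Subgroup.subset_closure (by simp))
    (Subgroup.subset_closure (by simp))) _, ?_, fun g g1 g2 => ?_⟩
  · rw [h6, mul_assoc (r ^ j) u u, hu, mul_one, ← mul_assoc, ← zpow_add, hv',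
      show j + j = (2 * j + 1) + -1 by ring, zpow_add, h5, one_mul]
  · have h7 : g * r * g⁻¹ = r⁻¹ := by
      rw [hr, ← conj_mul, g1, g2, mul_inv_rev, hui, hvi]
    rw [h6, ← mul_inv_eq_iff_eq_mul, ← conj_mul, ← conj_zpow, h7, g1, hv', ← mul_assoc, inv_zpow,
      ← zpow_neg, ← zpow_add, show -j + -1 = (2 * j + 1) * (-1) + j by ring, zpow_add, zpow_mul, h5,
      one_zpow, one_mul]

variable {F U W V : Type*} [Field F] [AddCommGroup U] [Module F U] [AddCommGroup W] [Module F W]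
  [AddCommGroup V] [Module F V] {X : Subgroup (V ≃ₗ[F] V)} {T T' T₁ T₂ : U →ₗ[F] W →ₗ[F] V}
  {w w' : W} {φ φ' : Dual F W} {t s r : End F V}
  [FiniteDimensional F U] [FiniteDimensional F W] [Nontrivial U] [Finite F]

/-- The root subgroups have two elements. -/
def Two (D : W → Dual F W → Prop) : Prop := ∀ w φ (c : F), D w φ → D w (c • φ) → c = 1

theorem Two.char (h : Two (Rt X T)) (hT : IsTens T) (ht : IsRt X T t) : (2 : F) = 0 := by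
  obtain ⟨w, φ, ht⟩ := ht
  have := h w φ (-1) ht.rt ⟨-t, ht.uin.neg (ht.sq hT), ht.w0, by simpa using ht.φ0,
    by simp [ht.φw], fun u y => by simp [ht.eq]⟩
  linear_combination -this

theorem exists_add_of_notMem {φ ψ : Dual F W} (h : ψ ∉ span F {φ}) (y : W) :
    ∃ y₁ y₂, φ y₁ = 0 ∧ ψ y₂ = 0 ∧ y = y₁ + y₂ := by
  obtain ⟨d, h1, h2⟩ := exists_pair_of_notMem h (ψ y)
  exact ⟨d, y - d, h1, by simp [h2], by simp⟩

theorem eq_of_apply {x y : V ≃ₗ[F] V} (e : ∀ z, x z = z + r z) (e' : ∀ z, y z = z + s z) :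
    x = y ↔ r = s :=
  ⟨fun h => LinearMap.ext fun z => by simpa [e, e'] using LinearEquiv.congr_fun h z,
    fun h => LinearEquiv.ext fun z => by rw [e, e', h]⟩

theorem exists_notMem_span_pair {P : Submodule F W} (h3 : 3 ≤ finrank F P) (a b : W) :
    ∃ v ∈ P, v ∉ span F {a, b} := by
  classical
  by_contra! hc
  have h4 : finrank F P ≤ finrank F (span F {a, b}) := Submodule.finrank_mono hc
  have h5 := finrank_span_le_card (R := F) ({a, b} : Set W)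
  have h6 : ({a, b} : Set W).toFinset.card ≤ 2 := by simpa using Finset.card_le_two
  omega

theorem finrank_ker_dual (φ : Dual F W) : finrank F W ≤ finrank F (ker φ) + 1 := by
  have h1 := φ.finrank_range_add_finrank_ker
  have h2 := Submodule.finrank_le (range φ)
  rw [finrank_self] at h2
  omega

theorem exists_dual_two {a b v : W} (h : v ∉ span F {a, b}) :
    ∃ ξ : Dual F W, ξ a = 0 ∧ ξ b = 0 ∧ ξ v = 1 := by
  obtain ⟨ξ, h1, h2⟩ := exists_dual_of_notMem h (1 : F)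
  exact ⟨ξ, h2 a (subset_span (by simp)), h2 b (subset_span (by simp)), h1⟩

namespace Pair

variable (h : Pair X T₁ T₂ t s)
include h

theorem exists_conj_eq (hS : Shear t s) (hk : 3 ≤ finrank F W) (h2 : Two (Rt X T₁))
    {x₁ x₂ : V ≃ₗ[F] V} (hx₁ : x₁ ∈ X) (hx₂ : x₂ ∈ X) (e₁ : ∀ z, x₁ z = z + t z)
    (e₂ : ∀ z, x₂ z = z + s z) : ∃ y ∈ Subgroup.closure {x₁, x₂}, cj y t = s := by
  have := h.loc.tens.finiteDimensional
  have hT := h.loc₂.tens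
  obtain ⟨y, hy, hI, ⟨w₁, φ₁, h3⟩, h4⟩ := h.exists_conj hS (Or.inl hk) hx₁ hx₂ e₁ e₂
  have hG := hS.closure_le e₁ e₂ hy
  refine ⟨y, hy, ?_⟩
  obtain ⟨w, φ, hs⟩ := h.rt₂
  obtain ⟨u₀, hu₀⟩ := exists_ne (0 : U)
  obtain ⟨c, rfl⟩ := mem_span_singleton.1
    (by_contra fun hw => hu₀ (hs.eq_zero_of_mem hT hw (h4 ▸ h3.mem hT u₀)))
  have hc : c ≠ 0 := by rintro rfl; exact h3.w0 (zero_smul _ _)
  have h5 : RtE X T₂ w (c • φ₁) (cj y t) := ⟨h3.uin, hs.w0, smul_ne_zero hc h3.φ0,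
    by simpa using h3.φw, fun u y => by simp [h3.eq, smul_smul, mul_comm]⟩
  have h6 : c • φ₁ ∈ span F {φ} := by_contra fun hn => hS.D_ne_bot h.range_ne <| by
    rw [LinearMap.range_eq_bot]
    refine hT.ext fun u z => ?_
    obtain ⟨z₁, z₂, h7, h8, rfl⟩ := exists_add_of_notMem hn z
    obtain ⟨a, ha, o, ho, -, e⟩ := hS.dec_ker (v := y⁻¹ (T₂ u z₂))
      (y.injective (by simpa [h8] using h5.eq u z₂))
    have h9 : T₂ u z₂ = y a + y o := by rw [← map_add, ← e, apply_inv_self]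
    rw [map_add, map_add, h9, map_add, End.mul_apply, End.mul_apply, hs.eq, h7,
      hS.s_range (hI a (range_mul_le _ _ ha)), (hS.apply_mem_V hG ho).1]
    simp
  obtain ⟨d, hd⟩ := mem_span_singleton.1 h6
  obtain rfl : d = 1 := (h.rel.rt ▸ h2) w φ d hs.rt (hd ▸ h5.rt)
  exact hT.ext fun u z => by rw [h5.eq, hs.eq, ← hd, one_smul]

theorem exists_inv (hS : Shear t s) (hk : 3 ≤ finrank F W) (h2 : Two (Rt X T₁))
    {x₁ x₂ : V ≃ₗ[F] V} (hx₁ : x₁ ∈ X) (hx₂ : x₂ ∈ X) (e₁ : ∀ z, x₁ z = z + t z)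
    (e₂ : ∀ z, x₂ z = z + s z) :
    ∃ k ∈ Subgroup.closure {x₁, x₂}, cj (k * x₁ * k⁻¹) t = s ∧
      ∀ g, cj g t = s → cj g s = t → g * (k * x₁ * k⁻¹) = k * x₁ * k⁻¹ * g := by
  have hc := h2.char h.loc.tens h.rt₁
  obtain ⟨y, hy, e⟩ := h.exists_conj_eq hS hk h2 hx₁ hx₂ e₁ e₂
  have hu := mul_self_of_two hc e₁ hS.tt
  obtain ⟨k, hk, h3, h4⟩ := exists_swap_inv hu (mul_self_of_two hc e₂ hS.ss) hy
    ((eq_of_apply (apply_conj e₁ y) e₂).2 e)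
  refine ⟨k, hk, (eq_of_apply (apply_conj e₁ _) e₂).1 ?_, fun g g1 g2 =>
    h4 g ((eq_of_apply (apply_conj e₁ g) e₂).2 g1) ((eq_of_apply (apply_conj e₂ g) e₁).2 g2)⟩
  rw [← h3, mul_inv_rev, mul_inv_rev, inv_inv, inv_eq_of_mul_eq_one_right hu, mul_assoc k]

theorem bot_of_centre (hm : NoMove (Rt X T₁)) (hk : 3 ≤ finrank F W) (h2 : Two (Rt X T₁))
    (h5 : ∀ w φ, Rt X T₁ w φ → ∃ ψ, Rt X T₁ w ψ ∧ ψ ∉ span F {φ}) :
    ∀ j ∈ range t ⊓ range s, j = 0 := by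
  have := h.loc.tens.finiteDimensional
  have hT := h.loc.tens
  obtain ⟨w, φ, ht⟩ := h.rt₁
  have key : ∀ ψ t', RtE X T₁ w ψ t' → ∀ v, t' v = 0 → s v ∈ range (s * t) := by
    intro ψ t' ht' v hv
    have e : range t = range t' := by
      ext v
      rw [ht.mem_range hT, ht'.mem_range hT]
    have hP := h.of_le Rel.refl h.rel h.bad ht'.isRt h.rt₂ (by rw [e])
    have hS := hP.shear (Or.inl hm)
    obtain ⟨x₁, hx₁, e₁⟩ := ht'.uin
    obtain ⟨x₂, hx₂, e₂⟩ := h.rt₂.uin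
    obtain ⟨y, hy, e'⟩ := hP.exists_conj_eq hS hk h2 hx₁ hx₂ e₁ e₂
    obtain ⟨a, ha, o, ho, ho', rfl⟩ := hS.dec_ker hv
    have h1 : s o = 0 := by
      rw [← ho', ← hS.conj_t_V (hS.closure_le e₁ e₂ hy) ho, ← cj_apply, e']
    obtain ⟨a', ha'⟩ : a ∈ range t := e ▸ range_mul_le _ _ ha
    exact ⟨a', by rw [map_add, h1, add_zero, End.mul_apply, ha']⟩
  obtain ⟨ψ, ⟨t', ht'⟩, hψ⟩ := h5 w φ ht.rt
  have hS := h.shear (Or.inl hm)
  intro j hj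
  refine hS.symm.eq_zero_of_D ?_ (hS.t_range hj.1)
  obtain ⟨v, rfl⟩ := hj.2
  refine hT.ind (P := fun v => s v ∈ range (s * t)) (by simp)
    (fun a b ha hb => by rw [map_add]; exact add_mem ha hb) (fun u z => ?_) v
  obtain ⟨z₁, z₂, h7, h8, rfl⟩ := exists_add_of_notMem hψ z
  rw [map_add, map_add]
  exact add_mem (key _ _ ht _ (by simp [ht.eq, h7])) (key _ _ ht' _ (by simp [ht'.eq, h8]))

theorem bot_of_perp (hk : 4 ≤ finrank F W) (h2 : Two (Rt X T₁))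
    (h5 : ∀ w φ, Rt X T₁ w φ → ∃ γ χ, Rt X T₁ γ χ ∧ χ w = 0 ∧ γ ∉ span F {w}) :
    ∀ j ∈ range t ⊓ range s, j = 0 := by
  have := h.loc.tens.finiteDimensional
  have hT := h.loc.tens
  have hc := h2.char hT h.rt₁
  intro j₀ hj₀
  by_contra hj0
  obtain ⟨w, φ, ht⟩ := h.rt₁
  obtain ⟨γ, χ, ⟨n, hn⟩, hχ, hγ⟩ := h5 w φ ht.rt
  obtain ⟨g, hg, eg⟩ := hn.uin
  have hm : NoMove (Rt X T₂) := Or.inr (Or.inl hk)
  have hnt : ∀ v ∈ range t, n v = 0 := fun v hv => by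
    obtain ⟨u, rfl⟩ := (ht.mem_range hT).1 hv
    simp [hn.eq, hχ]
  have hfix : ∀ v ∈ range s, n v = 0 → v ∈ range (cj g s) := fun v hv h0 => by
    rw [range_cj, ← add_zero v, ← h0, ← eg]
    exact apply_mem_im.2 hv
  have hb := h.loc₂.not_good_tr hm h.rel.symm h.symm.bad hn.isRt eg
  have hle : range t ⊓ range s ≤ range s ⊓ range (cj g s) := fun j hj =>
    ⟨hj.2, hfix j hj.2 (hnt j hj.1)⟩
  have hr₂ := h.rel.trans (rel_tr hg)
  have hP := h.of_le h.rel hr₂ hb h.rt₂ (h.rt₂.tr hg) hle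
  have hJ := h.eq_of_le h.rel hr₂ hb h.rt₂ (h.rt₂.tr hg) hle
  have hS := hP.shear (Or.inl hm)
  have hstar : ∀ v ∈ range s, n v = 0 → v ∈ range t ⊓ range s := fun v hv h0 =>
    hJ ▸ ⟨hv, hfix v hv h0⟩
  obtain ⟨x, hx, ex⟩ := h.rt₂.uin
  have hgg := mul_self_of_two hc eg (hn.sq hT)
  have hx' := X.mul_mem (X.mul_mem hg hx) (X.inv_mem hg)
  obtain ⟨k, hk', h3, h4⟩ := hP.exists_inv hS (by omega) (h.rel.rt ▸ h2) hx hx' ex (apply_conj ex g)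
  have hG := hS.closure_le ex (apply_conj ex g) hk'
  have hkX := closure_le_of_mem hx hx' hk'
  have h6 := h4 g rfl (by rw [← cj_mul, hgg, cj_one])
  have h7 := (comm_of_mul_comm eg (apply_conj ex k)).1 h6
  have hrt := h.rt₂.tr hkX
  have hrk := h.rel.trans (rel_tr hkX)
  have hJk : ∀ j ∈ range t ⊓ range s, j ∈ range (cj k s) := fun j hj => by
    rw [range_cj, ← hG.2.2 j (hJ ▸ hj)]
    exact apply_mem_im.2 hj.2
  rcases h.loc.inE_or_inC_of_comm hrk hn.isRt hrt h7.symm with hE | hE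
  · obtain ⟨w', φ', h8⟩ := h.loc.isRt_of_inE hrk hrt hE
    have h9 := ht.range_eq hT h8 hj0 hj₀.1 (hJk _ hj₀)
    have h10 : cj (g * (k * x * k⁻¹)) s = s := by rw [cj_mul, h3, ← cj_mul, hgg, cj_one]
    refine h.range_ne (Submodule.eq_of_le_of_finrank_le ?_
      ((ht.finrank_range hT).trans (h.rt₂.finrank_range h.loc₂.tens).symm).le).symm
    rintro _ ⟨v, rfl⟩
    have h11 : ∀ z, n (cj k s z) = 0 := fun z => hnt _ (h9 ▸ ⟨z, rfl⟩)
    have h12 : cj k s (s v) + n (s v) ∈ range s := by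
      have h13 := LinearMap.congr_fun h10 ((g * (k * x * k⁻¹)) v)
      rw [cj_apply, inv_apply_self, LinearEquiv.mul_apply, apply_conj ex k, eg, map_add, h11,
        add_zero, add_assoc] at h13
      exact (add_mem_cancel_left (LinearMap.mem_range_self s v)).1
        (h13 ▸ LinearMap.mem_range_self s _)
    have h13 := (mem_inf.1 (hstar _ h12 (by
      rw [map_add, h11, zero_add]; exact LinearMap.congr_fun (hn.sq hT) _))).1
    rw [add_mem_cancel_left (h9 ▸ LinearMap.mem_range_self (cj k s) (s v)), hn.apply hT] at h13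
    exact (hstar _ ⟨v, rfl⟩ ((hn.apply_eq_zero hT).2 (ht.eq_zero_of_mem hT hγ h13))).1
  · obtain ⟨τ, hτ⟩ := hE
    obtain ⟨u₀, hu₀⟩ : ∃ u, τ u ≠ 0 := by
      by_contra! h0
      obtain ⟨_, _, h8⟩ := hrt
      exact h8.ne_zero (h.loc.rel hrk).tens (hT.ext fun u y => by simp [hτ, h0])
    obtain ⟨z, hz, hz'⟩ := exists_notMem_span_pair (P := ker χ)
      (by have := finrank_ker_dual χ; omega) w γ
    obtain ⟨ξ, x1, x2, x3⟩ := exists_dual_two hz'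
    have h8 : k⁻¹ (T₁ (τ u₀) z) ∈ range s := by
      rw [← mem_im, ← range_cj]
      exact ⟨_, hτ u₀ z⟩
    obtain ⟨j, hj, a, ha, e⟩ := hS.dec_t h8
    have h9 : T₁ (τ u₀) z = j + k a := by rw [← hG.2.2 j hj, ← map_add, e, apply_inv_self]
    rw [← hJ] at hj
    obtain ⟨b₁, hb₁, _, ⟨v, rfl⟩, e'⟩ := mem_shL.1 (hG.1 a (hS.D_le_L ha))
    have hgi : ∀ z, g⁻¹ z = g z := fun z => by rw [inv_eq_of_mul_eq_one_right hgg]
    have hb₂ : s (g (s v)) ∈ range (s * cj g s) := ⟨g v, by simp⟩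
    have h10 : k a = b₁ + s (g (s v)) + n (s (g (s v))) := by
      rw [← e', End.mul_apply, cj_apply, hgi, eg (s _), add_assoc]
    have h11 : n (b₁ + s (g (s v))) = 0 := by
      have := congrArg n h9
      rw [hn.eq, show χ z = 0 from hz, zero_smul, map_add, hnt j hj.1, zero_add, h10, map_add,
        show n (n _) = 0 from LinearMap.congr_fun (hn.sq hT) _, add_zero] at this
      exact this.symm
    have h12 := hS.eq_zero_of_D (add_mem hb₁ hb₂) (hS.s_range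
      (hJ ▸ hstar _ (range_mul_le _ _ (add_mem hb₁ hb₂)) h11 : _ ∈ range s ⊓ range (cj g s)).2)
    obtain ⟨u₁, rfl⟩ := (ht.mem_range hT).1 hj.1
    rw [h10, h12, zero_add, hn.apply hT] at h9
    exact hu₀ (by simpa [x1, x2, x3] using congrArg (hT.cR ξ) h9)

end Pair

/-- An involution of the class of root elements interchanging `t` and `s`. -/
structure Swap (X : Subgroup (V ≃ₗ[F] V)) (T : U →ₗ[F] W →ₗ[F] V) (t s : End F V)
    (y : V ≃ₗ[F] V) (u : End F V) : Prop where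
  mem : y ∈ X
  eq : ∀ z, y z = z + u z
  sq : y * y = 1
  conj : cj y t = s
  rk : finrank F (range u) = finrank F U
  free : ∀ n, IsRt X T n → ∀ v ∈ range u, n v = 0 → v = 0

theorem Swap.conj' {y : V ≃ₗ[F] V} {u : End F V} (h : Swap X T t s y u) : cj y s = t := by
  rw [← h.conj, ← cj_mul, h.sq, cj_one]

theorem Pair.exists_swap (h : Pair X T₁ T₂ t s) (hm : NoMove (Rt X T₁)) (hk : 3 ≤ finrank F W)
    (h2 : Two (Rt X T₁)) (hJ : ∀ j ∈ range t ⊓ range s, j = 0) {t' : End F V}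
    (ht' : IsRt X T₁ t') : ∃ y u, Swap X T₁ t' s y u := by
  have hT := h.loc.tens
  obtain ⟨hP, -⟩ := h.of_bot hJ Rel.refl h.rel h.bad ht' h.rt₂
  obtain ⟨x₁, hx₁, e₁⟩ := ht'.uin
  obtain ⟨x₂, hx₂, e₂⟩ := h.rt₂.uin
  obtain ⟨k, hk', h3, -⟩ := hP.exists_inv (hP.shear (Or.inl hm)) hk h2 hx₁ hx₂ e₁ e₂
  have hkX := closure_le_of_mem hx₁ hx₂ hk'
  have hrt := ht'.tr hkX
  have hT' := isTens_tr hT k
  refine ⟨_, _, X.mul_mem (X.mul_mem hkX hx₁) (X.inv_mem hkX), apply_conj e₁ k,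
    mul_self_of_two (h2.char hT ht') (apply_conj e₁ k) (hrt.sq hT'), h3, hrt.finrank_range hT',
    fun n hn v hv => h.eq_zero_of_bot (Or.inl hm) hJ (rel_tr hkX) (fun hG => h.bad (Or.inl ?_)) hn
      hrt hv⟩
  exact h.loc.same_of_inE h.rel h.rt₂
    (h3 ▸ ht'.inE.cj_of_mem (h.loc.norm_of_good hrt (apply_conj e₁ k) hG))

/-- Data for the product of two swapping involutions. -/
structure Prod2 (X : Subgroup (V ≃ₗ[F] V)) (T : U →ₗ[F] W →ₗ[F] V) (w₁ w₂ : W)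
    (φ₁ φ₂ : Dual F W) (g : V ≃ₗ[F] V) (a : U ≃ₗ[F] U) (b : W ≃ₗ[F] W) (μ : F)
    (M N : Submodule F V) : Prop where
  mem : g ∈ X
  eq : ∀ u y, g (T u y) = T (a u) (b y)
  bw : b w₂ = μ • w₁
  φb : ∀ y, φ₁ (b y) = μ * φ₂ y
  sub : ∀ v, g v - v ∈ M
  le : N ≤ M
  rkM : finrank F M ≤ 2 * finrank F U
  rkN : finrank F N = finrank F U
  free : ∀ n, IsRt X T n → ∀ v ∈ N, n v = 0 → v = 0

theorem Loc.exists_prod2 (h : Loc X T) {w₁ w₂ : W} {φ₁ φ₂ : Dual F W} {t₁ t₂ u₁ u₂ : End F V}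
    {y₁ y₂ : V ≃ₗ[F] V} (h₁ : RtE X T w₁ φ₁ t₁) (h₂ : RtE X T w₂ φ₂ t₂)
    (s₁ : Swap X T t₁ s y₁ u₁) (s₂ : Swap X T t₂ s y₂ u₂) :
    ∃ a b μ M N, Prod2 X T w₁ w₂ φ₁ φ₂ (y₁ * y₂) a b μ M N := by
  have hT := h.tens
  have := hT.finiteDimensional
  have hX := X.mul_mem s₁.mem s₂.mem
  have hc : cj (y₁ * y₂) t₂ = t₁ := by rw [cj_mul, s₂.conj, s₁.conj']
  obtain ⟨a, b, e⟩ := h.same_of_range (rel_tr hX) h₁.isRt (h₂.isRt.tr hX) (by rw [hc])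
  replace e : ∀ u y, (y₁ * y₂) (T u y) = T (a u) (b y) := e
  have key : ∀ u y, φ₂ y • T (a u) (b w₂) = φ₁ (b y) • T (a u) w₁ := fun u y => by
    have := LinearMap.congr_fun hc ((y₁ * y₂) (T u y))
    rwa [cj_apply, inv_apply_self, h₂.eq, map_smul, e, e, h₁.eq] at this
  obtain ⟨u₀, hu₀⟩ := exists_ne (0 : U)
  have hu₁ : a u₀ ≠ 0 := by simpa using hu₀
  obtain ⟨y₀, hy₀⟩ := h₂.exists_one
  have h3 : b w₂ = φ₁ (b y₀) • w₁ := hT.injective hu₁ (by simpa [hy₀] using key u₀ y₀)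
  refine ⟨a, b, _, range u₁ ⊔ range u₂, range u₁, hX, e, h3, fun y => ?_, fun v => ?_, le_sup_left,
    ?_, s₁.rk, s₁.free⟩
  · have := key u₀ y
    rw [h3, map_smul, smul_smul] at this
    rw [← smul_left_injective F (hT.ne_zero hu₁ h₁.w0) this, mul_comm]
  · rw [LinearEquiv.mul_apply, s₁.eq, s₂.eq v, add_assoc, add_sub_cancel_left]
    exact add_mem (mem_sup_right ⟨_, rfl⟩) (mem_sup_left ⟨_, rfl⟩)
  · have := Submodule.finrank_add_le_finrank_add_finrank (range u₁) (range u₂)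
    rw [s₁.rk, s₂.rk] at this
    omega

namespace Prod2

variable {w₁ w₂ : W} {φ₁ φ₂ : Dual F W} {g : V ≃ₗ[F] V} {a : U ≃ₗ[F] U} {b : W ≃ₗ[F] W} {μ : F}
  {M N : Submodule F V} (h : Prod2 X T w₁ w₂ φ₁ φ₂ g a b μ M N) (hT : IsTens T)
  (hw : w₂ ∉ span F {w₁})
include h hT hw

theorem exists_eq {γ : W} {χ : Dual F W} {n : End F V} (hn : RtE X T γ χ n) (h1 : χ w₁ = 0)
    (h2 : χ w₂ = 0) {m : V} (hm : m ∈ M) (h0 : n m = 0) :
    ∃ u, m = μ • T (a u) w₁ - T u w₂ := by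
  have := hT.finiteDimensional
  let f : U →ₗ[F] V := μ • (T.flip w₁ ∘ₗ (a : End F U)) - T.flip w₂
  obtain ⟨ξ, x1, x2⟩ := exists_dual_pair hw 1
  have hf : Function.Injective f := (injective_iff_map_eq_zero _).2 fun u hu => by
    simpa [f, x1, x2] using congrArg (hT.cR ξ) hu
  have h3 : range f ≤ M ⊓ ker n := by
    rintro _ ⟨u, rfl⟩
    refine ⟨?_, by simp [f, hn.eq, h1, h2]⟩
    simpa [f, h.eq, h.bw] using h.sub (T u w₂)
  have h4 : N ⊓ (M ⊓ ker n) = ⊥ :=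
    (Submodule.eq_bot_iff _).2 fun v hv => h.free n hn.isRt v hv.1 hv.2.2
  have h5 := Submodule.finrank_sup_add_finrank_inf_eq N (M ⊓ ker n)
  have h6 : finrank F ↥(N ⊔ M ⊓ ker n) ≤ finrank F M :=
    Submodule.finrank_mono (sup_le h.le inf_le_left)
  rw [h4, finrank_bot, h.rkN] at h5
  have h7 := Submodule.eq_of_le_of_finrank_le h3
    (by rw [LinearMap.finrank_range_of_inj hf]; have := h.rkM; omega)
  obtain ⟨u, hu⟩ := h7.ge (⟨hm, h0⟩ : m ∈ M ⊓ ker n)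
  exact ⟨u, by simpa [f] using hu.symm⟩

theorem exists_eq' {t₁ : End F V} (h₁ : RtE X T w₁ φ₁ t₁) (h12 : φ₁ w₂ = 0) {γ : W}
    (g1 : φ₁ γ = 0) (g2 : φ₂ γ = 0) (u : U) :
    ∃ u', T (a u) (b γ) - T u γ = μ • T (a u') w₁ - T u' w₂ :=
  h.exists_eq hT hw h₁ h₁.φw h12 (h.eq u γ ▸ h.sub _) (by simp [h₁.eq, h.φb, g1, g2])

theorem mu_ne_zero : μ ≠ 0 := by
  rintro rfl
  have := h.bw
  rw [zero_smul, LinearEquiv.map_eq_zero_iff] at this
  exact hw (this ▸ zero_mem _)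

/-- The generic case: the product is a pseudo-reflection in the second factor. -/
theorem reflection {t₁ : End F V} (h₁ : RtE X T w₁ φ₁ t₁) (h12 : φ₁ w₂ = 0) {γ : W}
    (g1 : φ₁ γ = 0) (g2 : φ₂ γ = 0) (hγ : γ ∉ span F {w₁, w₂})
    (h4 : ∀ y₁ y₂, ∃ γ χ, Rt X T γ χ ∧ χ y₁ = 0 ∧ χ y₂ = 0) :
    φ₁ ∈ span F {φ₂} ∧ ∃ δ, ∃ χ : Dual F W, δ ≠ 0 ∧ χ ≠ 0 ∧
      ∀ u y, g (T u y) = T u y + χ y • T u δ := by
  have := hT.finiteDimensional
  obtain ⟨ξ, x1, x2, x3⟩ := exists_dual_two hγ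
  have ha : ∀ u, ξ (b γ) • a u = u := fun u => by
    obtain ⟨u', e⟩ := h.exists_eq' hT hw h₁ h12 g1 g2 u
    simpa [x1, x2, x3, sub_eq_zero] using congrArg (hT.cR ξ) e
  obtain ⟨u₀, hu₀⟩ := exists_ne (0 : U)
  set κ := ξ (b γ)
  have hκ : κ ≠ 0 := fun e => hu₀ (by rw [← ha u₀, e, zero_smul])
  set β : End F W := κ⁻¹ • (b : End F W) - 1
  have hβ : ∀ u y, g (T u y) - T u y = T u (β y) := fun u y => by
    rw [h.eq, (eq_inv_smul_iff₀ hκ).2 (ha u)]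
    simp [β]
  have hle : map₂ T ⊤ (range β) ≤ M := map₂_le.2 <| by
    rintro u - _ ⟨y, rfl⟩
    exact hβ u y ▸ h.sub _
  have hpos : 0 < finrank F U := finrank_pos
  have h5 : finrank F (range β) ≤ 1 := by
    by_contra! hc
    have h6 := Submodule.eq_of_le_of_finrank_le hle
      (by rw [hT.finrank_map₂, finrank_top]; have := h.rkM; nlinarith)
    have h7 : finrank F (range β) = 2 := by
      have := h.rkM
      rw [← h6, hT.finrank_map₂, finrank_top] at this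
      exact le_antisymm (Nat.le_of_mul_le_mul_left (by omega) hpos) hc
    let e := Module.finBasisOfFinrankEq F (range β) h7
    obtain ⟨γ', χ, ⟨n, hn⟩, c1, c2⟩ := h4 (e 0) (e 1)
    have h8 : N = ⊥ := (Submodule.eq_bot_iff _).2 fun v hv => h.free n hn.isRt v hv <|
      (hn.apply_eq_zero hT).2 <| (Module.forall_dual_apply_eq_zero_iff F _).1 fun η => by
        have h9 := congrArg (fun z : range β => χ z) (e.sum_repr ⟨_, hT.cL_mem (h6.ge (h.le hv)) η⟩)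
        simp only [Fin.sum_univ_two, Submodule.coe_add, Submodule.coe_smul, map_add, map_smul, c1,
          c2, smul_zero, add_zero] at h9
        rw [← hT.apply_cL, ← h9]
    have := h.rkN
    rw [h8, finrank_bot] at this
    omega
  have h6 : β w₂ = (κ⁻¹ * μ) • w₁ - w₂ := by simp [β, h.bw, mul_smul]
  have h7 : β w₂ ≠ 0 := fun e =>
    hw (mem_span_singleton.2 ⟨_, sub_eq_zero.1 (h6.symm.trans e)⟩)
  obtain ⟨η, hη⟩ := exists_dual_eq h7 (1 : F)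
  have h8 : ∀ y, β y = η (β y) • β w₂ := fun y => by
    obtain ⟨c, hc⟩ := (finrank_eq_one_iff_of_nonzero' (⟨β w₂, w₂, rfl⟩ : range β)
      fun e => h7 (congrArg Subtype.val e)).1
      (le_antisymm h5 (finrank_pos_iff_exists_ne_zero.2
        ⟨⟨β w₂, w₂, rfl⟩, fun e => h7 (congrArg Subtype.val e)⟩)) ⟨β y, y, rfl⟩
    rw [← show c • β w₂ = β y from congrArg Subtype.val hc]
    simp [hη]
  refine ⟨mem_span_singleton.2 ⟨κ⁻¹ * μ, LinearMap.ext fun y => ?_⟩, β w₂, η ∘ₗ β, h7,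
    fun e => ?_, fun u y => ?_⟩
  · have h9 := congrArg φ₁ (h8 y)
    rw [h6] at h9
    simpa [β, h.φb, h₁.φw, h12, sub_eq_zero, mul_assoc] using h9
  · simpa [hη] using LinearMap.congr_fun e w₂
  · rw [← sub_eq_iff_eq_add', hβ, h8, map_smul]
    rfl

theorem quadratic {t₁ : End F V} (h₁ : RtE X T w₁ φ₁ t₁) (h12 : φ₁ w₂ = 0) (h21 : φ₂ w₁ = 0) :
    ∃ c x : F, c ≠ 0 ∧ b w₁ = x • w₁ + c • w₂ ∧ ∀ u, (μ * c) • a (a u) + x • a u = u := by
  obtain ⟨ξ₁, x1, x2⟩ := exists_dual_pair' h₁.w0 hw 1 0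
  obtain ⟨ξ₂, x3, x4⟩ := exists_dual_pair' h₁.w0 hw 0 1
  choose f hf using h.exists_eq' hT hw h₁ h12 h₁.φw h21
  have h3 : ∀ u, f u = -ξ₂ (b w₁) • a u := fun u => by
    have := congrArg (hT.cR ξ₂) (hf u)
    simp only [map_sub, map_smul, IsTens.cR_apply, x3, x4, zero_smul, one_smul] at this
    linear_combination (norm := module) this
  obtain ⟨u₀, hu₀⟩ := exists_ne (0 : U)
  obtain ⟨η, hη⟩ := exists_dual_eq (show a u₀ ≠ 0 by simpa using hu₀) (1 : F)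
  have h4 : b w₁ = ξ₁ (b w₁) • w₁ + ξ₂ (b w₁) • w₂ := by
    have h5 := congrArg (hT.cL η) (hf u₀)
    simp only [map_sub, map_smul, IsTens.cL_apply, hη, one_smul] at h5
    have h6 : b w₁ = (η u₀ + μ * η (a (f u₀))) • w₁ + (-η (f u₀)) • w₂ := by
      linear_combination (norm := module) h5
    rw [h6]
    simp [x1, x2, x3, x4]
  refine ⟨_, _, fun e => hw ?_, h4, fun u => ?_⟩
  · rw [e, zero_smul, add_zero] at h4
    have hμ := h.mu_ne_zero hT hw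
    refine mem_span_singleton.2 ⟨μ * (ξ₁ (b w₁))⁻¹, b.injective ?_⟩
    have h5 : ξ₁ (b w₁) ≠ 0 := fun e => h₁.w0 (by simpa [e] using h4)
    generalize ξ₁ (b w₁) = x at h4 h5
    rw [map_smul, h.bw, h4, smul_smul, inv_mul_cancel_right₀ h5]
  · have := congrArg (hT.cR ξ₁) (hf u)
    simp only [map_sub, map_smul, IsTens.cR_apply, x1, x2, zero_smul, one_smul] at this
    rw [h3, map_smul] at this
    linear_combination (norm := module) this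

end Prod2

/-- Tensor products in `X` whose first factor is quadratic have an eigenvector in that factor. -/
def Eig (X : Subgroup (V ≃ₗ[F] V)) (T : U →ₗ[F] W →ₗ[F] V) : Prop :=
  ∀ g ∈ X, ∀ (a : U ≃ₗ[F] U) (b : W ≃ₗ[F] W), (∀ u y, g (T u y) = T (a u) (b y)) →
    ∀ c x : F, c ≠ 0 → (∀ u, c • a (a u) + x • a u = u) → ∃ u, u ≠ 0 ∧ ∃ ρ : F, a u = ρ • u

/-- The global theorem for symplectic and unitary factors over the smallest field. -/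
theorem Loc.good_of_two_form (h : Loc X T) (h2 : Two (Rt X T)) (hk : 4 ≤ finrank F W)
    (h5 : ∀ w φ, Rt X T w φ → ∃ γ χ, Rt X T γ χ ∧ χ w = 0 ∧ γ ∉ span F {w})
    (h4 : ∀ y₁ y₂, ∃ γ χ, Rt X T γ χ ∧ χ y₁ = 0 ∧ χ y₂ = 0) {w₁ w₂ : W} {φ₁ φ₂ : Dual F W}
    (h₁ : Rt X T w₁ φ₁) (h₂ : Rt X T w₂ φ₂) (h12 : φ₁ w₂ = 0) (h21 : φ₂ w₁ = 0)
    (hw : w₂ ∉ span F {w₁}) (hφ : φ₁ ∉ span F {φ₂})
    (h8 : 5 ≤ finrank F W ∨
      (Eig X T ∧ ∀ y, ∃ γ χ, Rt X T γ χ ∧ χ w₁ = 0 ∧ χ w₂ = 0 ∧ χ y = 0))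
    {g : V ≃ₗ[F] V} (hg : g ∈ X) : Good T (tr T g) := by
  by_contra hb
  obtain ⟨T₂, t, s, hP⟩ := h.exists_pair hg hb
  have hT := h.tens
  have hJ := hP.bot_of_perp hk h2 h5
  obtain ⟨t₁, h₁⟩ := h₁
  obtain ⟨t₂, h₂⟩ := h₂
  obtain ⟨y₁, u₁, s₁⟩ := hP.exists_swap (Or.inr (Or.inl hk)) (by omega) h2 hJ h₁.isRt
  obtain ⟨y₂, u₂, s₂⟩ := hP.exists_swap (Or.inr (Or.inl hk)) (by omega) h2 hJ h₂.isRt
  obtain ⟨a, b, μ, M, N, hp⟩ := h.exists_prod2 h₁ h₂ s₁ s₂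
  rcases h8 with h8 | ⟨h8, h9⟩
  · obtain ⟨γ, ⟨g1, g2⟩, hγ⟩ := exists_notMem_span_pair (P := ker φ₁ ⊓ ker φ₂) (by
      have := finrank_ker_dual φ₁
      have := finrank_ker_dual φ₂
      have := Submodule.finrank_sup_add_finrank_inf_eq (ker φ₁) (ker φ₂)
      have := Submodule.finrank_le (ker φ₁ ⊔ ker φ₂)
      omega) w₁ w₂
    exact hφ (hp.reflection hT hw h₁ h12 g1 g2 hγ h4).1
  obtain ⟨c, x, hc, -, hq⟩ := hp.quadratic hT hw h₁ h12 h21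
  obtain ⟨u, hu, ρ, hρ⟩ := h8 _ hp.mem a b hp.eq _ _ (mul_ne_zero (hp.mu_ne_zero hT hw) hc) hq
  refine hφ (mem_span_singleton.2 ⟨ρ * μ, LinearMap.ext fun y => ?_⟩)
  obtain ⟨γ, χ, ⟨n, hn⟩, c1, c2, c3⟩ := h9 (ρ • b y - y)
  obtain ⟨u', e⟩ := hp.exists_eq hT hw hn c1 c2 (m := T u (ρ • b y - y))
    (by simpa [hp.eq, hρ] using hp.sub (T u y)) (by rw [hn.eq, c3, zero_smul])
  simpa [h₁.φw, h12, hu, hp.φb, sub_eq_zero, mul_assoc, ← sub_smul, smul_smul] using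
    congrArg (hT.cR φ₁) e

/-- The global theorem for linear factors over the field with two elements. -/
theorem Loc.good_of_two_linear (h : Loc X T) (h2 : ∀ c : F, c = 0 ∨ c = 1)
    (hk : 3 ≤ finrank F W) (hall : ∀ w φ, w ≠ 0 → φ ≠ 0 → φ w = 0 → Rt X T w φ)
    (h8 : 4 ≤ finrank F W ∨ Eig X T) {g : V ≃ₗ[F] V} (hg : g ∈ X) : Good T (tr T g) := by
  by_contra hb
  obtain ⟨T₂, t, s, hP⟩ := h.exists_pair hg hb
  have hT := h.tens
  have htwo : Two (Rt X T) := fun w φ c _ ⟨_, h'⟩ =>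
    (h2 c).resolve_left fun e => h'.φ0 (by rw [e, zero_smul])
  have h5 : ∀ w φ, Rt X T w φ → ∃ ψ, Rt X T w ψ ∧ ψ ∉ span F {φ} := by
    rintro w φ ⟨t, ht⟩
    obtain ⟨y, h1, h3⟩ := ht.exists_ker hT hk
    obtain ⟨ψ, h4, h5⟩ := exists_dual_pair h3 1
    refine ⟨ψ, hall w ψ ht.w0 (by rintro rfl; simp at h5) h4, fun e => ?_⟩
    obtain ⟨c, rfl⟩ := mem_span_singleton.1 e
    simp [h1] at h5
  obtain ⟨w₁, φ, h₁⟩ := hP.rt₁
  have hm : NoMove (Rt X T) := by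
    obtain ⟨ψ, ⟨t', h'⟩, hψ⟩ := h5 w₁ φ h₁.rt
    refine Or.inr (Or.inr ⟨hk, w₁, φ, ψ, h₁.rt, h'.rt, hall _ _ h₁.w0 (fun e => hψ ?_)
      (by simp [h₁.φw, h'.φw])⟩)
    rw [eq_neg_of_add_eq_zero_right e]
    exact neg_mem (mem_span_singleton_self φ)
  have hJ := hP.bot_of_centre hm hk htwo h5
  obtain ⟨w₂, h12, hw⟩ := h₁.exists_ker hT hk
  have hw₂ : w₂ ≠ 0 := fun e => hw (e ▸ zero_mem _)
  obtain ⟨t₂, h₂⟩ := hall w₂ φ hw₂ h₁.φ0 h12
  obtain ⟨y₁, u₁, s₁⟩ := hP.exists_swap hm hk htwo hJ h₁.isRt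
  obtain ⟨y₂, u₂, s₂⟩ := hP.exists_swap hm hk htwo hJ h₂.isRt
  have hc := htwo.char hT h₁.isRt
  rcases h8 with h8 | h8
  · obtain ⟨a, b, μ, M, N, hp⟩ := h.exists_prod2 h₁ h₂ s₁ s₂
    obtain ⟨γ, g1, hγ⟩ := exists_notMem_span_pair (P := ker φ)
      (by have := finrank_ker_dual φ; omega) w₁ w₂
    obtain ⟨-, δ, χ, d1, d2, e⟩ := hp.reflection hT hw h₁ h12 g1 g1 hγ fun y₁ y₂ => by
      obtain ⟨χ, c1, c2, c3⟩ := exists_dual_two_zero hk y₁ y₂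
      obtain ⟨γ, c4, c5⟩ := exists_one_zero (by omega) χ
      exact ⟨γ, χ, hall γ χ c4 c1 c5, c2, c3⟩
    obtain ⟨u₀, hu₀⟩ := exists_ne (0 : U)
    have d3 : χ δ = 0 := (h2 _).resolve_right fun e1 => hT.ne_zero hu₀ d1 <| by
      have := e u₀ δ
      rwa [e1, one_smul, ← two_smul F, hc, zero_smul, LinearEquiv.map_eq_zero_iff] at this
    obtain ⟨n, hn⟩ := hall δ χ d1 d2 d3
    have e' : ∀ z, (y₁ * y₂) z = z + n z := LinearMap.congr_fun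
      (hT.ext (a := (y₁ * y₂ : V ≃ₗ[F] V)) (b := 1 + n) fun u y => by simpa [hn.eq] using e u y)
    have k1 := h.same_of_range (hP.rel.trans (rel_tr s₂.mem)) h₂.isRt (hP.rt₂.tr s₂.mem)
      (by rw [s₂.conj'])
    have k2 := hP.loc₂.same_of_range (hP.rel.symm.trans (rel_tr s₁.mem)) hP.rt₂
      (h₁.isRt.tr s₁.mem) (by rw [s₁.conj])
    exact hP.bad (hP.loc₂.good_of_norm hP.rel.symm hn.isRt e' (k2.trans (k1.tr y₁))).symm
  have swap : ∀ {w₁ w₂ t₁ t₂ y₁ y₂ u₁ u₂}, RtE X T w₁ φ t₁ → RtE X T w₂ φ t₂ →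
      w₂ ∉ span F {w₁} → Swap X T t₁ s y₁ u₁ → Swap X T t₂ s y₂ u₂ → ∃ a : U ≃ₗ[F] U,
      (∀ u, (y₁ * y₂) (T u w₁) = T (a u) w₂) ∧ ∀ u, (y₁ * y₂) (T u w₂) = T (a u) w₁ := by
    intro w₁ w₂ t₁ t₂ y₁ y₂ u₁ u₂ h₁ h₂ hw s₁ s₂
    obtain ⟨a, b, μ, M, N, hp⟩ := h.exists_prod2 h₁ h₂ s₁ s₂
    obtain ⟨c, x, hc', hb, hq⟩ := hp.quadratic hT hw h₁ h₂.φw h₁.φw
    obtain rfl := (h2 μ).resolve_left (hp.mu_ne_zero hT hw)
    obtain rfl := (h2 c).resolve_left hc'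
    obtain ⟨u, hu, ρ, hρ⟩ := h8 _ hp.mem a b hp.eq _ _ (by simp) hq
    obtain rfl := (h2 ρ).resolve_left (by rintro rfl; exact hu (by simpa using hρ))
    obtain rfl : x = 0 := by simpa [hρ, hu] using hq u
    exact ⟨a, fun u => by simp [hp.eq, hb], fun u => by simp [hp.eq, hp.bw]⟩
  have hw₃ : w₁ + w₂ ∉ span F {w₁} := fun e =>
    hw ((add_mem_cancel_left (mem_span_singleton_self w₁)).1 e)
  have hw₄ : w₁ + w₂ ∉ span F {w₂} := fun e =>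
    notMem_span_symm h₁.w0 hw ((add_mem_cancel_right (mem_span_singleton_self w₂)).1 e)
  obtain ⟨t₃, h₃⟩ := hall (w₁ + w₂) φ (fun e => hw₃ (e ▸ zero_mem _)) h₁.φ0 (by simp [h₁.φw, h12])
  obtain ⟨y₃, u₃, s₃⟩ := hP.exists_swap hm hk htwo hJ h₃.isRt
  obtain ⟨a₁, a1, a2⟩ := swap h₁ h₂ hw s₁ s₂
  obtain ⟨a₂, a3, -⟩ := swap h₂ h₃ hw₄ s₂ s₃
  obtain ⟨a₃, a5, a6⟩ := swap h₁ h₃ hw₃ s₁ s₃
  obtain ⟨u₀, hu₀⟩ := exists_ne (0 : U)
  have e1 : y₁ * y₃ = y₁ * y₂ * (y₂ * y₃) := by rw [mul_assoc, ← mul_assoc y₂, s₂.sq, one_mul]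
  have e2 : (y₁ * y₃) (T u₀ w₂) = T (a₁ (a₂ u₀)) w₂ + T (a₁ (a₂ u₀)) w₁ := by
    rw [e1, LinearEquiv.mul_apply, a3, map_add, map_add, a1, a2]
  have e3 := a6 u₀
  rw [map_add, map_add, a5, e2, map_add] at e3
  obtain ⟨ξ, x1, x2⟩ := exists_dual_pair' h₁.w0 hw 1 0
  exact hu₀ (by simpa [x1, x2] using congrArg (hT.cR ξ) e3)

end Cfsg.Lib.Class.Wr
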