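import Cfsg.Agent.Class.Wr.LocSL
import Cfsg.Agent.Class.Tens.Uni
import Cfsg.Agent.Class.Tens.Bil

/-!
Adjoints, rank one maps attached to a form, and invariant groups of endomorphisms of a tensor
product with a symplectic or unitary factor.
-/

set_option autoImplicit false
set_option linter.unusedSectionVars false

namespace Cfsg.Lib.Class.Wr

open Module Submodule Tens Tn FE AO Form
open LinearMap (range ker)

variable {F U W V : Type*} [Field F] [AddCommGroup U] [Module F U] [AddCommGroup W] [Module F W]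
  [AddCommGroup V] [Module F V] [FiniteDimensional F U] [FiniteDimensional F W] {σ : F →+* F}

/-- The adjoint of an endomorphism. -/
noncomputable def adj (β : V →ₛₗ[σ] V →ₗ[F] F) (x : End F V) : End F V :=
  Classical.epsilon fun y => ∀ u v, β (y v) u = β v (x u)

/-- The skew part. -/
noncomputable def sk (β : V →ₛₗ[σ] V →ₗ[F] F) (x : End F V) : End F V := x - adj β x

/-- The rank one map `y ↦ f δ y • w`. -/
def xx (f : W →ₛₗ[σ] W →ₗ[F] F) (w δ : W) : End F W := rk w (f δ)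

/-- Isometries of determinant one. -/
noncomputable def SI (f : W →ₛₗ[σ] W →ₗ[F] F) : Subgroup (W ≃ₗ[F] W) := isomGroup f ⊓ SLV F W

section XX

variable {f : W →ₛₗ[σ] W →ₗ[F] F} (w δ w' δ' : W) (c : F)

@[simp] theorem xx_apply (y : W) : xx f w δ y = f δ y • w := rfl

theorem xx_mul : xx f w δ * xx f w' δ' = f δ w' • xx f w δ' := rk_mul _ _ _ _

theorem xx_add_left : xx f (w + w') δ = xx f w δ + xx f w' δ := rk_add_left _ _ _

theorem xx_add_right : xx f w (δ + δ') = xx f w δ + xx f w δ' := by ext; simp [add_smul]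

theorem xx_smul_left : xx f (c • w) δ = c • xx f w δ := rk_smul_left _ _ _

theorem xx_smul_right : xx f w (c • δ) = σ c • xx f w δ := by ext; simp [smul_smul]

@[simp] theorem xx_zero_left : xx f 0 δ = 0 := by ext; simp

@[simp] theorem xx_zero_right : xx f w 0 = 0 := by ext; simp

theorem cj_xx {g : W ≃ₗ[F] W} (hg : g ∈ isomGroup f) : cj g (xx f w δ) = xx f (g w) (g δ) := by
  ext y
  obtain ⟨y, rfl⟩ := g.surjective y
  simp [iso hg]

theorem rad_le_SI (S : Submodule F W) : Rad f S ≤ SI f := fun g hg =>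
  ⟨hg.1, MonoidHom.mem_ker.2 (Units.ext (by rw [LinearEquiv.coe_det, det_of_mem_Rad hg]; rfl))⟩

end XX

end Cfsg.Lib.Class.Wr

namespace Cfsg.Lib.Class.Tn.Hm

open Module Submodule Tens Tn FE AO Form Wr

variable {F V : Type*} [Field F] [AddCommGroup V] [Module F V] [FiniteDimensional F V]
  {σ : F →+* F} {β : V →ₛₗ[σ] V →ₗ[F] F} {ε : F} (h : Hm β ε) (x y : End F V)
include h

theorem adj_spec (u v : V) : β (adj β x v) u = β v (x u) := by
  choose a ha using fun v => h.exists_eq_dual (β v ∘ₗ x)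
  exact Classical.epsilon_spec (p := fun y : End F V => ∀ u v, β (y v) u = β v (x u))
    ⟨{ toFun := a, map_add' := fun v w => h.ext_left fun u => by simp [ha]
       map_smul' := fun c v => h.ext_left fun u => by simp [ha] }, fun u v => ha v u⟩ u v

theorem adj_spec' (u v : V) : β u (adj β x v) = β (x u) v := by
  rw [h.sym, h.adj_spec, ← h.sym]

theorem adj_eq {x y : End F V} (e : ∀ u v, β (y v) u = β v (x u)) : adj β x = y :=
  LinearMap.ext fun v => h.ext_left fun u => by rw [h.adj_spec, e]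

theorem adj_adj : adj β (adj β x) = x := h.adj_eq fun u v => (h.adj_spec' x v u).symm

theorem adj_add : adj β (x + y) = adj β x + adj β y := h.adj_eq fun u v => by simp [h.adj_spec]

theorem adj_sub : adj β (x - y) = adj β x - adj β y := h.adj_eq fun u v => by simp [h.adj_spec]

theorem adj_neg : adj β (-x) = -adj β x := h.adj_eq fun u v => by simp [h.adj_spec]

theorem adj_zero : adj β 0 = 0 := h.adj_eq fun u v => by simp

theorem adj_one : adj β 1 = 1 := h.adj_eq fun u v => by simp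

theorem adj_mul : adj β (x * y) = adj β y * adj β x := h.adj_eq fun u v => by simp [h.adj_spec]

theorem adj_smul (c : F) : adj β (c • x) = σ c • adj β x :=
  h.adj_eq fun u v => by simp [h.adj_spec, h.invol]

theorem adj_xx (w δ : V) : adj β (xx β w δ) = ε • xx β δ w := h.adj_eq fun u v => by
  simp only [LinearMap.smul_apply, xx_apply, map_smulₛₗ, h.σε, h.conj, smul_eq_mul, RingHom.id_apply]
  linear_combination β v w * β δ u * h.eps

theorem adj_coe {g : V ≃ₗ[F] V} (hg : g ∈ isomGroup β) :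
    adj β (g : End F V) = ((g⁻¹ : V ≃ₗ[F] V) : End F V) := h.adj_eq fun u v => by
  rw [← iso hg]; simp

theorem adj_cj {g : V ≃ₗ[F] V} (hg : g ∈ isomGroup β) : adj β (cj g x) = cj g (adj β x) := by
  simp only [cj_eq_mul, h.adj_mul, h.adj_coe hg, h.adj_coe (inv_mem hg), inv_inv, mul_assoc]

theorem sk_cj {g : V ≃ₗ[F] V} (hg : g ∈ isomGroup β) : cj g (sk β x) = sk β (cj g x) := by
  rw [sk, sk, map_sub, h.adj_cj _ hg]

theorem sk_add : sk β (x + y) = sk β x + sk β y := by rw [sk, sk, sk, h.adj_add]; abel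

theorem sk_zero : sk β 0 = 0 := by simp [sk, h.adj_zero]

theorem adj_of_uIn {X : Subgroup (V ≃ₗ[F] V)} (hX : X ≤ isomGroup β) {x : End F V} (hx : UIn X x)
    (h0 : x * x = 0) : adj β x = -x := by
  obtain ⟨g, hg, e⟩ := hx
  have h1 := h.adj_coe (hX hg)
  rw [show (g : End F V) = 1 + x from LinearMap.ext e, h.adj_add, h.adj_one] at h1
  ext v
  simpa [inv_apply_of_sq e h0, sub_eq_add_neg, -LinearEquiv.coe_inv] using LinearMap.congr_fun h1 v

theorem xx_ne_zero {w δ : V} (hw : w ≠ 0) (hδ : δ ≠ 0) : xx β w δ ≠ 0 :=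
  rk_ne_zero hw fun h0 => hδ (h.sep δ fun v => by simp [h0])

theorem tv_mem {p : V} (hp : β p p = 0) {s : F} (hs : ε * s + σ s = 0) (h0 : β p (s • p) = 0) :
    Wr.tv (s • p) (β p) h0 ∈ SI β := by
  obtain ⟨b, hb, e⟩ := h.exists_tv hp hs
  convert rad_le_SI _ hb
  ext y
  simp [tv_apply, e, smul_smul, mul_comm]

theorem exists_eich_zero {p δ : V} (hp : β p p = 0) (hδ : β δ δ = 0) (h0 : β p δ = 0) :
    ∃ g ∈ SI β, ∀ y, g y = y + (xx β δ p - ε • xx β p δ) y :=
  ⟨_, rad_le_SI _ (h.eich_mem_Rad hp h0 (c := 0) (by simp [hδ])), fun y => by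
    simp [h.eich_apply, smul_smul, add_sub_assoc]⟩

theorem exists_hyp {p δ : V} (hp0 : p ≠ 0) (hδ : β δ δ = 0) (h0 : β p δ = 0)
    (h1 : ∀ a : F, δ ≠ a • p) : ∃ η, β η η = 0 ∧ β p η = 0 ∧ β δ η = 1 := by
  obtain ⟨y, h2, h3⟩ := h.exists_orth_ne hp0 h1
  obtain ⟨a, h4, h5⟩ := h.partner hδ h3
  exact ⟨_, h4, by simp [h2, h0], h5⟩

theorem eq_top_of_xx (hS : SpanOpp β) {p : V} (hp0 : p ≠ 0) (hp : β p p = 0)
    {S : Submodule F (End F V)}
    (H : ∀ p p', β p p = 0 → β p' p' = 0 → β p p' ≠ 0 → xx β p p' ∈ S) : S = ⊤ := by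
  refine eq_top_of_rk fun w φ => ?_
  obtain ⟨y, hy⟩ := h.exists_eq_dual φ
  rw [← show β y = φ from LinearMap.ext hy]
  refine (hS p hp0 hp (S.comap ((LinearMap.smulRightₗ (β y)))) fun z hz hz' => ?_).ge
    (mem_top (x := w))
  exact (hS z (by rintro rfl; simp at hz') hz
    { carrier := {y | xx β z y ∈ S}, zero_mem' := by simp
      add_mem' := fun a b => by simpa [xx_add_right] using S.add_mem a b
      smul_mem' := fun c _ a => by simpa [xx_smul_right] using S.smul_mem (σ c) a }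
    fun y h1 h2 => H z y hz h1 (h.ne_comm h2)).ge (mem_top (x := y))

theorem scalar_of_iso_tv {s : F} (hs0 : s ≠ 0) (hs : ε * s + σ s = 0) {p : V} (hp0 : p ≠ 0)
    (hp : β p p = 0) {b : End F V} (H : ∀ p, β p p = 0 → ∃ c : F, b p = c • p) :
    ∃ c : F, b = c • 1 := by
  obtain ⟨c, hc⟩ := H p hp
  refine ⟨c, LinearMap.ext fun v => (h.spanOpp_of_tv hs0 hs p hp0 hp
    (LinearMap.eqLocus b (c • 1)) fun y h1 h2 => ?_).ge (mem_top (x := v))⟩
  obtain ⟨d, hd⟩ := H y h1
  obtain ⟨e, he⟩ := H (p + (s * β y p) • y) (by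
    simp only [map_add, map_smulₛₗ, LinearMap.add_apply, LinearMap.smul_apply, hp, h1, map_mul,
      h.conj, smul_eq_mul, RingHom.id_apply]
    linear_combination ε * β p y * β y p * hs - s * β p y * β y p * h.eps)
  have h3 := congrArg (β y) he
  have h4 := congrArg (β p) he
  simp only [map_add, map_smul, hc, hd, hp, h1, smul_eq_mul, mul_zero, add_zero, zero_add] at h3 h4
  have h5 := mul_right_cancel₀ h2 h3
  have h6 : d = e := mul_left_cancel₀ (mul_ne_zero (mul_ne_zero hs0 h2) (h.ne_comm h2))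
    (by linear_combination h4)
  show b y = c • y
  rw [hd, h5, h6]

end Cfsg.Lib.Class.Tn.Hm

namespace Cfsg.Lib.Class.Tn.TF

open Module Submodule Tens Tn FE AO Form Wr

variable {F U W V : Type*} [Field F] [AddCommGroup U] [Module F U] [AddCommGroup W] [Module F W]
  [AddCommGroup V] [Module F V] [FiniteDimensional F U] [FiniteDimensional F W] {σ : F →+* F}
  {T : U →ₗ[F] W →ₗ[F] V} {h : U →ₛₗ[σ] U →ₗ[F] F} {f : W →ₛₗ[σ] W →ₗ[F] F}
  {β : V →ₛₗ[σ] V →ₗ[F] F} {ε₂ ε : F} (t : TF T h ε₂ f ε β)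
include t

theorem adj_mp (a : End F U) (b : End F W) :
    adj β (t.hT.mp a b) = t.hT.mp (adj h a) (adj f b) := by
  have := t.hT.finiteDimensional
  refine t.hm.adj_eq fun u v => ?_
  refine t.hT.ind (P := fun u => β (t.hT.mp (adj h a) (adj f b) v) u = β v (t.hT.mp a b u))
    (by simp) (fun a b ha hb => by simp [ha, hb]) (fun x y => ?_) u
  refine t.hT.ind (P := fun v => β (t.hT.mp (adj h a) (adj f b) v) (T x y) =
    β v (t.hT.mp a b (T x y))) (by simp) (fun a b ha hb => by simp only [map_add, ha, hb,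
      LinearMap.add_apply]) (fun x' y' => ?_) v
  simp [t.tens, t.hf.adj_spec, t.hh.adj_spec]

theorem adj_kap (b : End F W) : adj β (kap t.hT b) = kap t.hT (adj f b) := by
  rw [kap_eq, t.adj_mp, t.hf.adj_one, kap_eq]

theorem inC_adj {m : End F V} (hm : InC T m) : InC T (adj β m) := by
  obtain ⟨a, rfl⟩ := (inC_iff t.hT).1 hm
  rw [t.adj_mp, t.hh.adj_one]
  exact inC_mp _ _

theorem ug_isom {g : W ≃ₗ[F] W} (hg : g ∈ isomGroup f) : ug t.hT g ∈ isomGroup β :=
  t.mpE_isom' (one_mem _) hg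

theorem sk_mul {m : End F V} (hm : InC T m) (w δ : W) : sk β (m * kap t.hT (xx f w δ)) =
    m * kap t.hT (xx f w δ) - ε • (adj β m * kap t.hT (xx f δ w)) := by
  have := t.hT.finiteDimensional
  rw [sk, t.hm.adj_mul, t.adj_kap, t.hh.adj_xx, (t.inC_adj hm).comm_kap, map_smul, mul_smul_comm]

/-- Conjugation of a rank one term by an isometry moving two of the subspaces `U ⊗ δ`. -/
theorem cj_eq [Nontrivial W] {q : V ≃ₗ[F] V} (hq : q ∈ isomGroup β) {δ₁ δ₂ w₁ w₂ : W}
    {a₁ a₂ γ : End F V} (h2 : InC T a₂) (hγ : InC T γ)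
    (e₁ : ∀ u, q (T u δ₁) = T u δ₁ + a₁ (T u w₁)) (e₂ : ∀ u, q (T u δ₂) = T u δ₂ + a₂ (T u w₂)) :
    cj q (γ * kap t.hT (xx f δ₁ δ₂)) = γ * kap t.hT (xx f δ₁ δ₂) +
      a₁ * γ * kap t.hT (xx f w₁ δ₂) + γ * adj β a₂ * kap t.hT (xx f δ₁ w₂) +
      a₁ * γ * adj β a₂ * kap t.hT (xx f w₁ w₂) := by
  have := t.hT.finiteDimensional
  obtain ⟨η, η', hη⟩ := t.hh.exists_ne_pair
  have h3 : (q : End F V) * kap t.hT (xx f δ₂ η') =
      kap t.hT (xx f δ₂ η') + a₂ * kap t.hT (xx f w₂ η') := t.hT.ext fun u y => by simp [e₂]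
  have h4 := congrArg (fun x => ε • adj β x) h3
  simp only [t.hm.adj_mul, t.hm.adj_add, t.adj_kap, t.hh.adj_xx, map_smul, t.hm.adj_coe hq,
    smul_mul_assoc, smul_add, smul_smul, t.hh.eps, one_smul, (t.inC_adj h2).comm_kap] at h4
  have h5 : xx f δ₁ δ₂ = xx f δ₁ η * xx f η' δ₂ := by rw [xx_mul, hη, one_smul]
  obtain ⟨c, hc⟩ := hγ
  obtain ⟨d, hd⟩ := t.inC_adj h2
  conv_lhs => rw [h5, map_mul (kap _), cj_eq_mul, mul_assoc, mul_assoc, mul_assoc, h4]
  exact t.hT.ext fun u y => by simp [hc, hd, e₁, hη]; abel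

end Cfsg.Lib.Class.Tn.TF
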