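import Cfsg.Agent.Class.Wr.Grp
import Cfsg.Agent.Class.Tens.SpO

/-!
Overgroups of the stabiliser of a tensor power of a symplectic or unitary space.
-/

set_option autoImplicit false
set_option linter.unusedSectionVars false

namespace Cfsg.Lib.Class.Wr

open Module Submodule Tens Tn FE AO Form QuadraticMap Orth OMax
open LinearMap (range ker)

variable {F U W V : Type*} [Field F] [AddCommGroup U] [Module F U] [AddCommGroup W] [Module F W]
  [AddCommGroup V] [Module F V] [FiniteDimensional F U] [FiniteDimensional F W]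
  {X : Subgroup (V ≃ₗ[F] V)} [Nontrivial U] [Finite F]

namespace F1

section Gen

variable {σ : F →+* F} {T : U →ₗ[F] W →ₗ[F] V} {h : U →ₛₗ[σ] U →ₗ[F] F} {f : W →ₛₗ[σ] W →ₗ[F] F}
  {β : V →ₛₗ[σ] V →ₗ[F] F} {ε₂ ε : F} (c : F1 T h ε₂ f ε β X)
  (H : ∀ r, InC T r → r - ε • adj β r ∈ Lam c.hT f X)
include c

theorem rt_iff {w : W} {φ : Dual F W} : Rt X T w φ ↔
    w ≠ 0 ∧ f w w = 0 ∧ ∃ s, s ≠ 0 ∧ ε * s + σ s = 0 ∧ φ = s • f w := by
  have := c.hT.finiteDimensional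
  refine ⟨fun ⟨t, ht⟩ => ?_, ?_⟩
  swap
  · rintro ⟨h1, h2, s, h3, h4, rfl⟩
    exact ⟨_, (c.lam_skew h4).2 w h2, h1, smul_ne_zero h3 fun h0 =>
      h1 (c.hh.sep w fun v => by simp [h0]), by simp [h2], fun u y => by simp [smul_smul]⟩
  obtain ⟨z, hz⟩ := c.hh.exists_eq_dual φ
  obtain rfl : f z = φ := LinearMap.ext hz
  obtain rfl : t = kap c.hT (xx f w z) := c.hT.ext fun u y => by simp [ht.eq]
  have h1 := c.hm.adj_of_uIn c.le ht.uin (by rw [← map_mul, xx_mul, ht.φw, zero_smul, map_zero])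
  rw [c.adj_kap, c.hh.adj_xx, eq_neg_iff_add_eq_zero, ← map_add] at h1
  replace h1 := not_not.1 (mt (kap_ne_zero c.hT) (not_not.2 h1))
  obtain ⟨y, hy⟩ := c.hh.exists_eq_one ht.w0
  obtain ⟨a, rfl⟩ : ∃ a : F, z = a • w := ⟨-(ε * f z y), by
    have := congrArg (ε • ·) (LinearMap.congr_fun h1 y)
    simp [hy, smul_smul, c.hh.eps] at this
    linear_combination (norm := module) this⟩
  have h2 : σ a ≠ 0 := fun h0 => ht.φ0 (by simp [h0])
  have h3 := LinearMap.congr_fun h1 y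
  simp [hy, smul_smul, ← add_smul, ht.w0] at h3
  exact ⟨ht.w0, by simpa [h2] using ht.φw, σ a, h2, by
    rw [c.hh.invol]; linear_combination ε * h3 - a * c.hh.eps, by simp⟩

theorem eig (hσ : σ ≠ RingHom.id F) (h2 : ∀ a, σ a = a → a = 0 ∨ a = 1) : Eig X T := by
  intro g hg a b e s x hs H
  have := c.ft.nontrivial
  have h11 : (1 + 1 : F) = 0 := (h2 _ (by simp)).resolve_right (by simp)
  have hN : ∀ t, t ≠ 0 → t * σ t = 1 := fun t ht =>
    (h2 _ (by rw [map_mul, c.hh.invol, mul_comm])).resolve_left (by simpa)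
  have hT : ∀ t, σ t ≠ t → σ t = t + 1 := fun t ht => by
    rcases h2 (t + σ t) (by rw [map_add, c.hh.invol, add_comm]) with h | h
    · exact (ht (by linear_combination h - t * h11)).elim
    · linear_combination h - t * h11
  have hsq : ∀ t, σ t = t * t := fun t => by
    by_cases ht : σ t = t
    · rcases h2 t ht with rfl | rfl <;> simp
    · have := hN t (by rintro rfl; simp at ht)
      rw [hT t ht] at this ⊢
      linear_combination this - (t * t - 1) * h11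
  obtain ⟨y, y', hy⟩ := c.hh.exists_ne_pair
  obtain ⟨u, u', hu⟩ := c.hf.exists_ne_pair
  have h3 : ∀ v v' z z', h (a v) (a v') * f (b z) (b z') = h v v' * f z z' := fun v v' z z' => by
    rw [← c.tens, ← e, ← e, iso (c.le hg), c.tens]
  have h4 : ∀ z z', f (b z) (b z') = f (b y) (b y') * f z z' := fun z z' => by
    have a1 := h3 u u' y y'
    have a2 := h3 u u' z z'
    rw [hu] at a1 a2
    rw [hy] at a1
    linear_combination f (b y) (b y') * a2 - f (b z) (b z') * a1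
  have h5 : f (b y) (b y') = 1 := (h2 _ (by
    rw [c.hh.conj, h4 y' y, c.hh.swap_one hy]
    linear_combination f (b y) (b y') * c.hh.eps)).resolve_left fun h0 => by
      simpa [h0, hu, hy] using h3 u u' y y'
  have h6 : ∀ v v', h (a v) (a v') = h v v' := fun v v' => by simpa [h5, hy] using h3 v v' y y'
  have h7 : x * x = s * s * x := by
    have a1 := congrArg (h (a u)) (H u')
    have a2 := congrArg (h · (a u')) (H u)
    simp only [map_add, map_smulₛₗ, LinearMap.add_apply, LinearMap.smul_apply, h6, hu, smul_eq_mul,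
      RingHom.id_apply, hsq] at a1 a2
    have := hN s hs
    rw [hsq] at this
    linear_combination a2 + s * s * a1 - h u (a u') * this + (h u (a u') - s * s * x -
      s * s * h (a u) u') * h11 + (s * s * h (a u) u' - h u (a u')) * h11
  have h8 := hN s hs
  rw [hsq] at h8
  obtain ⟨ρ, ρ', h9, h10⟩ : ∃ ρ ρ' : F, ρ + ρ' = s * s * x ∧ ρ * ρ' = s * s := by
    by_cases hx : x = 0
    · exact ⟨s, s, by linear_combination s * h11 - s * s * hx, rfl⟩
    obtain ⟨μ, hμ⟩ := exists_not_fixed hσ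
    have a1 := hN μ (by rintro rfl; simp at hμ)
    exact ⟨s * μ, s * σ μ, by
      rw [mul_right_cancel₀ hx h7, hT μ hμ]; linear_combination s * μ * h11 - s * h8,
      by linear_combination s * s * a1⟩
  have h12 : ∀ v, a (a v - ρ' • v) = ρ • (a v - ρ' • v) := fun v => by
    have := congrArg ((s * s) • ·) (H v)
    simp only [map_sub, map_smul, smul_sub, smul_add, smul_smul] at this ⊢
    linear_combination (norm := match_scalars) this
    · linear_combination -h8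
    · linear_combination -h9 - s * s * x * h11
    · linear_combination h10 + s * s * h11
  by_cases h0 : a u - ρ' • u = 0
  · exact ⟨u, by rintro rfl; simp at hu, ρ', sub_eq_zero.1 h0⟩
  · exact ⟨_, h0, ρ, h12 u⟩

include H

theorem uin_xx (x y : U) {p : W} (hp : f p p = 0) :
    UIn X (xx β (T y p) (T x p) - (ε₂ * ε) • xx β (T x p) (T y p)) := by
  have := c.hT.finiteDimensional
  convert (H _ (inC_mp c.hT (xx h y x))).2 p hp using 1
  rw [c.adj_mp, c.hf.adj_xx, c.hh.adj_one]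
  exact c.hT.ext fun u z => by simp [c.tens]; module

theorem mem_RS (hU : 3 ≤ finrank F U) {x : U} (hx : x ≠ 0) {p : W} (hp0 : p ≠ 0) (hp : f p p = 0)
    {v : V} (hv : β (T x p) v = 0) : v ∈ c.hm.RS X (T x p) := by
  have := c.hT.finiteDimensional
  have H0 : ∀ x y p, f p p = 0 → T y p ∈ c.hm.RS X (T x p) := fun x y p hp _ =>
    ⟨by simp [c.tens, hp], fun a => by
      obtain ⟨k, hk, e⟩ := c.uin_xx H x (a • y) hp
      exact ⟨k, hk, 0, fun v => by simp [e, smul_smul, add_sub_assoc]⟩⟩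
  have H1 : ∀ x y p w, p ≠ 0 → f p p = 0 → h x y = 0 → T y w ∈ c.hm.RS X (T x p) := by
    intro x y p w hp0 hp hxy
    refine c.mem_RS_of_opp c.ft.spanOpp hp0 hp (fun p' hp' hpp => ?_) w
    obtain ⟨u, h1, h2⟩ := exists_ker_notMem hU (h y) x
    obtain ⟨u', h3, h4⟩ := c.hf.exists_pair h2
    exact c.hm.centre_mem_RS c.le (by simp [c.tens, hp']) (H0 y u' p' hp')
      (by simp [c.tens, c.hf.comm hxy]) (by simp [c.tens, h3]) (H0 x u p hp) (by simp [c.tens, h1])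
      (by simp [c.tens, h4, hpp])
  obtain ⟨x', hxx⟩ := c.hf.exists_eq_one hx
  rw [c.left] at hv
  have h1 : v - T x' (c.c x v) ∈ c.hm.RS X (T x p) :=
    c.ind_orth (P := fun v => v ∈ c.hm.RS X (T x p)) (zero_mem _) (fun _ _ => add_mem)
      (fun u w hu => H1 x u p w hp0 hp hu) (by simp [hxx])
  suffices T x' (c.c x v) ∈ c.hm.RS X (T x p) by simpa using add_mem h1 this
  obtain ⟨y, h2, h3⟩ := exists_one_zero (M := U) (by omega) (h x')
  obtain ⟨u, h4, h5⟩ := c.hf.exists_orth_ne hx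
    (c.hf.ne_smul_of hxx h2 h3)
  obtain ⟨w, hw⟩ := c.hh.exists_eq_one hp0
  exact c.hm.dir_mem_RS c.le (z' := T y p) (by simp [c.tens, hp])
    (H1 y x' p _ hp0 hp (c.hf.comm h3)) (by simp [c.tens, hp]) (by simp [c.tens, c.hh.comm hv])
    (H1 x u p w hp0 hp h4) (by simp [c.tens, h5, hw]) (H0 x y p hp)

omit H in
theorem exists_hyp : ∃ x x' p p', x ≠ 0 ∧ x' ≠ 0 ∧ p ≠ 0 ∧ p' ≠ 0 ∧ f p p = 0 ∧ f p' p' = 0 ∧
    β (T x p) (T x' p') = 1 := by
  obtain ⟨x, x', hx⟩ := c.hf.exists_ne_pair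
  obtain ⟨p, h1, h2⟩ := c.ft.exists_iso
  obtain ⟨p', h3, h4⟩ := c.hh.exists_partner h1 h2
  exact ⟨x, x', p, p', by rintro rfl; simp at hx, by rintro rfl; simp at hx, h1,
    by rintro rfl; simp at h4, h2, h3, by simp [c.tens, hx, h4]⟩

theorem SI_le (hU : 3 ≤ finrank F U) (hβ : Herm β) (h1 : ε₂ * ε = 1) : SI β ≤ X := by
  have := c.hT.finiteDimensional
  have hV : 4 ≤ finrank F V := by rw [c.hT.finrank_eq]; nlinarith [c.ft.two]
  have H2 : ∀ x p, x ≠ 0 → p ≠ 0 → f p p = 0 → hβ.Full (X.subgroupOf (isomGroup β)) (T x p) := by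
    intro x p hx0 hp0 hp
    have hz : β (T x p) (T x p) = 0 := by simp [c.tens, hp]
    refine hβ.full_of_forall (by omega) hz fun v hv => ⟨0, ?_⟩
    obtain ⟨k, hk, b, e⟩ := (c.mem_RS H hU hx0 hp0 hp hv hz).2 1
    have hb := c.hm.trace_of_eIn (c.hT.ne_zero hx0 hp0) hz (by simpa) (c.le hk) e
    simp only [one_smul, one_mul, h1] at e hb
    rw [zero_smul, add_zero]
    refine ⟨hv, b, hb, ?_⟩
    rwa [Subgroup.mem_subgroupOf, show ((hβ.eich hz hv b hb : isomGroup β) : V ≃ₗ[F] V) = k from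
      LinearEquiv.ext fun y => by rw [hβ.eich_apply, e]]
  obtain ⟨x, x', p, p', a1, a2, a3, a4, a5, a6, a7⟩ := c.exists_hyp
  exact fun g hg => hβ.sIsom_le_of_full hV (H2 x p a1 a3 a5) (H2 x' p' a2 a4 a6) (by simp [a7])
    (x := ⟨g, hg.1⟩) hg.2

end Gen

variable {T : U →ₗ[F] W →ₗ[F] V} {h : U →ₗ[F] U →ₗ[F] F} {f : W →ₗ[F] W →ₗ[F] F}

theorem Om_le {Q : QuadraticForm F V} (c : F1 T h (-1) f (-1) (polarBilin Q) X)
    (H : ∀ r, InC T r → r - (-1 : F) • adj (polarBilin Q) r ∈ Lam c.hT f X) (hU : 3 ≤ finrank F U)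
    (hX : X ≤ O Q) (h0 : ∀ u w, Q (T u w) = 0) : Om Q ≤ X := by
  have := c.hT.finiteDimensional
  have H2 : ∀ x p, x ≠ 0 → p ≠ 0 → f p p = 0 → Full (X.subgroupOf (O Q)) ⊤ (T x p) :=
    fun x p hx0 hp0 hp => full_of _ fun hz w _ hw => by
    have hz' : polarBilin Q (T x p) (T x p) = 0 := by simp [c.tens, hp]
    obtain ⟨k, hk, b, e⟩ := (c.mem_RS H hU hx0 hp0 hp (v := w) hw hz').2 (-1)
    obtain ⟨y, hy⟩ := c.hm.exists_eq_one (c.hT.ne_zero hx0 hp0)
    simp only [c.hf.eps, polarBilin_apply_apply, neg_smul, one_smul, polar_neg_left, one_mul] at e hy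
    have hb : b = Q w := by
      have := mem_O.1 (hX hk) y
      rw [e, Q_sub, Q_add, Q_smul, Q_smul, QuadraticMap.map_neg, hz] at this
      simp only [hy, polar_add_left, polar_smul_left', polar_smul_right', polar_neg_left,
        polar_neg_right, pc hy, pc hw, polar_comm Q y w] at this
      linear_combination -this
    rw [Subgroup.mem_subgroupOf, show (eich Q (T x p) w).1 = k from LinearEquiv.ext fun v => by
      rw [eich_apply hz hw, e, hb, polar_comm Q v, polar_comm Q v]; module]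
    exact hk
  obtain ⟨x, x', p, p', a1, a2, a3, a4, a5, a6, a7⟩ := c.exists_hyp
  rintro _ ⟨g, hg, rfl⟩
  exact commutator_le_of_two_full c.hm.nondeg (by rw [c.hT.finrank_eq]; nlinarith [c.ft.two])
    (h0 x p) (h0 x' p') (by rw [← polarBilin_apply_apply, a7]; simp) (H2 x p a1 a3 a5)
    (H2 x' p' a2 a4 a6) hg

theorem isom_le {β : V →ₗ[F] V →ₗ[F] F} (c : F1 T h 1 f (-1) β X)
    (H : ∀ r, InC T r → r - (-1 : F) • adj β r ∈ Lam c.hT f X) (h2 : (2 : F) ≠ 0) :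
    isomGroup β ≤ X := by
  have := c.hT.finiteDimensional
  have hβ : Hm β (-1) := by simpa using c.hm
  refine le_of_TSet_conn hβ h2 (hβ.alt h2) fun u v hu hv => ?_
  have h1 : ∀ v, v ≠ 0 → ∃ x w, β v (T x w) ≠ 0 := fun v hv => by
    by_contra! hc
    exact hv (hβ.sep v (c.hT.ind (by simp) (fun a b ha hb => by simp [ha, hb]) hc))
  obtain ⟨x₁, w₁, a1⟩ := h1 u hu
  obtain ⟨x₂, w₂, a2⟩ := h1 v hv
  obtain ⟨x, -, a3, a4⟩ := exists_mem_both_ne_zero ⊤ (β u ∘ₗ T.flip w₁) (β v ∘ₗ T.flip w₂)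
    ⟨x₁, trivial, a1⟩ ⟨x₂, trivial, a2⟩
  obtain ⟨w, -, a5, a6⟩ := exists_mem_both_ne_zero ⊤ (β u ∘ₗ T x) (β v ∘ₗ T x)
    ⟨w₁, trivial, a3⟩ ⟨w₂, trivial, a4⟩
  refine ⟨T x w, fun s => ?_, a5, a6⟩
  obtain ⟨k, hk, e⟩ := c.uin_xx H x ((-s * 2⁻¹) • x) (c.hh.alt h2 w)
  convert hk using 1
  ext y
  show y + (s * β y (T x w)) • T x w = _
  rw [hβ.skew y]
  simp only [e, map_smul, LinearMap.sub_apply, LinearMap.smul_apply, xx_apply, smul_eq_mul]
  match_scalars <;> field_simp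
  ring

end F1

variable {σ : F →+* F} {τ : Type*} {T : τ → U →ₗ[F] W →ₗ[F] V} {h : τ → U →ₛₗ[σ] U →ₗ[F] F}
  {f : W →ₛₗ[σ] W →ₗ[F] F} {β : V →ₛₗ[σ] V →ₗ[F] F} {ε₂ ε : F} [Nontrivial W] [Fintype τ]
  [DecidableEq τ]

/-- An overgroup either preserves the decomposition or has all root coefficients. -/
theorem FW.main (c : FW T h ε₂ f ε β X) (hp : c.tp.Alt X)
    (hk : 4 ≤ finrank F W ∧ (σ = RingHom.id F → (2 : F) ≠ 0 ∨ 5 ≤ finrank F W) ∨
      Sm σ W ∧ 3 ≤ Fintype.card τ) : (∀ g ∈ X, TP.IsWr T g) ∨ ∃ a, c.Full a := by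
  by_cases H : ∀ a, ∀ γ ∈ c.L a, ∃ s : F, γ = s • 1
  swap
  · push Not at H
    obtain ⟨a, γ, h1, h2⟩ := H
    exact Or.inr ⟨a, hk.elim (fun hk => c.full_big hp hk.1 hk.2 h1 (not_exists.2 h2))
      fun hk => c.full_small hp hk.1 hk.2 h1 (not_exists.2 h2)⟩
  refine Or.inl fun g hg => ?_
  cases isEmpty_or_nonempty τ
  · exact ⟨1, fun i => isEmptyElim i⟩
  have hf := c.ft (Classical.arbitrary τ)
  refine hp.isWr hf.two (fun i g hg => ?_) hg
  have t := c.one i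
  obtain ⟨s, s0, s1⟩ := hf.skew
  have h1 : ∀ {w}, w ≠ 0 → f w w = 0 → Rt X (T i) w (s • f w) := fun h1 h2 =>
    t.rt_iff.2 ⟨h1, h2, s, s0, s1, rfl⟩
  have h2 : σ ≠ RingHom.id F → 3 ≤ finrank F W := fun hσ =>
    (hf.typ.resolve_right fun h => hσ h.1).2.2
  have hL : Loc X (T i) := ⟨t.hT, fun w φ hw y hy =>
    let ⟨a1, a2, _⟩ := t.rt_iff.1 hw
    mem_tensG_form t.toTF hf (hk.imp And.left And.left) t.le t.ge a1 a2 (c.zz (fun hσ => hk.elim
      (fun hk => Or.inr ((hk.2 hσ).symm.imp_right fun h => ⟨hk.1, h⟩))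
      fun hk => Or.inl (hk.1.1.resolve_left fun h => h hσ).1) (H i) a1 a2) hy,
    fun w φ w' φ' hw hw' => by
      obtain ⟨a1, a2, -⟩ := t.rt_iff.1 hw
      obtain ⟨a3, a4, -⟩ := t.rt_iff.1 hw'
      obtain ⟨g, hg, rfl⟩ := hf.trans a1 a3 (by rw [a2, a4])
      exact ⟨_, t.ge g hg, ug_mem _ g, fun u => ⟨u, by simp⟩⟩,
    fun ρ hρ => hf.scalar_of_iso fun p a1 a2 =>
      (mem_span_singleton.1 (hρ p _ (h1 a1 a2))).imp fun _ => Eq.symm, hf.two,
    hk.elim (fun hk => Or.inr (by omega)) fun hk => (hk.1.1.imp h2 And.right).symm⟩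
  by_cases h3 : ∀ a, σ a = a → a = 0 ∨ a = 1
  · obtain ⟨hk, hk'⟩ := hk.resolve_right fun ⟨⟨_, l, a1, a2⟩, _⟩ =>
      (h3 _ (by rw [map_mul, hf.hm.invol, mul_comm])).elim (by simpa) a2
    obtain ⟨w₁, a1, a2⟩ := hf.exists_iso
    obtain ⟨w₂, a3, a4, a5⟩ := hf.exists_indep hk a1
    have a6 : w₂ ≠ 0 := by simpa using a5 0
    have h4 : ∀ {w δ : W}, (∀ a : F, δ ≠ a • w) → δ ∉ span F {w} := fun h H =>
      let ⟨a, ha⟩ := mem_span_singleton.1 H; h a ha.symm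
    refine hL.good_of_two_form (fun w φ a hw hw' => ?_) hk (fun w φ hw => ?_) (fun y z => ?_)
      (h1 a1 a2) (h1 a6 a3) (by simp [a4]) (by simp [hf.hm.comm a4]) (h4 a5) (fun H => ?_) ?_ hg
    · obtain ⟨b1, -, r, b2, b3, rfl⟩ := t.rt_iff.1 hw
      obtain ⟨-, -, r', b4, b5, e⟩ := t.rt_iff.1 hw'
      obtain ⟨y, hy⟩ := hf.hm.exists_eq_one b1
      obtain rfl : a * r = r' := by simpa [hy] using LinearMap.congr_fun e y
      refine (h3 a (mul_right_cancel₀ (b := σ r) (by simpa) ?_)).resolve_left (left_ne_zero_of_mul b4)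
      rw [map_mul] at b5
      linear_combination b5 - a * b3
    · obtain ⟨b1, -⟩ := t.rt_iff.1 hw
      obtain ⟨δ, b2, b3, b4⟩ := hf.exists_indep hk b1
      exact ⟨δ, _, h1 (by simpa using b4 0) b2, by simp [hf.hm.comm b3], h4 b4⟩
    · obtain ⟨p, b1, b2, b3, b4⟩ := hf.exists_perp hk y z
      exact ⟨p, _, h1 b1 b2, by simp [hf.hm.comm b3], by simp [hf.hm.comm b4]⟩
    · obtain ⟨y, b1, b2⟩ := hf.hm.exists_pair (notMem_span_symm a1 (h4 a5))
      obtain ⟨a, e⟩ := mem_span_singleton.1 H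
      simpa [hf.hm.comm b1, hf.hm.swap_one b2, s0, hf.hm.eps_ne] using LinearMap.congr_fun e y
    by_cases hσ : σ = RingHom.id F
    · exact Or.inl ((hk' hσ).resolve_left (not_not.2 ((h3 2 (by simp [hσ])).resolve_right
        (by rw [← one_add_one_eq_two]; simp))))
    refine Or.inr ⟨t.eig hσ h3, fun y => ?_⟩
    by_cases b1 : f w₁ y = 0
    · exact ⟨w₁, _, h1 a1 a2, by simp [a2], by simp [a4], by simp [b1]⟩
    refine ⟨σ (f w₁ y) • w₂ - σ (f w₂ y) • w₁, _, h1 (fun h0 => a5 (σ (f w₂ y) / σ (f w₁ y)) ?_)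
      (by simp [a2, a3, a4, hf.hm.comm a4]), by simp [a2, hf.hm.comm a4], by simp [a3, a4],
      by simp [hf.hm.invol, mul_comm]⟩
    rw [div_eq_inv_mul, mul_smul, ← sub_eq_zero.1 h0, inv_smul_smul₀ (by simpa)]
  obtain ⟨a, a1, a2, a3, a4⟩ : ∃ a, σ a = a ∧ a ≠ 0 ∧ a ≠ 1 ∧ (3 ≤ finrank F W ∨ a * a ≠ 1) := by
    by_cases h4 : 3 ≤ finrank F W
    · push Not at h3
      exact h3.imp fun a h => ⟨h.1, h.2.1, h.2.2, Or.inl h4⟩
    obtain ⟨⟨-, l, a1, a2⟩, -⟩ := hk.resolve_left (by omega)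
    obtain rfl := not_not.1 (mt h2 h4)
    exact ⟨l, rfl, a1, by rintro rfl; simp at a2, Or.inr a2⟩
  refine hL.good_of_scalar a2 a3 (fun w φ hw => ?_) a4 (fun y => ?_) hg
  · obtain ⟨b1, b2, r, b3, b4, rfl⟩ := t.rt_iff.1 hw
    exact ⟨t.rt_iff.2 ⟨b1, b2, a * r, mul_ne_zero a2 b3, by
      rw [map_mul, a1]; linear_combination a * b4, smul_smul _ _ _⟩,
      t.rt_iff.2 ⟨b1, b2, a⁻¹ * r, mul_ne_zero (inv_ne_zero a2) b3, by
      rw [map_mul, map_inv₀, a1]; linear_combination a⁻¹ * b4, smul_smul _ _ _⟩⟩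
  · obtain ⟨p, b1, b2, b3⟩ := hf.exists_perp_one y
    exact ⟨p, _, h1 b1 b2, by simp [hf.hm.comm b3]⟩

end Cfsg.Lib.Class.Wr
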