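import Cfsg.Agent.Class.Wr.Adj

/-!
Symplectic and unitary factors: invariant groups of endomorphisms contain root terms.
-/

set_option autoImplicit false
set_option linter.unusedSectionVars false

namespace Cfsg.Lib.Class.Wr

open Module Submodule Tens Tn FE AO Form
open LinearMap (range ker)

variable {F U W V : Type*} [Field F] [AddCommGroup U] [Module F U] [AddCommGroup W] [Module F W]
  [AddCommGroup V] [Module F V] [FiniteDimensional F U] [FiniteDimensional F W] {σ : F →+* F}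

/-- A unitary space of dimension at least three or a non-zero symplectic space. -/
structure FT (f : W →ₛₗ[σ] W →ₗ[F] F) (ε : F) : Prop where
  hm : Hm f ε
  typ : (σ ≠ RingHom.id F ∧ ε = 1 ∧ 3 ≤ finrank F W) ∨
    (σ = RingHom.id F ∧ ε = -1 ∧ (∀ w, f w w = 0) ∧ 2 ≤ finrank F W)

/-- The hypothesis of the rank one case. -/
def Sm (σ : F →+* F) (W : Type*) [AddCommGroup W] [Module F W] : Prop :=
  (σ ≠ RingHom.id F ∨ finrank F W = 2 ∧ (2 : F) ≠ 0) ∧ ∃ l, l ≠ 0 ∧ σ l * l ≠ 1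

/-- The long root terms. -/
def N1 (f : W →ₛₗ[σ] W →ₗ[F] F) : Set (End F W) := {ρ | ∃ p, f p p = 0 ∧ ρ = xx f p p}

/-- The alternating terms. -/
def N2 (f : W →ₛₗ[σ] W →ₗ[F] F) : Set (End F W) := {ρ | ∃ p δ, f p δ = 0 ∧ ρ = xx f p δ - xx f δ p}

theorem det_of_alt {f : W →ₗ[F] W →ₗ[F] F} (h : Hm f (-1)) (ha : ∀ w, f w w = 0)
    {g : W ≃ₗ[F] W} (hg : g ∈ isomGroup f) : g ∈ SI f :=
  ⟨hg, SpB_le_of_altT_mem h.nondeg ha (SLV F W) (fun w c => mem_SLV_of_tv (a := w)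
    (φ := c • f.flip w) (by simp [ha]) fun x => rfl) hg⟩

theorem exists_not_fixed (h : σ ≠ RingHom.id F) : ∃ t, σ t ≠ t := by
  by_contra! hc; exact h (RingHom.ext hc)

namespace FT

variable {f : W →ₛₗ[σ] W →ₗ[F] F} {ε : F} (h : FT f ε) {p p' δ δ' u : W}
include h

theorem two : 2 ≤ finrank F W := by rcases h.typ with h | h <;> omega

theorem nontrivial : Nontrivial W := nontrivial_of_finrank_pos (R := F) (by have := h.two; omega)

theorem skew : ∃ s, s ≠ 0 ∧ ε * s + σ s = 0 := by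
  rcases h.typ with ⟨h1, rfl, -⟩ | ⟨rfl, rfl, -⟩
  · simpa using exists_trace_zero h1 h.hm.invol
  · exact ⟨1, one_ne_zero, by simp⟩

theorem spanOpp : SpanOpp f := let ⟨_, h1, h2⟩ := h.skew; h.hm.spanOpp_of_tv h1 h2

theorem pair (hσ : σ = RingHom.id F) (h1 : p ≠ 0) (h2 : p' ≠ 0) (h3 : ∀ a : F, δ ≠ a • p)
    (h4 : ∀ a : F, δ' ≠ a • p') (e : f p δ = f p' δ') : ∃ g ∈ SI f, g p = p' ∧ g δ = δ' := by
  obtain ⟨rfl, rfl, ha, -⟩ := h.typ.resolve_left fun h => h.1 hσ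
  obtain ⟨g, hg, e⟩ := SpB_exists_pair h.hm.nondeg ha h1 h2
    (fun H => let ⟨a, ha⟩ := mem_span_singleton.1 H; h3 a ha.symm)
    (fun H => let ⟨a, ha⟩ := mem_span_singleton.1 H; h4 a ha.symm) e
  exact ⟨g, det_of_alt h.hm ha hg, e⟩

theorem trans (h1 : p ≠ 0) (h2 : p' ≠ 0) (e : f p' p' = f p p) : ∃ g ∈ SI f, g p = p' := by
  rcases h.typ with ⟨hσ, rfl, hk⟩ | ⟨rfl, rfl, ha, -⟩
  · have hf := h.hm.herm hσ
    obtain ⟨g, hg⟩ := hf.witt_one h1 h2 e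
    obtain ⟨d, hd, hdd⟩ := hf.exists_nonisotropic_orth_of_lt (W := span F {p}) (by
      have := finrank_span_singleton_le (F := F) p
      omega)
    obtain ⟨μ, hμ, h3⟩ := hf.exists_mul_qrefl_mem hdd g
    refine ⟨_, ⟨(g * hf.qrefl d hdd μ hμ).2, h3⟩, ?_⟩
    rw [isom_mul_apply, hf.qrefl_apply_of_orth hdd μ hμ (hf.comm (mem_orth_span_singleton.1 hd)), hg]
  · obtain ⟨g, hg, e⟩ := SpB_exists_apply_eq h.hm.nondeg ha h1 h2
    exact ⟨g, det_of_alt h.hm ha hg, e⟩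

variable [Finite F]

theorem exists_iso_mem {S : Submodule F W} (hS : 2 ≤ finrank F S) :
    ∃ p ∈ S, p ≠ 0 ∧ f p p = 0 := by
  rcases h.typ with ⟨hσ, rfl, -⟩ | ⟨-, -, ha, -⟩
  · exact (h.hm.herm hσ).exists_isotropic_of_two_le hS
  · obtain ⟨p, h1, h2⟩ := S.exists_mem_ne_zero_of_ne_bot (by rintro rfl; simp at hS)
    exact ⟨p, h1, h2, ha p⟩

theorem exists_iso : ∃ p, p ≠ 0 ∧ f p p = 0 :=
  let ⟨p, _, h⟩ := h.exists_iso_mem (S := ⊤) (by simpa using h.two); ⟨p, h⟩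

theorem exists_perp (hk : 4 ≤ finrank F W) (x y : W) :
    ∃ p, p ≠ 0 ∧ f p p = 0 ∧ f x p = 0 ∧ f y p = 0 := by
  have := finrank_ker_two (f x) (f y)
  obtain ⟨p, h1, h2, h3⟩ := h.exists_iso_mem (S := ker (f x) ⊓ ker (f y)) (by omega)
  exact ⟨p, h2, h3, h1.1, h1.2⟩

theorem exists_perp_one (x : W) : ∃ p, p ≠ 0 ∧ f p p = 0 ∧ f x p = 0 := by
  rcases h.typ with ⟨-, -, hk⟩ | ⟨-, -, ha, hk⟩
  · have h1 := (f x).finrank_range_add_finrank_ker
    have h2 := (range (f x)).finrank_le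
    rw [finrank_self] at h2
    obtain ⟨p, h1, h2, h3⟩ := h.exists_iso_mem (S := ker (f x)) (by omega)
    exact ⟨p, h2, h3, h1⟩
  · obtain ⟨p, h1, h2⟩ := exists_one_zero hk (f x)
    exact ⟨p, h1, ha p, h2⟩

theorem exists_indep (hk : 4 ≤ finrank F W) (hp : p ≠ 0) :
    ∃ δ, f δ δ = 0 ∧ f p δ = 0 ∧ ∀ a : F, δ ≠ a • p := by
  obtain ⟨p', h1⟩ := h.hm.exists_eq_one hp
  obtain ⟨δ, h2, h3, h4, h5⟩ := h.exists_perp hk p p'
  exact ⟨δ, h3, h4, h.hm.ne_smul_of h1 h2 h5⟩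

theorem mem_of_perp (hk : 4 ≤ finrank F W) (hp0 : p ≠ 0) (hp : f p p = 0) {K : Submodule F W}
    (hK : ∀ δ, f δ δ = 0 → f p δ = 0 → (∀ a : F, δ ≠ a • p) → δ ∈ K) (hu : f p u = 0) : u ∈ K := by
  obtain ⟨δ, h1, h2, h3⟩ := h.exists_indep hk hp0
  refine h.hm.iso_span hp0 h1 h2 h3 (fun y h4 h5 => ?_) hu
  by_cases hc : ∀ a : F, y ≠ a • p
  · exact hK y h4 h5 hc
  push Not at hc
  obtain ⟨a, rfl⟩ := hc
  simpa using K.sub_mem (hK (δ + a • p) (by simp [h1, h2, hp, h.hm.comm h2]) (by simp [h2, hp])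
    fun b hb => h3 (b - a) (by rw [sub_smul, ← hb]; simp)) (hK δ h1 h2 h3)

theorem smul_of_norm {M : Type*} [AddCommGroup M] [Module F M] {A : M → Prop}
    (hA : ∀ a b, A a → A b → A (a - b)) {γ : M} (H : ∀ c : F, A ((σ c * c) • γ)) {t : F}
    (ht : σ t = t) : A (t • γ) := by
  rcases h.typ with ⟨hσ, -⟩ | ⟨rfl, -⟩
  · obtain ⟨c, rfl⟩ := exists_norm_eq hσ h.hm.invol ht
    exact H c
  by_cases h2 : (2 : F) = 0
  · have := Fintype.ofFinite F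
    obtain ⟨c, rfl⟩ := FiniteField.isSquare_of_char_two
      (CharP.ringChar_of_prime_eq_zero Nat.prime_two (by simpa)) t
    exact H c
  · exact smul_of_sq h2 hA (fun c => by simpa [pow_two] using H c) t

theorem scalar_of_iso {b : End F W} (H : ∀ p, p ≠ 0 → f p p = 0 → ∃ c : F, b p = c • p) :
    ∃ c : F, b = c • 1 := by
  obtain ⟨s, h1, h2⟩ := h.skew
  obtain ⟨p, h3, h4⟩ := h.exists_iso
  refine h.hm.scalar_of_iso_tv h1 h2 h3 h4 fun y hy => ?_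
  by_cases h0 : y = 0
  · exact ⟨0, by simp [h0]⟩
  · exact H y h0 hy

theorem scalar_big (hk : 4 ≤ finrank F W) {b : End F W} (H : ∀ p δ, p ≠ 0 → f p p = 0 →
    f δ δ = 0 → f p δ = 0 → (∀ a : F, δ ≠ a • p) → f δ (b p) = 0) : ∃ c : F, b = c • 1 :=
  h.scalar_of_iso fun p h1 h2 => h.hm.mem_span_of_orth h1 fun _ hu => h.hm.comm
    (h.mem_of_perp hk h1 h2 (K := ker (f (b p))) (fun δ a b c => h.hm.comm (H p δ h1 h2 a b c)) hu)

theorem eq_smul_of_two (hk : finrank F W = 2) (h1 : p ≠ 0) (h2 : f p p = 0) (hu : f p u = 0) :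
    ∃ c : F, u = c • p := by
  obtain ⟨p', hp'⟩ := h.hm.exists_eq_one h1
  have h4 := (f p).finrank_range_add_finrank_ker
  rw [LinearMap.range_eq_top.2 fun c => ⟨c • p', by simp [hp']⟩, finrank_top, finrank_self] at h4
  obtain ⟨c, hc⟩ := (finrank_eq_one_iff_of_nonzero' (K := F) (⟨p, h2⟩ : ker (f p))
    (fun h0 => h1 (congrArg Subtype.val h0))).1 (by omega) ⟨u, hu⟩
  exact ⟨c, (congrArg Subtype.val hc).symm⟩

theorem scalar_small (hs : σ ≠ RingHom.id F ∨ finrank F W = 2) {b : End F W}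
    (H : ∀ p, f p p = 0 → f p (b p) = 0) : ∃ c : F, b = c • 1 := by
  refine h.scalar_of_iso fun p h1 h2 => ?_
  rcases hs with hσ | hk
  swap
  · exact h.eq_smul_of_two hk h1 h2 (H p h2)
  obtain ⟨-, rfl, -⟩ := h.typ.resolve_right fun h => hσ h.1
  obtain ⟨s, hs0, hs⟩ := h.skew
  obtain ⟨t, ht⟩ := exists_not_fixed hσ
  have key : ∀ y, f p y = 1 → f y (b p) = f p (b y) := fun y hy => by
    obtain ⟨c, h3, h4⟩ := h.hm.partner h2 hy
    have h5 := H _ h3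
    have h6 := H (y - c • p + s • p) (by
      rw [map_add, map_add, LinearMap.add_apply, LinearMap.add_apply, h3]
      simp [h2, hy, h.hm.swap_one hy]
      linear_combination hs)
    simp only [map_add, map_sub, map_smulₛₗ, LinearMap.add_apply, LinearMap.sub_apply,
      LinearMap.smul_apply, H p h2, smul_eq_mul, RingHom.id_apply] at h5 h6
    exact mul_left_cancel₀ hs0 (by linear_combination h6 - h5 - f p (b y) * hs)
  obtain ⟨y, hy⟩ := h.hm.exists_eq_one h1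
  refine h.hm.mem_span_of_orth h1 fun u hu => ?_
  have h3 := key y hy
  have h4 := key (y + u) (by simp [hy, hu])
  have h5 := key (y + t • u) (by simp [hy, hu])
  simp only [map_add, map_smulₛₗ, LinearMap.add_apply, LinearMap.smul_apply, smul_eq_mul,
    RingHom.id_apply] at h4 h5
  exact mul_left_cancel₀ (sub_ne_zero.2 ht) (by linear_combination h5 - t * h4 + (t - 1) * h3)

theorem eq_top_of_xx {S : Submodule F (End F W)}
    (H : ∀ p p', f p p = 0 → f p' p' = 0 → f p p' ≠ 0 → xx f p p' ∈ S) : S = ⊤ :=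
  let ⟨_, h1, h2⟩ := h.exists_iso; h.hm.eq_top_of_xx h.spanOpp h1 h2 H

theorem n1 (S : Submodule F (End F W)) (H : ∀ ρ ∈ N1 f, ∀ ρ' ∈ N1 f, ρ * ρ' ∈ S) : S = ⊤ :=
  h.eq_top_of_xx fun p p' h1 h2 h3 => by
    simpa [xx_mul, S.smul_mem_iff h3] using H _ ⟨p, h1, rfl⟩ _ ⟨p', h2, rfl⟩

variable {T : U →ₗ[F] W →ₗ[F] V} (hT : IsTens T) {M : AddSubgroup (End F V)} {x m : End F V}

theorem all_of_one (hM : ∀ g ∈ SI f, ∀ x ∈ M, cj (ug hT g) x ∈ M) (hm : InC T m) (h1 : p ≠ 0)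
    (h2 : f p p = 0) (H : m * kap hT (xx f p p) ∈ M) : ∀ ρ ∈ N1 f, m * kap hT ρ ∈ M := by
  rintro _ ⟨y, hy, rfl⟩
  by_cases h0 : y = 0
  · simp [h0]
  obtain ⟨g, hg, rfl⟩ := h.trans h1 h0 (by rw [hy, h2])
  simpa only [map_mul, hm.cj_ug, cj_ug_kap, cj_xx _ _ hg.1] using hM g hg _ H

theorem step_small (hs : Sm σ W) (hM : ∀ g ∈ SI f, ∀ x ∈ M, cj (ug hT g) x ∈ M)
    (hF : ∀ a : F, σ a = a → ∀ x ∈ M, a • x ∈ M) (hx : x ∈ M) (hx' : ¬ InC T x) :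
    ∃ m, m ≠ 0 ∧ InC T m ∧ ∀ ρ ∈ N1 f, m * kap hT ρ ∈ M := by
  have := h.nontrivial
  obtain ⟨s, hs0, hs1⟩ := h.skew
  obtain ⟨h1, l, h2, h3⟩ := hs
  have h4 : σ (σ l * l) = σ l * l := by rw [map_mul, h.hm.invol, mul_comm]
  have h5 : σ l * l ≠ 0 := by simpa
  generalize σ l * l = a at h3 h4 h5
  by_contra! hc
  refine hx' (inC_of_cp hT (D := fun w φ => φ = f w ∧ f w w = 0) (fun b hb =>
    h.scalar_small (h1.imp_right And.left) fun p hp => hb p _ ⟨rfl, hp⟩) ?_)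
  rintro p _ ⟨rfl, hp⟩
  by_contra h6
  have D : ∀ s, ε * s + σ s = 0 → s • (kap hT (xx f p p) * x - x * kap hT (xx f p p)) -
      (s * s) • (cp hT (f p) p x * kap hT (xx f p p)) ∈ M := fun s hs => by
    have h0 : f p (s • p) = 0 := by simp [hp]
    have := sub_mem (hM _ (h.hm.tv_mem hp hs h0) x hx) hx
    rw [cj_ug_tv] at this
    simpa only [rk_smul_left, map_smul, smul_mul_assoc, mul_smul_comm, smul_smul, kap_mul_mul,
      ← smul_sub, xx] using this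
  obtain ⟨ρ, h7, h8⟩ := hc (((a * a - a) * (s * s)) • cp hT (f p) p x) (smul_ne_zero (by
    simp [h5, hs0, sub_eq_zero, h3]) h6) ((inC_cp hT _ _ _).smul _)
  refine h8 (h.all_of_one hT hM ((inC_cp hT _ _ _).smul _) (by
    rintro rfl; exact h6 (hT.ext fun u y => by simp [cp_apply])) hp ?_ ρ h7)
  convert sub_mem (hF a h4 _ (D s hs1)) (D (a * s) (by rw [map_mul, h4]; linear_combination a * hs1))
    using 1
  rw [smul_mul_assoc]
  module

theorem step_big (hk : 4 ≤ finrank F W) (hM : ∀ g ∈ SI f, ∀ x ∈ M, cj (ug hT g) x ∈ M)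
    (hx : x ∈ M) (hx' : ¬ InC T x) : ∃ m, m ≠ 0 ∧ InC T m ∧ ((∀ ρ ∈ N1 f, m * kap hT ρ ∈ M) ∨
      σ = RingHom.id F ∧ ∀ ρ ∈ N2 f, m * kap hT ρ ∈ M) := by
  have := h.nontrivial
  obtain ⟨s, hs0, hs1⟩ := h.skew
  by_contra! hc
  refine hx' (inC_of_cp hT (D := fun p φ => ∃ δ, φ = f δ ∧ p ≠ 0 ∧ f p p = 0 ∧ f δ δ = 0 ∧
    f p δ = 0 ∧ ∀ a : F, δ ≠ a • p) (fun b hb => h.scalar_big hk fun p δ a b c d e =>
      hb p _ ⟨δ, rfl, a, b, c, d, e⟩) ?_)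
  rintro p _ ⟨δ, rfl, h1, h2, h3, h4, h5⟩
  have D : ∀ {p}, f p p = 0 → ∀ {x}, x ∈ M → s • kap hT (xx f p p) * x - x * s • kap hT (xx f p p) -
      s • kap hT (xx f p p) * x * s • kap hT (xx f p p) ∈ M := fun {p} hp x hx => by
    have h0 : f p (s • p) = 0 := by simp [hp]
    have := sub_mem (hM _ (h.hm.tv_mem hp hs1 h0) x hx) hx
    rwa [cj_ug_tv, rk_smul_left, map_smul] at this
  set c₁ := (s * s) • cp hT (f δ) p x
  set c₂ := (s * s) • cp hT (f p) δ x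
  have a1 : InC T c₁ := (inC_cp hT _ _ _).smul _
  have a2 : InC T c₂ := (inC_cp hT _ _ _).smul _
  have h6 : c₁ * kap hT (xx f δ p) + c₂ * kap hT (xx f p δ) ∈ M := by
    convert neg_mem (D h3 (D h2 hx)) using 1
    refine hT.ext fun u y => ?_
    simp [c₁, c₂, cp_apply, h4, h.hm.comm h4, kap_eq, xx, rk, hT.mp_smulRight', smul_smul]
    module
  have h7 : ∀ μ : F, μ • c₁ + σ μ • c₂ = 0 := fun μ => by_contra fun h0 => by
    obtain ⟨y, b1, b2⟩ := h.hm.exists_orth_ne h1 h5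
    obtain ⟨b, hb, c, -, e⟩ := h.hm.exists_eich h2 (u := -σ μ • y) (by simp [b1])
    have b3 : b p = p := (mem_Rad_span.1 hb).2.1
    have b4 : b δ = δ + μ • p := by simp [e, h4, h.hm.invol, h.hm.swap_one b2, mul_left_comm ε, h.hm.eps]
    obtain ⟨ρ, b5, b6⟩ := (hc _ h0 ((a1.smul _).add (a2.smul _))).1
    refine b6 (h.all_of_one hT hM ((a1.smul _).add (a2.smul _)) h1 h2 ?_ ρ b5)
    convert sub_mem (hM b (rad_le_SI _ hb) _ h6) h6 using 1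
    simp only [map_add, map_mul, a1.cj_ug, a2.cj_ug, cj_ug_kap, cj_xx _ _ hb.1, b3, b4, xx_add_left,
      xx_add_right, xx_smul_left, xx_smul_right, map_smul, mul_add, add_mul, mul_smul_comm,
      smul_mul_assoc]
    abel
  have h8 : c₂ = -c₁ := by simpa [eq_neg_iff_add_eq_zero, add_comm] using h7 1
  suffices c₁ = 0 by simpa [c₁, hs0] using this
  by_contra h9
  by_cases hσ : σ = RingHom.id F
  swap
  · obtain ⟨t, ht⟩ := exists_not_fixed hσ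
    exact ht.symm (by simpa [h8, ← sub_eq_add_neg, ← sub_smul, h9, sub_eq_zero] using h7 t)
  obtain ⟨_, ⟨p', δ', b1, rfl⟩, b2⟩ := (hc _ h9 a1).2 hσ
  refine b2 ?_
  by_cases h0 : p' ≠ 0 ∧ ∀ a : F, δ' ≠ a • p'
  · obtain ⟨g, hg, rfl, rfl⟩ := h.pair hσ h1 h0.1 h5 h0.2 (by rw [h4, b1])
    have := neg_mem (hM g hg _ h6)
    simp only [h8, map_add, map_mul, map_neg, a1.cj_ug, cj_ug_kap, cj_xx _ _ hg.1] at this
    convert this using 1
    rw [map_sub, mul_sub, neg_mul]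
    abel
  by_cases h10 : p' = 0
  · simp [h10]
  obtain ⟨a, rfl⟩ : ∃ a : F, δ' = a • p' := by simpa [h10] using h0
  simp [xx_smul_left, xx_smul_right, hσ]

end FT

theorem TP.exists_step {τ : Type*} {T : τ → U →ₗ[F] W →ₗ[F] V} (h : TP T) [Nontrivial U]
    [Nontrivial W] [Finite F] {f : W →ₛₗ[σ] W →ₗ[F] F} {ε : F} (hf : FT f ε)
    (hk : 4 ≤ finrank F W ∨ Sm σ W) : ∃ N, h.Step (SI f) (N1 f) N := by
  obtain ⟨p, h1, h2⟩ := hf.exists_iso
  have h3 : h.Step (SI f) (N1 f) (N1 f) ↔ ∀ j (M : Submodule F (End F V)), h.Inv (SI f) (· ∈ M) →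
      ∀ x ∈ M, ¬ InC (T j) x → ∃ m, m ≠ 0 ∧ m ∈ h.coef M j (N1 f) :=
    ⟨fun H => by simpa using H.step, fun H => ⟨by simpa using H, hf.n1,
      fun S hS ρ _ => hf.n1 S hS ▸ trivial, _, ⟨p, h2, rfl⟩, hf.hm.xx_ne_zero h1 h1⟩⟩
  rcases hk with hk | hk
  swap
  · exact ⟨_, h3.2 fun j M hM x hx hx' => hf.step_small (h.tens j) (M := M.toAddSubgroup) hk (hM j)
      (fun a _ _ => M.smul_mem a) hx hx'⟩
  by_cases hσ : σ = RingHom.id F
  swap
  · refine ⟨_, h3.2 fun j M hM x hx hx' => ?_⟩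
    obtain ⟨m, a, b, c⟩ := hf.step_big (h.tens j) (M := M.toAddSubgroup) hk (hM j) hx hx'
    exact ⟨m, a, b, c.resolve_right fun h => hσ h.1⟩
  refine ⟨N2 f, fun j M hM x hx hx' => ?_, hf.n1, fun S hS => ?_, ?_⟩
  · obtain ⟨m, a, b, c⟩ := hf.step_big (h.tens j) (M := M.toAddSubgroup) hk (hM j) hx hx'
    exact ⟨m, a, c.imp (fun c => ⟨b, c⟩) fun c => ⟨b, c.2⟩⟩
  · rintro _ ⟨p, h2, rfl⟩
    by_cases h1 : p = 0
    · simp [h1]
    obtain ⟨δ, a, b, c⟩ := hf.exists_indep hk h1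
    obtain ⟨η, -, d, e⟩ := hf.hm.exists_hyp h1 a b c
    simpa [mul_sub, sub_mul, xx_mul, h2, e, d, hf.hm.comm b] using hS _ ⟨p, δ, b, rfl⟩ _ ⟨p, η, d, rfl⟩
  · obtain ⟨δ, a, b, c⟩ := hf.exists_indep hk h1
    obtain ⟨η, -, d, e⟩ := hf.hm.exists_hyp h1 a b c
    exact ⟨_, ⟨p, δ, b, rfl⟩, fun h0 => h1 (by simpa [d, e] using LinearMap.congr_fun h0 η)⟩

end Cfsg.Lib.Class.Wr
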