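import Cfsg.Agent.Class.Wr.TP
import Cfsg.Agent.Class.AO.TensMat

/-!
The standard tensor power of `Fin k → F` as a family of tensor decompositions.
-/

set_option autoImplicit false
set_option linter.unusedSectionVars false

namespace Cfsg.Lib.Class.Wr

open Module Tn AO Asch Matrix Cfsg.Geo
open scoped MatrixGroups

variable {F : Type*} [Field F] {ι : Type} [Fintype ι] [DecidableEq ι] {s t k : ℕ}

theorem single_eq_ptw (a : Fin t → Fin k) :
    (Pi.single a 1 : (Fin t → Fin k) → F) = ptw fun i => Pi.single (a i) 1 := by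
  ext b
  simp only [ptw, Pi.single_apply, Finset.prod_boole, Finset.mem_univ, forall_const, funext_iff]

theorem span_ptw : Submodule.span F (Set.range (ptw : (Fin t → Fin k → F) → _)) = ⊤ := by
  refine eq_top_iff.2 fun v _ => ?_
  rw [pi_eq_sum_univ' v]
  exact Submodule.sum_mem _ fun a _ => Submodule.smul_mem _ _
    (Submodule.subset_span ⟨_, (single_eq_ptw a).symm⟩)

theorem span_vec_ptw (e : ι ≃ (Fin t → Fin k)) (P : GL ι F) :
    Submodule.span F (Set.range fun x => vec e P (ptw x)) = ⊤ :=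
  eq_top_of_vec_single e P fun a => Submodule.subset_span ⟨_, by rw [single_eq_ptw]⟩

variable (e : ι ≃ (Fin (s + 1) → Fin k)) (P : GL ι F) (i : Fin (s + 1))

/-- Splitting off the factor `i`. -/
def tw : ((Fin s → Fin k) → F) →ₗ[F] (Fin k → F) →ₗ[F] (ι → F) :=
  LinearMap.mk₂ F (fun u w => vec e P fun a => u (i.removeNth a) * w (a i))
    (fun x x' y => by rw [← Asch.vec_add]; congr 1; ext p; simp [add_mul])
    (fun c x y => by rw [← Asch.vec_smul]; congr 1; ext p; simp [mul_assoc])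
    (fun x y y' => by rw [← Asch.vec_add]; congr 1; ext p; simp [mul_add])
    (fun c x y => by rw [← Asch.vec_smul]; congr 1; ext p; simp [mul_left_comm])

theorem tw_ptw (y : Fin s → Fin k → F) (w : Fin k → F) :
    tw e P i (ptw y) w = vec e P (ptw (i.insertNth w y)) := by
  rw [tw, LinearMap.mk₂_apply]
  congr 1
  ext a
  simp [ptw, Fin.prod_univ_succAbove _ i, mul_comm, Fin.removeNth]

theorem isTens_tw : IsTens (tw e P i) := by
  refine isTens_of_span (eq_top_iff.2 ((span_vec_ptw e P).ge.trans (Submodule.span_le.2 ?_))) (by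
    simp [Fintype.card_congr e, pow_succ])
  rintro _ ⟨x, rfl⟩
  rw [← i.insertNth_self_removeNth x]
  beta_reduce
  rw [← tw_ptw]
  exact Submodule.apply_mem_map₂ _ trivial trivial

theorem kap_tw (x : Matrix (Fin k) (Fin k) F) :
    kap (isTens_tw e P i) (toLin' x) = toLin' (tI e P i x) := by
  refine LinearMap.ext_on_range (span_vec_ptw e P) fun y => ?_
  rw [toLin'_apply, tI_apply, tr_mulVec, kI_apply, pt_mulVec_ptw]
  conv_lhs => rw [← i.insertNth_self_removeNth y, ← tw_ptw, kap_apply, tw_ptw]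
  congr 2
  refine Fin.insertNth_eq_iff.2 ⟨by simp, funext fun j => ?_⟩
  simp [Fin.removeNth, Fin.succAbove_ne]

theorem inE_tw {a : End F (ι → F)} : InE (tw e P i) a ↔ ∃ x, a = toLin' (tI e P i x) :=
  ⟨fun h => by
    obtain ⟨b, rfl⟩ := h.exists_kap (isTens_tw e P i)
    obtain ⟨x, rfl⟩ := toLin'.surjective b
    exact ⟨x, kap_tw e P i x⟩, by rintro ⟨x, rfl⟩; rw [← kap_tw]; exact inE_kap _ _⟩

theorem tp_tw : TP (tw e P) where
  tens := isTens_tw e P
  comm i j hij a b ha hb := by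
    obtain ⟨x, rfl⟩ := (inE_tw e P i).1 ha
    obtain ⟨y, rfl⟩ := (inE_tw e P j).1 hb
    simp only [End.mul_eq_comp, ← toLin'_mul, tI_comm e P hij]
  cent x hx := by
    obtain ⟨x, rfl⟩ := toLin'.surjective x
    obtain ⟨x, rfl⟩ := (Asch.tr e P).surjective x
    obtain ⟨c, rfl⟩ := eq_smul_one_of_comm_kI (T := x) fun i y => (Asch.tr e P).injective
      (toLin'.injective (by
        have := (hx i).comm_kap (isTens_tw e P i) (toLin' y)
        rw [kap_tw] at this
        simp only [map_mul, toLin'_mul]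
        exact this.symm))
    exact ⟨c, by simp; rfl⟩

theorem cj_glLin (g : GL ι F) (x : Matrix ι ι F) :
    cj (glLin ι F g) (toLin' x) = toLin' (Asch.cj g x) := by
  rw [cj_eq_mul, ← map_inv, glLin_toLinearMap, glLin_toLinearMap, Asch.cj_apply, toLin'_mul,
    toLin'_mul]
  rfl

theorem mem_of_isWr (hk : 0 < k) {g : GL ι F} (hg : TP.IsWr (tw e P) (glLin ι F g)) :
    g ∈ tensorWreathSubgroup k (s + 1) e P := by
  obtain ⟨σ, h⟩ := hg
  refine mem_tensorWreathSubgroup_of_perm hk s.succ_pos e P σ fun i x => ?_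
  obtain ⟨y, hy⟩ := (inE_tw e P _).1 (h i _ ((inE_tw e P i).2 ⟨x, rfl⟩))
  exact ⟨y, toLin'.injective (by rw [← hy, cj_glLin])⟩

theorem isWr_of_mem {g : GL ι F} (hg : g ∈ tensorWreathSubgroup k (s + 1) e P) :
    TP.IsWr (tw e P) (glLin ι F g) := by
  obtain ⟨σ, a, h⟩ := exists_perm_of_mem_tensorWreathSubgroup hg
  refine ⟨σ, fun i x hx => ?_⟩
  obtain ⟨x, rfl⟩ := (inE_tw e P i).1 hx
  exact (inE_tw e P _).2 ⟨_, by rw [cj_glLin, h]⟩

theorem exists_pm (σ : Equiv.Perm (Fin (s + 1))) : ∃ n, (tp_tw e P).Pm n σ ∧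
    ∀ x, n (vec e P (ptw x)) = vec e P (ptw (x ∘ σ.symm)) := by
  refine ⟨glLin ι F (trGL e P (permGL k F σ)), fun i b => ?_, fun x => ?_⟩
  · obtain ⟨x, rfl⟩ := toLin'.surjective b
    rw [kap_tw, kap_tw, cj_glLin, tI_apply, ← tr_cj, cj_permGL_kI, tI_apply]
  · rw [glLin_apply, coe_trGL, tr_mulVec]
    congr 1
    ext a
    simp only [permGL, permM, mulVec, dotProduct, of_apply, ite_mul, one_mul, zero_mul,
      Finset.sum_ite_eq', Finset.mem_univ, if_true, ptw]
    exact Fintype.prod_equiv σ _ _ fun j => by simp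

theorem isMaximalIn_wreath (hk : 0 < k) {G : Subgroup (GL ι F)}
    {G' : Subgroup ((ι → F) ≃ₗ[F] (ι → F))} (hG : ∀ g, g ∈ G ↔ glLin ι F g ∈ G')
    (hne : ¬ G ≤ tensorWreathSubgroup k (s + 1) e P)
    (h : ∀ X ≤ G', (∀ g ∈ G', TP.IsWr (tw e P) g → g ∈ X) →
      (∀ g ∈ X, TP.IsWr (tw e P) g) ∨ G' ≤ X) :
    IsMaximalIn G (tensorWreathSubgroup k (s + 1) e P ⊓ G) := by
  refine isMaximalIn_of_forall inf_le_right (fun hle => hne (hle.trans inf_le_left))
    fun M hM hMG g hg hgH => ?_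
  rcases h (M.map (glLin ι F).toMonoidHom) (by rintro _ ⟨x, hx, rfl⟩; exact (hG x).1 (hMG hx))
    (fun x hx hx' => by
      obtain ⟨x, rfl⟩ := (glLin ι F).surjective x
      exact ⟨x, hM ⟨mem_of_isWr e P hk hx', (hG x).2 hx⟩, rfl⟩) with h | h
  · exact (hgH ⟨mem_of_isWr e P hk (h _ ⟨g, hg, rfl⟩), hMG hg⟩).elim
  · intro x hx
    obtain ⟨y, hy, e⟩ := h ((hG x).1 hx)
    exact (glLin ι F).injective e ▸ hy

end Cfsg.Lib.Class.Wr
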