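import Cfsg.Agent.Class.Wr.End
import Cfsg.Agent.Class.Wr.TPMat
import Cfsg.Agent.Class.Tens.UniMax
import Cfsg.Agent.Class.Tens.SpOMax
import Cfsg.Agent.Class.AL.SpProper

/-!
Maximality of the stabilisers of tensor powers of symplectic and unitary spaces.
-/

set_option autoImplicit false
set_option linter.unusedSectionVars false

namespace Cfsg.Lib.Class.Wr

open Module Tn AO Asch Matrix Cfsg.Geo Form QuadraticMap Orth OMax
open scoped MatrixGroups commutatorElement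

variable {F : Type*} [Field F] {ι : Type} [Fintype ι] [DecidableEq ι] {s k : ℕ}
  {e : ι ≃ (Fin (s + 1) → Fin k)} {P : GL ι F}

section Gen

variable {σ : F →+* F} {β : (ι → F) →ₛₗ[σ] (ι → F) →ₗ[F] F}
  {f : (Fin k → F) →ₛₗ[σ] (Fin k → F) →ₗ[F] F} {ε ε' c : F}
  (H : ∀ x y, β (vec e P (ptw x)) (vec e P (ptw y)) = c * ∏ i, f (x i) (y i))
include H

theorem form_tw {p p' : Fin k → F} (hp : f p p' = 1) (i : Fin (s + 1)) (w w' : Fin k → F)
    (u u' : (Fin s → Fin k) → F) :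
    β (tw e P i u w) (tw e P i u' w') = β (tw e P i u p) (tw e P i u' p') * f w w' := by
  refine Submodule.span_induction₂ (p := fun u u' _ _ => β (tw e P i u w) (tw e P i u' w') =
    β (tw e P i u p) (tw e P i u' p') * f w w') ?_ (by simp) (by simp)
    (fun _ _ _ _ _ _ a b => by simp [a, b, add_mul]) (fun _ _ _ _ _ _ a b => by simp [a, b, add_mul])
    (fun _ _ _ _ _ a => by simp [a, mul_assoc]) (fun _ _ _ _ _ a => by simp [a, mul_assoc])
    (span_ptw.ge trivial) (span_ptw.ge trivial)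
  rintro _ _ ⟨x, rfl⟩ ⟨y, rfl⟩
  simp [tw_ptw, H, Fin.prod_univ_succAbove _ i, hp, mul_comm, mul_left_comm]

theorem exists_tf_tw [Nontrivial (Fin k → F)] (hβ : Hm β (ε' * ε)) (hf : Hm f ε)
    (htr : ∀ i u w w', β (tw e P i u w) (tw e P i u w') =
      ε' * σ (β (tw e P i u w) (tw e P i u w')) → ∃ a, ε' * a + σ a = β (tw e P i u w) (tw e P i u w')) :
    ∃ h : Fin (s + 1) → _, ∀ i, TF (tw e P i) (h i) ε' f ε β := by
  obtain ⟨p, p', hp⟩ := hf.exists_ne_pair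
  have h1 := form_tw H hp
  have h2 : ∀ i u u', β (tw e P i u p) (tw e P i u' p') =
      ε' * σ (β (tw e P i u' p) (tw e P i u p')) := fun i u u' => by
    rw [hβ.sym, h1 i p' p, hf.swap_one hp, map_mul, hf.σε]
    linear_combination ε' * σ (β (tw e P i u' p) (tw e P i u p')) * hf.eps
  refine ⟨fun i => (β ∘ₛₗ (tw e P i).flip p).compl₂ ((tw e P i).flip p'), fun i =>
    ⟨isTens_tw e P i, ⟨hf.invol, ?_, h2 i, fun u hu => ?_, fun u => htr i u p p' (h2 i u u)⟩, hf,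
      fun u w u' w' => h1 i w w' u u'⟩⟩
  · linear_combination hβ.eps - ε' * ε' * hf.eps
  · refine ((isTens_tw e P i).eq_zero_iff.1 (hβ.sep (tw e P i u p) ((isTens_tw e P i).ind (by simp)
      (fun a b ha hb => by simp [ha, hb]) fun u' w => ?_))).resolve_right (by rintro rfl; simp at hp)
    exact (h1 _ _ _ _ _).trans (mul_eq_zero_of_left (hu u') _)

theorem exists_pm_isom (π : Equiv.Perm (Fin (s + 1))) : ∃ n ∈ isomGroup β, (tp_tw e P).Pm n π ∧
    ∀ x, n (vec e P (ptw x)) = vec e P (ptw (x ∘ π.symm)) := by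
  obtain ⟨n, h1, h2⟩ := exists_pm e P π
  refine ⟨n, fun u v => ?_, h1, h2⟩
  refine Submodule.span_induction₂ (p := fun u v _ _ => β (n u) (n v) = β u v) ?_ (by simp)
    (by simp) (fun _ _ _ _ _ _ a b => by simp [a, b]) (fun _ _ _ _ _ _ a b => by simp [a, b])
    (fun _ _ _ _ _ a => by simp [a]) (fun _ _ _ _ _ a => by simp [a])
    ((span_vec_ptw e P).ge trivial) ((span_vec_ptw e P).ge trivial)
  rintro _ _ ⟨x, rfl⟩ ⟨y, rfl⟩
  rw [h2, h2, H, H]
  exact congrArg _ (Equiv.prod_comp π.symm fun i => f (x i) (y i))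

omit H in
theorem isMaximalIn_form [Finite F] {h : Fin (s + 1) → _} (t : ∀ i, TF (tw e P i) (h i) ε' f ε β)
    (hf : FT f ε) {G : Subgroup (GL ι F)} {G' K : Subgroup ((ι → F) ≃ₗ[F] (ι → F))}
    (hG : ∀ g, g ∈ G ↔ glLin ι F g ∈ G') (hne : ¬ G ≤ tensorWreathSubgroup k (s + 1) e P)
    (hle : G' ≤ isomGroup β) (hge : ∀ i, ∀ g ∈ SI f, ug (t i).hT g ∈ G')
    (hK : ∀ π, ∃ n ∈ K, (tp_tw e P).Pm n π)
    (hK' : ∀ n ∈ K, ∀ n' ∈ K, n * n' * n⁻¹ * n'⁻¹ ∈ G')
    (hk : 4 ≤ k ∧ (σ = RingHom.id F → (2 : F) ≠ 0 ∨ 5 ≤ k) ∨ Sm σ (Fin k → F) ∧ 2 ≤ s)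
    (hend : ∀ X ≤ G', ∀ i (c : F1 (tw e P i) (h i) ε' f ε β X),
      (∀ r, InC (tw e P i) r → r - ε • Wr.adj β r ∈ Lam c.hT f X) → G' ≤ X) :
    IsMaximalIn G (tensorWreathSubgroup k (s + 1) e P ⊓ G) := by
  have h2 := hf.two
  rw [finrank_fin_fun] at h2
  have : Nonempty (Fin k) := ⟨⟨0, by omega⟩⟩
  refine isMaximalIn_wreath e P (by omega) hG hne fun X hX hX' => ?_
  have c : FW (tw e P) h ε' f ε β X := ⟨tp_tw e P, fun i => ⟨t i, hf, hX.trans hle, fun g hg =>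
    hX' _ (hge i g hg) ((tp_tw e P).isWr_ug i g)⟩⟩
  exact (c.main (TP.alt_of_comm hK fun n hn n' hn' => hX' _ (hK' n hn n' hn'))
    (by simpa using hk)).imp_right fun ⟨a, ha⟩ => hend X hX a (c.one a) ha

end Gen

theorem three_le_pow (hk : 2 ≤ k) (hs : 1 ≤ s) (h : 3 ≤ k ∨ 2 ≤ s) :
    3 ≤ finrank F ((Fin s → Fin k) → F) := by
  simp only [finrank_fintype_fun_eq_card, Fintype.card_pi, Fintype.card_fin, Finset.prod_const,
    Finset.card_univ]
  rcases h with h | h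
  · exact h.trans (Nat.le_self_pow (by omega) k)
  · exact (show 3 ≤ 2 ^ 2 by norm_num).trans
      ((Nat.pow_le_pow_left hk 2).trans (Nat.pow_le_pow_right (by omega) h))

theorem ft_of_symplectic {f : (Fin k → F) → (Fin k → F) → F} (hf : IsSymplecticForm f)
    (hk : 0 < k) : FT (geoBilin hf.bilinear) (-1) := by
  have : Nonempty (Fin k) := ⟨⟨0, hk⟩⟩
  have h := hm_of_alt (geoSymp_nondegenerate hf) hf.alternating
  exact ⟨h, Or.inr ⟨rfl, rfl, hf.alternating, h.two_le_of_alt hf.alternating⟩⟩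

variable [Fintype F]

theorem sm_two (hq : Odd (Fintype.card F)) (h3 : Fintype.card F ≠ 3) :
    Sm (RingHom.id F) (Fin 2 → F) := by
  obtain ⟨l, h1, h2⟩ := Orth.exists_sq_ne_one (F := F) (by
    have := Fintype.one_lt_card (α := F)
    obtain ⟨r, hr⟩ := hq
    omega)
  exact ⟨Or.inr ⟨by simp, two_ne_zero_of_odd_card hq⟩, l, h1, by simpa [pow_two] using h2⟩

theorem isMaximalIn_SU_wreath {n q t : ℕ} (hF : Fintype.card F = q ^ 2) (ht : 2 ≤ t)
    (hk : 4 ≤ k ∨ k = 3 ∧ q ≠ 2 ∧ 3 ≤ t) {e : Fin n ≃ (Fin t → Fin k)} {P : GL (Fin n) F}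
    {f : (Fin k → F) → (Fin k → F) → F} (hf : IsUnitaryFormPow q f)
    (hT : IsTensorPowerFormStructure (fun x : F => x ^ q) (hermForm n F q) f e P) :
    IsMaximalIn (GU n F q ⊓ specialLinear (Fin n) F)
      (tensorWreathSubgroup k t e P ⊓ (GU n F q ⊓ specialLinear (Fin n) F)) := by
  obtain ⟨s, rfl⟩ : ∃ s, t = s + 1 := ⟨t - 1, by omega⟩
  have : Nonempty (Fin k) := ⟨⟨0, by omega⟩⟩
  have hβ := herm_hermSesq hF n
  have hσ := frobq_ne_id hF
  obtain ⟨c, -, H⟩ := IsTensorPowerFormStructure.ptw (σ := frobqEquiv hF)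
    (isSesq_of_isUnitaryFormPow hF hf).pre hT
  replace H : ∀ x y, hermSesq hF n (vec e P (ptw x)) (vec e P (ptw y)) =
    c * ∏ i, TvP.sesqOf hF hf (x i) (y i) := fun x y => H y x
  obtain ⟨h, t⟩ := exists_tf_tw (ε' := 1) H (by simpa using hm_of_herm hβ)
    (hm_of_herm (TvP.herm_sesqOf hF hf)) fun i u w w' h => by
      simpa using hβ.exists_trace_eq ((one_mul _).symm.trans h.symm)
  refine isMaximalIn_form t ⟨hm_of_herm (TvP.herm_sesqOf hF hf), Or.inl ⟨hσ, rfl, by simp; omega⟩⟩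
    (G' := SI (hermSesq hF n)) (K := isomGroup (hermSesq hF n)) (fun g => and_congr
      ⟨fun hg u v => ?_, fun hg => ?_⟩ (mem_specialLinear_iff_glLin g))
    ((TvP.tvIrr_SUG hF ?_).not_le_tensorWreathSubgroup (by omega) ht e P) inf_le_left
    (fun i g hg => ⟨(t i).ug_isom hg.1, MonoidHom.mem_ker.2 (Units.ext ?_)⟩)
    (fun π => (exists_pm_isom H π).imp fun n h => ⟨h.1, h.2.1⟩)
    (fun n hn n' hn' => Subgroup.mem_inf.2
      ⟨mul_mem (mul_mem (mul_mem hn hn') (inv_mem hn)) (inv_mem hn'), by simp [MonoidHom.mem_ker]⟩)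
    (hk.imp (fun h => ⟨h, fun h => (hσ h).elim⟩) fun h => ⟨⟨Or.inl hσ, ?_⟩, by omega⟩)
    fun X _ i c H => c.SI_le H (three_le_pow (by omega) (by omega) (by omega)) hβ (one_mul 1)
  · exact (guEquivIsomGroup hF n ⟨g, hg⟩).2 u v
  · have := TvP.toGL_mem_GU hF ⟨_, hg⟩
    rwa [show TvP.toGL hF n ⟨_, hg⟩ = g from (glLin _ F).injective
      (LinearEquiv.ext (TvP.toGL_mulVec hF _))] at this
  · have h1 : n = k ^ (s + 1) := by simpa using Fintype.card_congr e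
    exact h1 ▸ (show 2 ≤ k by omega).trans (Nat.le_self_pow (by omega) k)
  · have h2 : LinearMap.det (g : Module.End F (Fin k → F)) = 1 := by
      rw [← LinearEquiv.coe_det, MonoidHom.mem_ker.1 hg.2]; rfl
    rw [LinearEquiv.coe_det, coe_ug, kap_eq, Tn.IsTens.det_mp, h2]
    simp
  · obtain ⟨a, h1, h2, h3⟩ := exists_fixed_ne_of_ne_two hF h.2.1
    obtain ⟨l, rfl⟩ := exists_norm_eq hσ hβ.invol h1
    exact ⟨l, right_ne_zero_of_mul h2, h3⟩

theorem isMaximalIn_sp_wreath (hq : Odd (Fintype.card F)) {m t : ℕ} (ht : 3 ≤ t)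
    (hk : 4 ≤ k ∨ k = 2 ∧ Fintype.card F ≠ 3) {e : (Fin m ⊕ Fin m) ≃ (Fin t → Fin k)}
    {P : GL (Fin m ⊕ Fin m) F} {f : (Fin k → F) → (Fin k → F) → F} (hf : IsSymplecticForm f)
    (hT : IsTensorPowerFormStructure id (sympForm m F) f e P) :
    IsMaximalIn (spGL m F) (tensorWreathSubgroup k t e P ⊓ spGL m F) := by
  obtain ⟨s, rfl⟩ : ∃ s, t = s + 1 := ⟨t - 1, by omega⟩
  have : Nonempty (Fin k) := ⟨⟨0, by omega⟩⟩
  have h2 := two_ne_zero_of_odd_card hq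
  have hW := ft_of_symplectic hf (by omega)
  obtain ⟨c, -, H⟩ := IsTensorPowerFormStructure.ptw (σ := RingEquiv.refl F)
    (preSesq_of_isBilinearForm hf.bilinear) hT
  replace H : ∀ x y, sympBilin m F (vec e P (ptw x)) (vec e P (ptw y)) =
    c * ∏ i, geoBilin hf.bilinear (x i) (y i) := by simpa using H
  obtain ⟨h, t⟩ := exists_tf_tw (ε' := 1) H (by
    simpa using hm_of_alt (sympBilin_nondegenerate m) fun u => sympBilin_isAlt m u) hW.hm
    fun i u w w' _ => ⟨_ / 2, by rw [one_mul, RingHom.id_apply, ← two_mul, mul_div_cancel₀ _ h2]⟩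
  exact isMaximalIn_form t hW (G' := isomGroup (sympBilin m F)) (K := isomGroup (sympBilin m F))
    (fun g => (glLin_mem_SpB_iff m g).symm)
    (fun hle => (AL.vTrans_isoms (isSymplecticForm_sympForm m)).not_le_wreath (by omega) (by omega)
      e P fun g hg => hle ((glLin_mem_SpB_iff m g).1 fun u v => by simpa using hg u v)) le_rfl
    (fun i g hg => (t i).ug_isom hg.1) (fun π => (exists_pm_isom H π).imp fun n h => ⟨h.1, h.2.1⟩)
    (fun n hn n' hn' => mul_mem (mul_mem (mul_mem hn hn') (inv_mem hn)) (inv_mem hn'))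
    (hk.imp (fun h => ⟨h, fun _ => Or.inl h2⟩) (by rintro ⟨rfl, h3⟩; exact ⟨sm_two hq h3, by omega⟩))
    fun X _ i c H => c.isom_le H h2

theorem isMaximalIn_omega_wreath {Q : QuadraticForm F (ι → F)} (hQ : (polarBilin Q).Nondegenerate)
    {t : ℕ} (ht : 2 ≤ t) (hn : 7 ≤ Fintype.card ι) (hk : 5 ≤ k ∨ Odd (Fintype.card F) ∧
      (4 ≤ k ∨ k = 2 ∧ Fintype.card F ≠ 3 ∧ 3 ≤ t)) {e : ι ≃ (Fin t → Fin k)} {P : GL ι F}
    {f : (Fin k → F) → (Fin k → F) → F} (hf : IsSymplecticForm f)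
    (hT : IsTensorPowerFormStructure id (polar Q) f e P) (h0 : ∀ x, Q (vec e P (ptw x)) = 0) :
    IsMaximalIn (omegaGL Q) (tensorWreathSubgroup k t e P ⊓ omegaGL Q) := by
  obtain ⟨s, rfl⟩ : ∃ s, t = s + 1 := ⟨t - 1, by omega⟩
  have : Nonempty (Fin k) := ⟨⟨0, by omega⟩⟩
  have hW := ft_of_symplectic hf (by omega)
  have hU := three_le_pow (F := F) (k := k) (s := s) (by omega) (by omega) (by omega)
  obtain ⟨c, -, H⟩ := IsTensorPowerFormStructure.ptw (σ := RingEquiv.refl F)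
    (preSesq_of_isBilinearForm hf.bilinear) hT
  replace H : ∀ x y, polarBilin Q (vec e P (ptw x)) (vec e P (ptw y)) =
    c * ∏ i, geoBilin hf.bilinear (x i) (y i) := H
  obtain ⟨p, p', hp⟩ := hW.hm.exists_ne_pair
  have h1 : ∀ i u w, Q (tw e P i u w) = 0 := fun i u w => by
    refine Submodule.span_induction (p := fun u _ => Q (tw e P i u w) = 0) ?_ (by simp)
      (fun x y _ _ a b => ?_) (fun a x _ h => by simp [Q_smul, h]) (span_ptw.ge trivial)
    · rintro _ ⟨x, rfl⟩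
      rw [tw_ptw, h0]
    · rw [map_add, LinearMap.add_apply, Q_add, a, b, ← polarBilin_apply_apply, form_tw H hp]
      simp [hf.alternating]
  obtain ⟨h, t⟩ := exists_tf_tw (ε' := -1) H ⟨fun _ => rfl, by simp, fun u v => by
      simp [polar_comm Q u], hQ.1, fun u => ⟨Q u, by simp [two_smul]⟩⟩ hW.hm
    fun i u w w' _ => ⟨0, by simp [polar, ← map_add, h1]⟩
  have h2 : ∀ g ∈ isomGroup (polarBilin Q), (∀ x, Q (g (vec e P (ptw x))) = 0) → g ∈ O Q :=
    fun g hg h3 => mem_O.2 fun v => Submodule.span_induction (p := fun v _ => Q (g v) = Q v)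
      (by rintro _ ⟨x, rfl⟩; rw [h3, h0]) (by simp) (fun u v _ _ hu hv => by
        rw [map_add, Q_add, Q_add, hu, hv]
        exact congrArg _ (hg u v)) (fun a x _ h => by simp [Q_smul, h])
      ((span_vec_ptw e P).ge trivial)
  have h3 : ∀ i x, vec e P (ptw x) = tw e P i (ptw (i.removeNth x)) (x i) := fun i x => by
    rw [tw_ptw, Fin.insertNth_self_removeNth]
  refine isMaximalIn_form t hW (G' := Om Q) (K := O Q) (fun g => mem_omegaGL_iff.trans
      ⟨by rintro ⟨k, hk, rfl⟩; exact ⟨k, hk, (glLin_toGL k).symm⟩, fun ⟨k, hk, e⟩ =>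
        ⟨k, hk, (glLin ι F).injective ((glLin_toGL k).trans e)⟩⟩) ?_ (Om_le.trans O_le_isom)
    (fun i g hg => ?_) (fun π => (exists_pm_isom H π).imp fun n h =>
      ⟨h2 n h.1 fun x => by rw [h.2.2, h0], h.2.1⟩) (fun n hn n' hn' =>
      (mem_Om (g := ⁅⟨n, hn⟩, ⟨n', hn'⟩⁆)).2 (Subgroup.commutator_mem_commutator trivial trivial))
    (hk.elim (fun h => Or.inl ⟨by omega, fun _ => Or.inr h⟩) fun hk => hk.2.imp
      (fun h => ⟨h, fun _ => Or.inl (two_ne_zero_of_odd_card hk.1)⟩)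
      (by rintro ⟨rfl, h4, h5⟩; exact ⟨sm_two hk.1 h4, by omega⟩))
    fun X hX i c H => c.Om_le H hU (hX.trans Om_le) (h1 i)
  · obtain ⟨⟨x, y, a1⟩, w, a2, a3, a4⟩ := Tens.exists_singular_alt (Q := Q) (T := (tw e P 0).flip)
      ⟨(t 0).flip.tens, hW.hm.nondeg, (t 0).hf.nondeg, eq_top_iff.2 fun v _ =>
        (t 0).hT.flip.mem_map₂_top_left.2 fun _ => trivial, (t 0).hT.flip.finrank_eq⟩ (t 0).hf.alt'
      (fun x y => h1 0 y x) hW.two hU
    exact not_le_of_pure hQ hn (T := fun x (_ : Unit) => vec e P (ptw x))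
      (fun g hg x _ => (AL.wreath_mulVec_pure hg x).imp fun y h => ⟨(), h⟩)
      ⟨⟨fun _ _ => 1, (), AL.vec_ne_zero e P (ptw_ne_zero fun _ h => one_ne_zero
        (congrFun h ⟨0, by omega⟩)), h0 _⟩, w, a2, a3, fun x _ h => a4 _ _ (h.trans (h3 0 x))⟩
  · have := OCtx.sp_mem (Q := Q) (X := Om Q) ⟨(t i).flip, by simp; omega, fun x y _ => h1 i y x,
      fun m ⟨a, b, hm⟩ hm' => h2 m hm' fun x => by
        rw [h3 i, ← (tw e P i).flip_apply, hm]; exact h1 i _ _, le_rfl, fun _ _ h => h⟩ hg.1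
    rwa [(t i).hT.mpE_flip] at this

end Cfsg.Lib.Class.Wr
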