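import Cfsg.Agent.Class.Wr.Pair

/-!
The Sylow step for a maximal pair, and the global theorem when the root subgroups have more
than two elements.
-/

set_option autoImplicit false
set_option linter.unusedSectionVars false

namespace Cfsg.Lib.Class.Wr

open Module Submodule Tens Tn FE AO
open LinearMap (range ker)

variable {F U W V : Type*} [Field F] [AddCommGroup U] [Module F U] [AddCommGroup W] [Module F W]
  [AddCommGroup V] [Module F V] {X : Subgroup (V ≃ₗ[F] V)} {T T' T₁ T₂ : U →ₗ[F] W →ₗ[F] V}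
  {w w' : W} {φ φ' : Dual F W} {t s r : End F V}
  [FiniteDimensional F U] [FiniteDimensional F W] [Nontrivial U] [Finite F]

theorem RtE.mem_range_mul (hT : IsTens T) (h : RtE X T w φ s) (hr : InC T r) {j : V}
    (h1 : j ∈ range s) (h2 : j ∈ range r) : j ∈ range (s * r) := by
  obtain ⟨τ, rfl⟩ := (inC_iff hT).1 hr
  obtain ⟨u, rfl⟩ := (h.mem_range hT).1 h1
  obtain ⟨ξ, hξ⟩ := exists_dual_eq h.w0 (1 : F)
  rw [hT.range_mp] at h2
  obtain ⟨u₀, hu₀⟩ := hT.cR_mem h2 ξ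
  obtain ⟨y, hy⟩ := h.exists_one
  exact ⟨T u₀ y, by simp [h.eq, hy, hu₀, hξ]⟩

theorem RtE.mul_eq_zero_of_comm (hT : IsTens T) (h : RtE X T w φ s) (h' : RtE X T w' φ' r)
    (hc : s * r = r * s) : s * r = 0 := by
  by_cases hw : w' ∈ span F {w}
  · exact hT.ext fun u y => by simp [h.eq, h'.eq, dual_eq_zero_of_mem_span h.φw hw]
  · ext v
    have h1 : s (r v) ∈ range r := ⟨s v, (LinearMap.congr_fun hc v).symm⟩
    rw [h.apply hT] at h1
    rw [End.mul_apply, h.apply hT, h'.eq_zero_of_mem hT (notMem_span_symm h.w0 hw) h1]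
    simp

theorem closure_le_of_mem {x₁ x₂ : V ≃ₗ[F] V} (h1 : x₁ ∈ X) (h2 : x₂ ∈ X) :
    Subgroup.closure {x₁, x₂} ≤ X := (Subgroup.closure_le X).2 (by rintro _ (rfl | rfl) <;> assumption)

theorem cj_eq_of_closure {x₁ x₂ y : V ≃ₗ[F] V} (h1 : cj x₁ r = r) (h2 : cj x₂ r = r)
    (hy : y ∈ Subgroup.closure {x₁, x₂}) : cj y r = r := by
  induction hy using Subgroup.closure_induction with
  | mem x hx => rcases hx with rfl | rfl <;> assumption
  | one => rfl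
  | mul x y _ _ ihx ihy => rw [cj_mul, ihy, ihx]
  | inv x _ ih => rw [← ih, cj_inv_cj, ih]

theorem Sc.uin {c : F} (hc : Sc (Rt X T) c) (hT : IsTens T) (h : IsRt X T t) :
    IsRt X T (c • t) ∧ IsRt X T (c⁻¹ • t) :=
  let ⟨w, φ, h⟩ := h; ⟨(h.smul hT (hc w φ h.rt).1).isRt, (h.smul hT (hc w φ h.rt).2).isRt⟩

namespace Pair

variable (h : Pair X T₁ T₂ t s)
include h

theorem finite : Finite V :=
  have := h.loc.tens.finiteDimensional
  Module.finite_of_finite F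

/-- The conjugate of `t` found by Sylow's theorem does not lie in the commuting algebra. -/
theorem not_comm_sylow (hS : Shear t s)
    (hk : 3 ≤ finrank F W ∨ ∃ c : F, c ≠ 0 ∧ c ≠ 1 ∧ Sc (Rt X T₁) c) {x₁ x₂ y : V ≃ₗ[F] V}
    (hx₁ : x₁ ∈ X) (hx₂ : x₂ ∈ X) (e₁ : ∀ z, x₁ z = z + t z) (e₂ : ∀ z, x₂ z = z + s z)
    (hy : y ∈ Subgroup.closure {x₁, x₂}) : ¬ Comm (tr T₁ y) T₂ := fun hC => by
  have := h.loc.tens.finiteDimensional
  have := h.loc.nontrivial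
  have hT := h.loc₂.tens
  have hG := hS.closure_le e₁ e₂ hy
  have hX := closure_le_of_mem hx₁ hx₂ hy
  have hrt := h.rt₁.tr hX
  have hr : InC T₂ (cj y t) := hC.symm.inC hT hrt.inE
  obtain ⟨w, φ, hs⟩ := h.rt₂
  have hcm := hs.inE.comm hT hr
  have hL : ∀ v ∈ shL t s, cj y t v ∈ shL t s := fun v hv =>
    hG.1 _ (hS.D_le_L (hS.t_mem_D ((inv_mem hG).1 v hv)))
  have hJ : ∀ j ∈ range t ⊓ range s, j = 0 := fun j hj => by
    obtain ⟨v, rfl⟩ := hs.mem_range_mul hT hr hj.2 (by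
      rw [range_cj, ← hG.2.2 j hj]; exact apply_mem_im.2 hj.1)
    refine hS.eq_zero_of_LV ?_ (hS.J_le hj)
    obtain ⟨l, hl, c, hc, rfl⟩ := hS.dec' v
    rw [End.mul_apply, map_add, cj_apply y t c, hS.conj_t_V hG hc, map_add, (mem_shV.1 hc).2,
      add_zero]
    exact hS.D'_le_L (hS.s_mem_D (hL l hl))
  have hV : ∀ c ∈ shV t s, cj y t c = 0 := fun c hc => by
    rw [cj_apply, hS.conj_t_V hG hc, hJ _ (hS.t_mem_J hc)]
  have hs' : ∀ b ∈ range s, cj y t b ∈ range s := by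
    rintro _ ⟨b, rfl⟩
    exact ⟨cj y t b, LinearMap.congr_fun hcm b⟩
  obtain ⟨w₁, φ₁, ht₁⟩ := hrt
  have hne := ht₁.ne_zero (isTens_tr h.loc.tens y)
  rcases hk with hk | ⟨c, hc0, hc1, hc⟩
  · obtain ⟨z, hz, hz'⟩ := hs.exists_ker hT hk
    refine hne (hs.eq_zero_of_inC hT hr hz' fun u => ?_)
    obtain ⟨b, hb, c, hc, -, e⟩ := hS.symm.dec_ker (v := T₂ u z) (by simp [hs.eq, hz])
    rw [e, map_add, hV c (shV_comm s t ▸ hc), add_zero]
    exact hs' b (range_mul_le _ _ hb)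
  obtain ⟨δ, d1, d2, d3⟩ := hS.exists_twist c
  obtain ⟨y', hy', ky, ey⟩ := hS.exists_twisted hc0 (hc.uin h.loc.tens h.rt₁).2.uin
    ((h.rel.rt ▸ hc).uin hT hs.isRt).1.uin d1 d2 e₁ e₂ hy
  have hfix : ∀ g ∈ shG t s, ∀ v ∈ shV t s, g v = v := fun g hg v hv =>
    sub_eq_zero.1 (hJ _ (hg.2.1 v hv))
  have ext : ∀ {a b : End F V}, (∀ v ∈ range (t * s), a v = b v) →
      (∀ v ∈ range (s * t), a v = b v) → (∀ v ∈ shV t s, a v = b v) → a = b := by
    intro a b h1 h2 h3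
    ext v
    obtain ⟨p, hp, q, hq, o, ho, rfl⟩ := hS.dec v
    simp [h1 p hp, h2 q hq, h3 o ho]
  have ey' : ∀ v, y' (δ v) = δ (y v) := fun v => by
    obtain ⟨l, hl, o, ho, rfl⟩ := hS.dec' v
    simp [ey l hl, d3 o ho, hfix y hG o ho, hfix y' ky o ho]
  have tV : ∀ v ∈ shV t s, t v = 0 := fun v hv => hJ _ (hS.t_mem_J hv)
  have sV : ∀ v ∈ shV t s, s v = 0 := fun v hv => hJ _ (hS.s_mem_J hv)
  have sD : ∀ v, s v ∈ range (s * t) := fun v => by
    obtain ⟨j, hj, b, hb, e⟩ := hS.dec_s ⟨v, rfl⟩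
    rwa [← e, hJ j hj, zero_add]
  have tD : ∀ v, t v ∈ range (t * s) := fun v => by
    obtain ⟨j, hj, b, hb, e⟩ := hS.dec_t ⟨v, rfl⟩
    rwa [← e, hJ j hj, zero_add]
  have q1 : t * δ = c • t := ext
    (fun v hv => by simp [d1 v hv, hS.t_range (range_mul_le _ _ hv)])
    (fun v hv => by simp [d2 v hv]) fun v hv => by simp [d3 v hv, tV v hv]
  have q2 : s * δ = s := ext (fun v hv => by simp [d1 v hv])
    (fun v hv => by simp [d2 v hv, hS.s_range (range_mul_le _ _ hv)]) fun v hv => by simp [d3 v hv]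
  have q3 : δ * s = c • s := LinearMap.ext fun v => d2 _ (sD v)
  have q4 : cj y' t * δ = c • (δ * cj y t) := LinearMap.ext fun v => by
    have h1 : y'⁻¹ (δ v) = δ (y⁻¹ v) := by
      rw [← apply_inv_self y v, ← ey', inv_apply_self, inv_apply_self]
    have h2 : t (δ (y⁻¹ v)) = c • t (y⁻¹ v) := LinearMap.congr_fun q1 _
    rw [End.mul_apply, cj_apply, h1, h2, map_smul, LinearMap.smul_apply, End.mul_apply, cj_apply,
      ← ey', d1 _ (tD _)]
  have hδ : ∀ {a : End F V}, a * δ = 0 → a = 0 := fun {a} e => ext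
    (fun v hv => by simpa [d1 v hv] using LinearMap.congr_fun e v)
    (fun v hv => by simpa [d2 v hv, hc0] using LinearMap.congr_fun e v)
    fun v hv => by simpa [d3 v hv] using LinearMap.congr_fun e v
  have q5 : s * cj y' t * δ = c • (s * cj y t) := by
    rw [mul_assoc, q4, mul_smul_comm, ← mul_assoc, q2]
  have q6 : cj y' t * s = s * cj y' t := sub_eq_zero.1 (hδ (by
    have : c • (cj y' t * s) = c • c • (s * cj y t) := by
      rw [← mul_smul_comm, ← q3, ← mul_assoc, q4, smul_mul_assoc, mul_assoc, ← hcm, ← mul_assoc, q3,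
        smul_mul_assoc]
    rw [sub_mul, q5, mul_assoc, q2, smul_right_injective _ hc0 this, sub_self]))
  have hrt' := h.rt₁.tr hy'
  have hst : s * cj y t ≠ 0 := fun e => hne (hs.inE.eq_zero hT hr (hs.ne_zero hT) e)
  have hr' : InC T₂ (cj y' t) :=
    (h.loc₂.inE_or_inC_of_comm (h.rel.symm.trans (rel_tr hy')) hs.isRt hrt' q6).resolve_left
      fun hE => by
        obtain ⟨w₂, φ₂, h2⟩ := h.loc₂.isRt_of_inE (h.rel.symm.trans (rel_tr hy')) hrt' hE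
        rw [hs.mul_eq_zero_of_comm hT h2 q6.symm, zero_mul, eq_comm, smul_eq_zero] at q5
        exact hst (q5.resolve_left hc0)
  have hδ1 : ∀ v, δ v - v ∈ range s := fun v => by
    obtain ⟨p, hp, q, hq, o, ho, rfl⟩ := hS.dec v
    have : δ (p + q + o) - (p + q + o) = (c - 1) • q := by
      simp only [map_add, d1 p hp, d2 q hq, d3 o ho]; module
    exact this ▸ smul_mem _ _ (range_mul_le _ _ hq)
  have q7 : cj y' t - c • cj y t = 0 := by
    obtain ⟨z, hz⟩ := exists_notMem_span h.loc.two w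
    refine hs.eq_zero_of_inC hT (hr'.sub (hr.smul c)) hz fun u => ?_
    obtain ⟨v, hv⟩ : ∃ v, δ v = T₂ u z := (LinearMap.injective_iff_surjective.1
      ((injective_iff_map_eq_zero _).2 fun v hv => by
        have := hδ1 v
        obtain ⟨p, hp, q, hq, o, ho, rfl⟩ := hS.dec v
        have h1 := LinearMap.congr_fun q1 (p + q + o)
        have h2 := LinearMap.congr_fun q2 (p + q + o)
        simp only [End.mul_apply, hv, map_zero, LinearMap.smul_apply] at h1 h2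
        have h3 := (smul_eq_zero.1 h1.symm).resolve_left hc0
        simp only [map_add, tV o ho, sV o ho, add_zero] at h2 h3
        rw [← map_add] at h2 h3
        have h4 := hS.eq_zero_of_L (add_mem (hS.D_le_L hp) (hS.D'_le_L hq)) h3 h2.symm
        rw [h4, zero_add] at hv ⊢
        rwa [d3 o ho] at hv)) _
    have : (cj y' t - c • cj y t) (δ v) =
        c • ((δ (cj y t v) - cj y t v) - cj y t (δ v - v)) := by
      have h1 : cj y' t (δ v) = c • δ (cj y t v) := LinearMap.congr_fun q4 v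
      simp only [LinearMap.sub_apply, LinearMap.smul_apply, h1, map_sub]
      module
    rw [← hv, this]
    exact smul_mem _ _ (sub_mem (hδ1 _) (hs' _ (hδ1 _)))
  have q8 : ∀ v, δ (cj y t v) = cj y t (δ v) := fun v => smul_right_injective _ hc0 (by
    have h1 : cj y' t (δ v) = c • δ (cj y t v) := LinearMap.congr_fun q4 v
    rw [sub_eq_zero.1 q7] at h1
    exact h1.symm)
  obtain ⟨x, hx, ex⟩ := ht₁.uin
  have hN : x ∈ tensG T₁ := h.loc.norm_of_range h.rt₁ hx <| by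
    rintro _ ⟨v, rfl⟩
    rw [ex]
    refine add_mem ⟨v, rfl⟩ ?_
    have h1 := q8 (t v)
    obtain ⟨p, hp, q, hq, e⟩ := mem_shL.1 (hL _ (hS.D_le_L (tD v)))
    rw [d1 _ (tD v), ← e, map_add, d1 p hp, d2 q hq, add_right_inj, ← sub_eq_zero] at h1
    have h2 : q = 0 := (smul_eq_zero.1 (show (c - 1) • q = 0 by rw [← h1]; module)).resolve_left
      (sub_ne_zero.2 hc1)
    rw [← e, h2, add_zero]
    exact range_mul_le _ _ hp
  rcases h.loc.inE_or_inC (rel_tr hX) ht₁.isRt ex hN with hE | hE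
  · exact h.bad (Or.inr (hC.symm.of_same (h.loc.same_of_inE (rel_tr hX) ht₁.isRt hE).symm).symm)
  · have h1 := cj_eq_of_closure (cj_eq_of_comm e₁ (h.rt₁.inE.comm h.loc.tens hE))
      (cj_eq_of_comm e₂ hcm) hy
    rw [(cj y).injective h1] at hr
    exact h.bad (h.loc₂.good_of_inC h.rel.symm h.rt₁ hr).symm

theorem exists_conj (hS : Shear t s)
    (hk : 3 ≤ finrank F W ∨ ∃ c : F, c ≠ 0 ∧ c ≠ 1 ∧ Sc (Rt X T₁) c) {x₁ x₂ : V ≃ₗ[F] V}
    (hx₁ : x₁ ∈ X) (hx₂ : x₂ ∈ X) (e₁ : ∀ z, x₁ z = z + t z) (e₂ : ∀ z, x₂ z = z + s z) :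
    ∃ y ∈ Subgroup.closure {x₁, x₂}, (∀ v ∈ range t, y v ∈ range s) ∧ IsRt X T₂ (cj y t) ∧
      range (cj y t) = range s := by
  have := h.loc.tens.finiteDimensional
  have := h.finite
  obtain ⟨p, hp⟩ := CharP.exists F
  have : Fact p.Prime := ⟨CharP.char_is_prime F p⟩
  obtain ⟨y, hy, v, h1, h0, h2⟩ := hS.exists_sylow (p := p) h.range_ne e₁ e₂
  have hG := hS.closure_le e₁ e₂ hy
  have hX := closure_le_of_mem hx₁ hx₂ hy
  have h3 : v ∈ range (cj y t) := by rw [range_cj, mem_im]; exact range_mul_le _ _ h2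
  have hg := h.good_of_lt (rel_tr hX) h.rel (h.rt₁.tr hX) h.rt₂
    (fun j hj => ⟨by rw [range_cj, ← hG.2.2 j hj]; exact apply_mem_im.2 hj.1, hj.2⟩)
    ⟨h3, range_mul_le _ _ h1⟩ fun hj => h0 (hS.symm.eq_zero_of_D h1 (hS.t_range hj.1))
  have hE := (h.rt₁.tr hX).same (hg.resolve_right (h.not_comm_sylow hS hk hx₁ hx₂ e₁ e₂ hy))
  obtain ⟨w, φ, ht⟩ := id hE
  obtain ⟨w', φ', hs⟩ := h.rt₂
  have e := ht.range_eq h.loc₂.tens hs h0 h3 (range_mul_le _ _ h1)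
  exact ⟨y, hy, fun v hv => by rw [← e, range_cj]; exact apply_mem_im.2 hv, hE, e⟩

theorem of_bot (hJ : ∀ j ∈ range t ⊓ range s, j = 0) {T₃ T₄ : U →ₗ[F] W →ₗ[F] V} {t' s' : End F V}
    (h3 : Rel X T₁ T₃) (h4 : Rel X T₁ T₄) (hb : ¬ Good T₃ T₄) (h6 : IsRt X T₃ t')
    (h7 : IsRt X T₄ s') : Pair X T₃ T₄ t' s' ∧ ∀ j ∈ range t' ⊓ range s', j = 0 :=
  have hle : range t ⊓ range s ≤ range t' ⊓ range s' := fun j hj => hJ j hj ▸ zero_mem _
  ⟨h.of_le h3 h4 hb h6 h7 hle, h.eq_of_le h3 h4 hb h6 h7 hle ▸ hJ⟩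

/-- If the largest intersection is zero, no root element kills a nonzero vector of the image of
a root element from a badly placed conjugate. -/
theorem eq_zero_of_bot (hm : NoMove (Rt X T₁) ∨ ∃ c : F, c ≠ 0 ∧ c ≠ 1 ∧ Sc (Rt X T₁) c)
    (hJ : ∀ j ∈ range t ⊓ range s, j = 0) {T₄ : U →ₗ[F] W →ₗ[F] V} {n s' : End F V}
    (h4 : Rel X T₁ T₄) (hb : ¬ Good T₁ T₄) (h6 : IsRt X T₁ n) (h7 : IsRt X T₄ s') {v : V}
    (hv : v ∈ range s') (h0 : n v = 0) : v = 0 := by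
  obtain ⟨hP, hJ'⟩ := h.of_bot hJ Rel.refl h4 hb h6 h7
  exact hJ' v ⟨(hP.shear hm).symm.ker1 hv h0, hv⟩

theorem norm_of_torus (hS : Shear t s) {g : V ≃ₗ[F] V} (hg : g ∈ X) {c : F}
    (hJ : ∀ j ∈ range t ⊓ range s, g j = j) (ha : ∀ a ∈ range (t * s), g a = c • a) :
    g ∈ tensG T₁ :=
  have := h.loc.tens.finiteDimensional
  h.loc.norm_of_range h.rt₁ hg fun v hv => by
    obtain ⟨j, hj, a, ha', rfl⟩ := hS.dec_t hv
    rw [map_add, hJ j hj, ha a ha']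
    exact add_mem hj.1 (smul_mem _ _ (range_mul_le _ _ ha'))

end Pair

theorem inE_of_cj (hT : IsTens T) {g : V ≃ₗ[F] V} (hg : ∀ c, InC T c → cj g c = c) :
    InE T (g : End F V) :=
  inE_of_comm hT fun c hc => LinearMap.ext fun v => by
    simpa using LinearMap.congr_fun (hg c hc) (g v)

namespace Pair

variable (h : Pair X T₁ T₂ t s)
include h

theorem exists_plane (hm : NoMove (Rt X T₁) ∨ ∃ c : F, c ≠ 0 ∧ c ≠ 1 ∧ Sc (Rt X T₁) c)
    (hk : 3 ≤ finrank F W) {c : F} (hc0 : c ≠ 0) (hc1 : c ≠ 1) (hc : Sc (Rt X T₁) c)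
    (ht : RtE X T₁ w φ t) : (∀ j ∈ range t ⊓ range s, j = 0) ∧ ∃ P : Submodule F W,
      finrank F P ≤ 2 ∧ w ∈ P ∧ range s ≤ map₂ T₁ ⊤ P := by
  have := h.loc.tens.finiteDimensional
  have hT := h.loc.tens
  have hS := h.shear hm
  obtain ⟨x₁, hx₁, e₁⟩ := h.rt₁.uin
  obtain ⟨x₂, hx₂, e₂⟩ := h.rt₂.uin
  obtain ⟨y, hy, hI, -⟩ := h.exists_conj hS (Or.inl hk) hx₁ hx₂ e₁ e₂
  obtain ⟨ω, hω, hg⟩ := hS.exists_torus hx₁ hx₂ e₁ e₂ hy hI
  obtain ⟨g, hg, hG, ga, gb⟩ := hg c hc0 (hc.uin hT h.rt₁).2.uin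
    ((h.rel.rt ▸ hc).uin h.loc₂.tens h.rt₂).1.uin
  have hN := h.norm_of_torus hS hg hG.2.2 ga
  have hK : ∀ z, t z = 0 → g z - z ∈ range t := fun z hz => by
    obtain ⟨a, ha, o, ho, -, rfl⟩ := hS.dec_ker hz
    have : g (a + o) - (a + o) = (c - 1) • a + (g o - o) := by rw [map_add, ga a ha]; module
    exact this ▸ add_mem (smul_mem _ _ (range_mul_le _ _ ha)) (hG.2.1 o ho).1
  have hE : InE T₁ (g : End F V) := inE_of_cj hT fun d hd => by
    obtain ⟨z, hz, hz'⟩ := ht.exists_ker hT hk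
    refine sub_eq_zero.1 (ht.eq_zero_of_inC hT ((hd.cj_of_mem hN).sub hd) hz' fun u => ?_)
    have hc := ht.inE.comm hT hd
    have h1 : t (g⁻¹ (T₁ u z)) = 0 := by
      obtain ⟨a, ha, o, ho, ho', e⟩ := hS.dec_ker (v := T₁ u z) (by simp [ht.eq, hz])
      have h2 : g⁻¹ a = c⁻¹ • a := by
        rw [← inv_smul_smul₀ hc0 a, ← ga a ha, map_smul, inv_apply_self, ga a ha,
          inv_smul_smul₀ hc0]
      have h3 := hS.t_range ((inv_mem hG).2.1 o ho).1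
      rw [map_sub, ho', sub_zero] at h3
      rw [e, map_add, map_add, h2, h3, map_smul, hS.t_range (range_mul_le _ _ ha), smul_zero,
        add_zero]
    have h2 := hK _ h1
    have h3 := hK (d (g⁻¹ (T₁ u z))) (by rw [← End.mul_apply, hc, End.mul_apply, h1, map_zero])
    obtain ⟨v, hv⟩ := h2
    have : (cj g d - d) (T₁ u z) = (g (d (g⁻¹ (T₁ u z))) - d (g⁻¹ (T₁ u z))) - t (d v) := by
      rw [← End.mul_apply t, hc, End.mul_apply, hv]
      simp
    exact this ▸ sub_mem h3 ⟨_, rfl⟩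
  obtain ⟨β, hβ⟩ := hE
  replace hβ : ∀ u y, g (T₁ u y) = T₁ u (β y) := hβ
  obtain ⟨a, ha, ha0⟩ := (Submodule.ne_bot_iff _).1 (hS.D_ne_bot h.range_ne)
  obtain ⟨u, rfl⟩ := (ht.mem_range hT).1 (range_mul_le _ _ ha)
  have hw : β w = c • w := hT.injective (x := u) (by rintro rfl; simp at ha0)
    (by rw [← hβ, ga _ ha, map_smul])
  have hJ : ∀ j ∈ range t ⊓ range s, j = 0 := fun j hj => by
    have h1 := hG.2.2 j hj
    obtain ⟨u, rfl⟩ := (ht.mem_range hT).1 hj.1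
    rw [hβ, hw, map_smul, ← sub_eq_zero] at h1
    exact (smul_eq_zero.1 (show (c - 1) • T₁ u w = 0 by rw [← h1]; module)).resolve_left
      (sub_ne_zero.2 hc1)
  have hr : range ((g : End F V) - 1) = map₂ T₁ ⊤ (range (β - 1)) := by
    rw [show (g : End F V) - 1 = hT.mp 1 (β - 1) from hT.ext fun u y => by simp [hβ], hT.range_mp,
      End.one_eq_id, LinearMap.range_id]
  have hD : range (t * s) ≤ range ((g : End F V) - 1) := fun a ha =>
    ⟨(c - 1)⁻¹ • a, by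
      rw [map_smul, show ((g : End F V) - 1) a = (c - 1) • a by simp [ga a ha, sub_smul],
        inv_smul_smul₀ (sub_ne_zero.2 hc1)]⟩
  refine ⟨hJ, range (β - 1), ?_, ⟨(c - 1)⁻¹ • w, ?_⟩, hr ▸ fun b hb => ?_⟩
  · have h1 : range ((g : End F V) - 1) ≤ range t ⊔ range s := by
      rintro _ ⟨v, rfl⟩
      obtain ⟨l, hl, o, ho, rfl⟩ := hS.dec' v
      rw [map_add]
      have h0 : shL t s ≤ range t ⊔ range s := sup_le_sup (range_mul_le _ _) (range_mul_le _ _)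
      exact add_mem (h0 (sub_mem (hG.1 l hl) hl)) (mem_sup_left (hG.2.1 o ho).1)
    have h2 := Submodule.finrank_mono h1
    have h3 := Submodule.finrank_add_le_finrank_add_finrank (range t) (range s)
    rw [hr, hT.finrank_map₂, finrank_top] at h2
    rw [h.rt₁.finrank_range hT, h.rt₂.finrank_range h.loc₂.tens] at h3
    exact Nat.le_of_mul_le_mul_left (by omega) (finrank_pos (R := F) (M := U))
  · rw [map_smul, show (β - 1) w = (c - 1) • w by simp [hw, sub_smul],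
      inv_smul_smul₀ (sub_ne_zero.2 hc1)]
  · obtain ⟨j, hj, b, hb', rfl⟩ := hS.dec_s hb
    rw [hJ j hj, zero_add]
    have hc2 : c⁻¹ - 1 ≠ 0 := sub_ne_zero.2 (by simpa using hc1)
    have : b = (c⁻¹ - 1)⁻¹ • (((g : End F V) - 1) b - (1 - c⁻¹) • ω b) := by
      rw [show ((g : End F V) - 1) b - (1 - c⁻¹) • ω b = (c⁻¹ - 1) • b by
        simp [gb b hb', sub_smul]; abel, inv_smul_smul₀ hc2]
    exact this ▸ smul_mem _ _ (sub_mem ⟨_, rfl⟩ (smul_mem _ _ (hD (hω b hb'))))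

theorem false_of_line (hm : NoMove (Rt X T₁) ∨ ∃ c : F, c ≠ 0 ∧ c ≠ 1 ∧ Sc (Rt X T₁) c)
    (hJ : ∀ j ∈ range t ⊓ range s, j = 0) (h4 : ∀ y, ∃ w φ, Rt X T₁ w φ ∧ φ y = 0)
    {P : Submodule F W} (hP : finrank F P ≤ 1) (hle : range s ≤ map₂ T₁ ⊤ P) : False := by
  have hT := h.loc.tens
  obtain ⟨y, hy⟩ := finrank_le_one_iff.1 hP
  obtain ⟨w, φ, ⟨n, hn⟩, h0⟩ := h4 y
  obtain ⟨w', φ', hs⟩ := h.rt₂
  refine hs.ne_zero h.loc₂.tens (LinearMap.ext fun v => h.eq_zero_of_bot hm hJ h.rel h.bad hn.isRt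
    hs.isRt ⟨v, rfl⟩ ((hn.apply_eq_zero hT).2 ((Module.forall_dual_apply_eq_zero_iff F _).1 fun ξ => ?_)))
  obtain ⟨c, hc⟩ := hy ⟨_, hT.cL_mem (hle ⟨v, rfl⟩) ξ⟩
  rw [← hT.apply_cL, ← show c • (y : W) = hT.cL ξ (s v) from congrArg Subtype.val hc, map_smul, h0,
    smul_zero]

theorem false_of_three (hk : 3 ≤ finrank F W) {c : F} (hc0 : c ≠ 0) (hc1 : c ≠ 1)
    (hc : Sc (Rt X T₁) c) (h4 : ∀ y, ∃ w φ, Rt X T₁ w φ ∧ φ y = 0) : False := by
  have hT := h.loc.tens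
  have hm : NoMove (Rt X T₁) ∨ ∃ c : F, c ≠ 0 ∧ c ≠ 1 ∧ Sc (Rt X T₁) c := Or.inr ⟨c, hc0, hc1, hc⟩
  obtain ⟨w, φ, ht⟩ := h.rt₁
  obtain ⟨hJ, P, h1, -, h2⟩ := h.exists_plane hm hk hc0 hc1 hc ht
  have key : ∀ w' φ', Rt X T₁ w' φ' → w' ∈ P := by
    rintro w' φ' ⟨t', ht'⟩
    obtain ⟨-, P', h5, h6, h7⟩ := (h.of_bot hJ Rel.refl h.rel h.bad ht'.isRt h.rt₂).1.exists_plane
      hm hk hc0 hc1 hc ht'
    by_contra hw
    refine h.false_of_line hm hJ h4 (P := P ⊓ P') ?_ (by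
      simpa [hT.map₂_inf] using le_inf h2 h7)
    have : P ⊓ P' < P' := SetLike.lt_iff_le_and_exists.2 ⟨inf_le_right, w', h6, fun e => hw e.1⟩
    have := Submodule.finrank_lt_finrank_of_lt this
    omega
  obtain ⟨Q, hQ⟩ := P.exists_isCompl
  obtain ⟨d, hd⟩ := h.loc.h3 (P.subtype ∘ₗ P.projectionOnto Q hQ) fun w' φ' h' => by
    rw [show (P.subtype ∘ₗ P.projectionOnto Q hQ) w' = w' from
      congrArg Subtype.val (P.projectionOnto_apply_left hQ ⟨w', key w' φ' h'⟩)]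
    exact mem_span_singleton_self w'
  have h5 : d • w = w := (LinearMap.congr_fun hd w).symm.trans
    (congrArg Subtype.val (P.projectionOnto_apply_left hQ ⟨w, key w φ ht.rt⟩))
  have h6 : d = 1 := smul_left_injective F ht.w0 (h5.trans (one_smul F w).symm)
  have h7 : P = ⊤ := eq_top_iff.2 fun v _ => by
    have : (P.projectionOnto Q hQ v : W) = v := by simpa [h6] using LinearMap.congr_fun hd v
    exact this ▸ Submodule.coe_mem _
  rw [h7, finrank_top] at h1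
  omega

theorem false_of_two (hk : finrank F W = 2) {c : F} (hc0 : c ≠ 0) (hc2 : c * c ≠ 1)
    (hc : Sc (Rt X T₁) c) (h4 : ∀ y, ∃ w φ, Rt X T₁ w φ ∧ φ y = 0) : False := by
  have := h.loc.tens.finiteDimensional
  have hT := h.loc.tens
  have hc1 : c ≠ 1 := by rintro rfl; simp at hc2
  have hm : NoMove (Rt X T₁) ∨ ∃ c : F, c ≠ 0 ∧ c ≠ 1 ∧ Sc (Rt X T₁) c := Or.inr ⟨c, hc0, hc1, hc⟩
  have hS := h.shear hm
  obtain ⟨w, φ, ht⟩ := h.rt₁
  obtain ⟨x₁, hx₁, e₁⟩ := h.rt₁.uin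
  obtain ⟨x₂, hx₂, e₂⟩ := h.rt₂.uin
  obtain ⟨y, hy, hI, -⟩ := h.exists_conj hS (Or.inr ⟨c, hc0, hc1, hc⟩) hx₁ hx₂ e₁ e₂
  obtain ⟨ω, hω, hg⟩ := hS.exists_torus hx₁ hx₂ e₁ e₂ hy hI
  obtain ⟨u1, u2⟩ := hc.uin hT h.rt₁
  obtain ⟨u3, u4⟩ := (h.rel.rt ▸ hc).uin h.loc₂.tens h.rt₂
  obtain ⟨g, hgX, hG, ga, gb⟩ := hg c hc0 u2.uin u3.uin
  obtain ⟨g', hgX', hG', ga', gb'⟩ := hg c⁻¹ (inv_ne_zero hc0) (by simpa using u1.uin) u4.uin
  have hN := h.norm_of_torus hS hgX hG.2.2 ga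
  have hN' := h.norm_of_torus hS hgX' hG'.2.2 ga'
  obtain ⟨μ, hμ⟩ := (ht.inE.cj_of_mem hN).sub (ht.inE.smul (c * c))
  have hL : ∀ l ∈ shL t s, (cj g t - (c * c) • t) l = 0 := fun l hl => by
    obtain ⟨a, ha, b, hb, e⟩ := mem_shL.1 ((inv_mem hG).1 l hl)
    have h1 := hS.t_range (range_mul_le _ _ ha)
    rw [← apply_inv_self g l, ← e, LinearMap.sub_apply, cj_apply, inv_apply_self]
    simp [ga a ha, gb b hb, h1, ga _ (hS.t_mem_D (hS.D'_le_L hb)), smul_smul, hc0,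
      hS.t_range (range_mul_le _ _ (hω b hb))]
  have hV : ∀ o ∈ shV t s, (cj g t - (c * c) • t) o = (1 - c * c) • t o := fun o ho => by
    rw [LinearMap.sub_apply, cj_apply, hS.conj_t_V hG ho, sub_smul, one_smul, LinearMap.smul_apply]
  have hμ0 : ∀ y, μ y = 0 := fun y => by_contra fun hy => h.range_ne <| by
    have h1 : ∀ u, T₁ u (μ y) ∈ range t ⊓ range s := fun u => by
      obtain ⟨l, hl, o, ho, e⟩ := hS.dec' (T₁ u y)
      rw [← hμ, e, map_add, hL l hl, hV o ho, zero_add]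
      exact smul_mem _ _ (hS.t_mem_J ho)
    obtain ⟨u₀, hu₀⟩ := exists_ne (0 : U)
    obtain ⟨d, hd⟩ := mem_span_singleton.1
      (by_contra fun hw => hu₀ (ht.eq_zero_of_mem hT hw (h1 u₀).1))
    have hd0 : d ≠ 0 := by rintro rfl; exact hy (by simpa using hd.symm)
    refine Submodule.eq_of_le_of_finrank_le (fun v hv => ?_) hS.rk.ge
    obtain ⟨u, rfl⟩ := (ht.mem_range hT).1 hv
    simpa [← hd, smul_smul, hd0] using (h1 (d⁻¹ • u)).2
  have hJ : ∀ j ∈ range t ⊓ range s, j = 0 := fun j hj => by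
    obtain ⟨o, ho, rfl⟩ := hS.exists_t_eq_J hj
    have h1 : cj g t - (c * c) • t = 0 := hT.ext fun u y => by rw [hμ, hμ0]; simp
    have h2 := hV o ho
    rw [h1, LinearMap.zero_apply, eq_comm, smul_eq_zero] at h2
    exact h2.resolve_left (sub_ne_zero.2 hc2.symm)
  have hE : ∀ (g : V ≃ₗ[F] V) (d : F), d ≠ 0 → g ∈ tensG T₁ → (∀ a ∈ range (t * s), g a = d • a) →
      InE T₁ (g : End F V) := fun g d hd hN ga => inE_of_cj hT fun e he => by
    have h1 : ∀ u, g (T₁ u w) = d • T₁ u w := fun u => by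
      obtain ⟨j, hj, a, ha, e⟩ := hS.dec_t (ht.mem hT u)
      rw [← e, hJ j hj, zero_add, ga a ha]
    obtain ⟨γ, hγ⟩ := (he.cj_of_mem hN).sub he
    obtain ⟨ε, hε⟩ := he
    have h2 : ∀ u, γ u = 0 := fun u => (hT.eq_zero_iff.1 (by
      have h3 : g⁻¹ (T₁ u w) = d⁻¹ • T₁ u w := by
        rw [← inv_smul_smul₀ hd (T₁ u w), ← h1, map_smul, inv_apply_self, h1, inv_smul_smul₀ hd]
      rw [← hγ]
      simp [h3, hε, h1, smul_smul, hd])).resolve_right ht.w0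
    exact sub_eq_zero.1 (hT.ext fun u y => by rw [hγ, h2]; simp)
  have hc3 : c⁻¹ - 1 ≠ 0 := sub_ne_zero.2 (by simpa using hc1)
  have hc4 : c - 1 ≠ 0 := sub_ne_zero.2 hc1
  obtain ⟨ν, hν⟩ := ((((hE g c hc0 hN ga).smul c).sub inE_one).smul (c - 1)⁻¹).sub
    ((((hE g' _ (inv_ne_zero hc0) hN' ga').smul c⁻¹).sub inE_one).smul (c⁻¹ - 1)⁻¹)
  set m := (c - 1)⁻¹ • (c • (g : End F V) - 1) - (c⁻¹ - 1)⁻¹ • (c⁻¹ • (g' : End F V) - 1) with hm'
  have hm1 : m = hT.mp 1 ν := hT.ext fun u y => by simp only [hν, IsTens.mp_apply, End.one_apply]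
  refine h.false_of_line hm hJ h4 (P := ker ν) ?_ fun b hb => ?_
  · refine Nat.le_of_lt_succ (lt_of_lt_of_eq (Submodule.finrank_lt fun e => ?_) hk)
    obtain ⟨a, ha, ha0⟩ := (Submodule.ne_bot_iff _).1 (hS.D_ne_bot h.range_ne)
    have h1 : m a = (c - c⁻¹) • a := by
      simp only [hm', LinearMap.sub_apply, LinearMap.smul_apply, LinearEquiv.coe_coe, ga a ha,
        ga' a ha, End.one_apply]
      match_scalars
      have : (1 - c) ≠ 0 := sub_ne_zero.2 hc1.symm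
      field_simp
      ring
    rw [hm1, LinearMap.ker_eq_top.1 e, IsTens.mp_zero_right, LinearMap.zero_apply, eq_comm,
      smul_eq_zero, sub_eq_zero] at h1
    exact hc2 (by nth_rw 2 [h1.resolve_right ha0]; exact mul_inv_cancel₀ hc0)
  · obtain ⟨j, hj, b, hb', rfl⟩ := hS.dec_s hb
    rw [hJ j hj, zero_add, ← hT.ker_mp_one, ← hm1, LinearMap.mem_ker]
    simp only [hm', LinearMap.sub_apply, LinearMap.smul_apply, LinearEquiv.coe_coe, gb b hb',
      gb' b hb', End.one_apply, inv_inv]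
    have : (1 - c) ≠ 0 := sub_ne_zero.2 hc1.symm
    match_scalars <;> field_simp <;> ring

end Pair

/-- The global theorem for root subgroups with more than two elements. -/
theorem Loc.good_of_scalar (h : Loc X T) {c : F} (hc0 : c ≠ 0) (hc1 : c ≠ 1) (hc : Sc (Rt X T) c)
    (hk : 3 ≤ finrank F W ∨ c * c ≠ 1) (h4 : ∀ y, ∃ w φ, Rt X T w φ ∧ φ y = 0) {g : V ≃ₗ[F] V}
    (hg : g ∈ X) : Good T (tr T g) := by
  by_contra hb
  obtain ⟨T₂, t, s, hP⟩ := h.exists_pair hg hb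
  by_cases h3 : 3 ≤ finrank F W
  · exact hP.false_of_three h3 hc0 hc1 hc h4
  · exact hP.false_of_two (by have := h.two; omega) hc0 (hk.resolve_left h3) hc h4

end Cfsg.Lib.Class.Wr
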