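import Cfsg.Agent.Class.Wr.Ring

/-!
Tensor powers of a small symplectic or unitary space: two factors are grouped together.
-/

set_option autoImplicit false
set_option linter.unusedSectionVars false

namespace Cfsg.Lib.Class.Wr

open Module Submodule Tens Tn FE AO Form
open LinearMap (range ker)

variable {F U W V : Type*} [Field F] [AddCommGroup U] [Module F U] [AddCommGroup W] [Module F W]
  [AddCommGroup V] [Module F V] [FiniteDimensional F U] [FiniteDimensional F W] {σ : F →+* F}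
  {τ : Type*} {T : τ → U →ₗ[F] W →ₗ[F] V} {h : τ → U →ₛₗ[σ] U →ₗ[F] F} {f : W →ₛₗ[σ] W →ₗ[F] F}
  {β : V →ₛₗ[σ] V →ₗ[F] F} {ε₂ ε : F} {X : Subgroup (V ≃ₗ[F] V)} {a b d a' b' : τ}
  {x m γ : End F V}

theorem FT.mem_of_hyp (hf : FT f ε) {w : W} (hw0 : w ≠ 0) (hw : f w w = 0) {K : AddSubgroup W}
    (hK : ∀ y, f y y = 0 → f w y = 1 → y ∈ K) (ν : F) : ν • w ∈ K := by
  obtain ⟨y, h1, h2⟩ := hf.hm.exists_partner hw0 hw
  have h3 : ∀ u (s : F), f w u = 0 → f y u = 0 → ε * s + σ s = f u u → u - s • w ∈ K :=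
    fun u s a1 a2 a3 => by
      simpa [add_sub_assoc] using sub_mem (hK (y + u - s • w) (by
        simp [h1, h2, hw, a1, a2, hf.hm.comm a1, hf.hm.comm a2, hf.hm.swap_one h2]
        linear_combination -a3) (by simp [h2, a1, hw])) (hK y h1 h2)
  rcases hf.typ with ⟨-, rfl, hk⟩ | ⟨rfl, rfl, -⟩
  swap
  · simpa using h3 0 (-ν) (by simp) (by simp) (by simp)
  obtain ⟨u, a1, a2, a3⟩ := exists_two_zero hk (f w) (f y)
  obtain ⟨v, a4⟩ := hf.hm.exists_eq_one a1
  obtain ⟨v, a4, a5, a6⟩ : ∃ v, f u v = ν ∧ f w v = 0 ∧ f y v = 0 :=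
    ⟨ν • (v - f w v • y - f y v • w), by simp [a4, hf.hm.comm a2, hf.hm.comm a3],
      by simp [h2, hw], by simp [h1, hf.hm.swap_one h2]⟩
  obtain ⟨s, hs⟩ := hf.hm.tr u
  obtain ⟨r, hr⟩ := hf.hm.tr v
  convert sub_mem (add_mem (h3 u s a2 a3 hs) (h3 v r a5 a6 hr)) (h3 (u + v) (s + r + ν)
    (by simp [a2, a5]) (by simp [a3, a6]) (by
      simp only [map_add, LinearMap.add_apply, ← a4, hf.hm.conj]
      linear_combination hs + hr)) using 1
  module

theorem uin_three {A B D D' : End F V} {s : F} (h1 : Commute A D) (h2 : Commute A D')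
    (h3 : Commute B D) (h4 : Commute B D') (h5 : Commute B A) (h6 : A * A = 0) (h7 : B * B = 0)
    (H : UIn X (s • 1 * A * D)) (H' : UIn X (s • 1 * B * D')) :
    UIn X ((s * s) • (D * D' - D' * D) * A * B) := by
  have a1 : ∀ y, A * (A * y) = 0 := fun y => by rw [← mul_assoc, h6, zero_mul]
  convert uin_commutator H H' ?_ ?_ ?_ ?_ using 1 <;>
  simp [mul_assoc, h1.eq, h4.eq, h5.eq, h1.left_comm, h2.left_comm, h3.left_comm,
    h4.left_comm, h6, h7, a1, sub_mul, smul_sub, smul_smul]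

variable [Nontrivial U] [Nontrivial W] [Fintype τ] [Finite F]

namespace FW

variable (c : FW T h ε₂ f ε β X)
include c

/-- The coefficients of the long root terms of two factors. -/
def LL (a b : τ) : AddSubgroup (End F V) where
  carrier := {m | InC (T a) m ∧ InC (T b) m ∧
    ∀ w, f w w = 0 → m * kap (c.tp.tens a) (xx f w w) ∈ c.L b}
  zero_mem' := ⟨InC.zero, InC.zero, by simp⟩
  add_mem' h1 h2 := ⟨h1.1.add h2.1, h1.2.1.add h2.2.1, fun w hw => by
    rw [add_mul]; exact add_mem (h1.2.2 w hw) (h2.2.2 w hw)⟩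
  neg_mem' h1 := ⟨h1.1.neg, h1.2.1.neg, fun w hw => by rw [neg_mul]; exact neg_mem (h1.2.2 w hw)⟩

theorem hm (a : τ) : Hm β (ε₂ * ε) := (c.one a).hm

theorem fd (a : τ) : FiniteDimensional F V := (c.tp.tens a).finiteDimensional

/-- The coefficients of the short root terms of two factors. -/
def A1 (a b : τ) : AddSubgroup (End F V) where
  carrier := {x | InC (T a) x ∧ InC (T b) x ∧ ∀ w y, f w w = 0 → f y y = 0 → f w y = 1 →
    x * kap (c.tp.tens a) (xx f w y) - adj β x * kap (c.tp.tens a) (xx f y w) ∈ c.L b}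
  zero_mem' := ⟨InC.zero, InC.zero, by have := c.fd a; simp [(c.hm a).adj_zero]⟩
  add_mem' h1 h2 := ⟨h1.1.add h2.1, h1.2.1.add h2.2.1, fun w y a1 a2 a3 => by
    have := c.fd a
    convert add_mem (h1.2.2 w y a1 a2 a3) (h2.2.2 w y a1 a2 a3) using 1
    rw [add_mul, (c.hm a).adj_add, add_mul]; abel⟩
  neg_mem' h1 := ⟨h1.1.neg, h1.2.1.neg, fun w y a1 a2 a3 => by
    have := c.fd a
    convert neg_mem (h1.2.2 w y a1 a2 a3) using 1
    rw [neg_mul, (c.hm a).adj_neg, neg_mul]; abel⟩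

theorem adj_mul_kap (hx : InC (T a) x) (w y : W) : adj β (x * kap (c.tp.tens a) (xx f w y)) =
    ε • (adj β x * kap (c.tp.tens a) (xx f y w)) := by
  have := c.fd a
  rw [(c.hm a).adj_mul, (c.one a).adj_kap, (c.one a).hh.adj_xx, ((c.one a).inC_adj hx).comm_kap,
    map_smul, mul_smul_comm]

theorem swap (hab : a ≠ b) (m : End F V) (ρ ρ' : End F W) :
    m * kap (c.tp.tens a) ρ * kap (c.tp.tens b) ρ' =
      m * kap (c.tp.tens b) ρ' * kap (c.tp.tens a) ρ := by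
  rw [mul_assoc, (c.tp.inC_kap hab _).comm_kap, mul_assoc]

variable {c}

theorem LL_symm (hab : a ≠ b) (hm : m ∈ c.LL a b) : m ∈ c.LL b a :=
  ⟨hm.2.1, hm.1, fun p hp => ⟨hm.1.mul (c.tp.inC_kap hab _), fun w hw => by
    rw [← c.swap hab]; exact (hm.2.2 w hw).2 p hp⟩⟩

theorem LL_adj (hm : m ∈ c.LL a b) : adj β m = -m := by
  obtain ⟨w, h1, h2⟩ := (c.ft a).exists_iso
  have := (c.one b).lam_adj (hm.2.2 w h2)
  rw [c.adj_mul_kap hm.1, neg_smul ε, ← smul_neg ε, smul_right_inj (c.one a).hh.eps_ne,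
    eq_neg_iff_add_eq_zero, ← add_mul] at this
  exact eq_neg_of_add_eq_zero_left ((((c.one a).inC_adj hm.1).add hm.1).eq_zero_of_mul _
    ((c.one a).hh.xx_ne_zero h1 h1) this)

theorem smul_mem_A1 {s : F} (hs : ε * s + σ s = 0) (hm : m ∈ c.LL a b) : s • m ∈ c.A1 a b :=
  ⟨hm.1.smul s, hm.2.1.smul s, fun w y h1 h2 h3 => by
    have := c.fd a
    convert sub_mem (sub_mem (hm.2.2 (y + s • w) (by
      simp [h1, h2, h3, (c.one a).hh.swap_one h3]; linear_combination hs)) (hm.2.2 y h2))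
      (hm.2.2 (s • w) (by simp [h1])) using 1
    simp only [(c.hm a).adj_smul, LL_adj hm, xx_add_left, xx_add_right, xx_smul_left, xx_smul_right,
      map_add, map_smul, mul_add, mul_smul_comm, smul_mul_assoc, neg_mul]
    module⟩

theorem A1_LL (hx : x ∈ c.A1 a b) (ν : F) : ν • x - adj β (ν • x) ∈ c.LL a b := by
  have := c.fd a
  refine ⟨(hx.1.smul ν).sub ((c.one a).inC_adj (hx.1.smul ν)),
    (hx.2.1.smul ν).sub ((c.one b).inC_adj (hx.2.1.smul ν)), fun w hw => ?_⟩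
  by_cases h0 : w = 0
  · simp [h0]
  have := (c.ft a).mem_of_hyp h0 hw (K :=
    { carrier := {y | x * kap (c.tp.tens a) (xx f w y) -
        adj β x * kap (c.tp.tens a) (xx f y w) ∈ c.L b}
      zero_mem' := by simp
      add_mem' := fun h1 h2 => by
        show _ ∈ c.L b
        convert (c.L b).add_mem h1 h2 using 1
        simp only [xx_add_right, xx_add_left, map_add, mul_add]; abel
      neg_mem' := fun {y} h1 => by
        show _ ∈ c.L b
        convert (c.L b).neg_mem h1 using 1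
        simp only [← neg_one_smul F y, xx_smul_right, xx_smul_left, map_smul, mul_smul_comm,
          map_neg, map_one]
        module }) (fun y => hx.2.2 w y hw) (σ ν)
  simpa [xx_smul_left, xx_smul_right, (c.one a).hh.invol, sub_mul, (c.hm a).adj_smul] using this

theorem A1_mul (hab : a ≠ b) (hl : ∃ l, l ≠ 0 ∧ σ l * l ≠ 1) (hx : x ∈ c.A1 a b)
    (hm : m ∈ c.LL a b) : x * m ∈ c.A1 b a := by
  have := c.fd a
  have hf := (c.one a).hh
  have h1 := hx.1.mul hm.1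
  have h3 := (c.one a).inC_adj hx.1
  have h5 := fun ρ => c.tp.inC_kap hab ρ
  have key : ∀ p y, f p p = 0 → f y y = 0 → f p y = 1 →
      ε • (x * m * kap (c.tp.tens b) (xx f p y) - adj β (x * m) * kap (c.tp.tens b) (xx f y p)) +
        x * m * adj β x * kap (c.tp.tens b) (xx f p p) ∈ c.L a := fun p y a1 a2 a3 => by
    obtain ⟨w, b1, b2⟩ := (c.ft a).exists_iso
    obtain ⟨z, b3, b4⟩ := hf.exists_partner b1 b2
    have b5 := hx.2.2 w z b2 b3 b4
    obtain ⟨q, hq, e⟩ := b5.2 p a1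
    have b6 := (c.one b).lam_adj b5
    set r := x * kap (c.tp.tens a) (xx f w z) - adj β x * kap (c.tp.tens a) (xx f z w)
    have b7 : ∀ u, q (T b u y) = T b u y + r (T b u p) := fun u => by simp [e, a3]
    have b8 := hm.2.2 w b2
    have b9 := (b8.2 y a2).cj hq
    rw [(c.one b).cj_eq ((c.one b).le hq) b5.1 b8.1 b7 b7, b6] at b9
    have d1 : r * (m * kap (c.tp.tens a) (xx f w w)) = ε • (x * m * kap (c.tp.tens a) (xx f w w)) := by
      simp [r, sub_mul, mul_kap_mul _ hm.1, xx_mul, b2, hf.swap_one b4]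
    have d2 : ∀ m, m * kap (c.tp.tens a) (xx f w w) * r =
        -(m * adj β x * kap (c.tp.tens a) (xx f w w)) := fun m => by
      simp [r, mul_sub, mul_kap_mul _ hx.1, mul_kap_mul _ h3, xx_mul, b2, b4]
    simp only [d1, mul_smul_comm, smul_mul_assoc, d2, neg_mul, c.swap hab] at b9
    have d3 := ((h1.mul (h5 (xx f p y))).sub
      (((c.one a).inC_adj h1).mul (h5 (xx f y p)))).smul ε |>.add ((h1.mul h3).mul (h5 (xx f p p)))
    rw [← add_mem_cancel_left (LL_symm hab hm |>.2.2 y a2)]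
    refine (c.one a).lam_of_one ((hm.1.mul (h5 _)).add d3) b1 b2 ?_
    convert b9 using 1
    simp only [(c.hm a).adj_mul, LL_adj hm, add_mul, sub_mul, smul_mul_assoc, neg_mul]
    match_scalars <;> first | ring1 | linear_combination -hf.eps
  refine ⟨hx.2.1.mul hm.2.1, h1, fun p y a1 a2 a3 => ?_⟩
  obtain ⟨l, b1, b2⟩ := hl
  have b3 : σ l ≠ 0 := by simpa
  have b4 := sub_mem (key (l • p) ((σ l)⁻¹ • y) (by simp [a1]) (by simp [a2]) (by simp [a3, b3]))
    (key p y a1 a2 a3)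
  have b5 := (c.one a).lam_smul (a := ε) hf.σε (sub_mem (key p y a1 a2 a3)
    ((c.one a).lam_smul (a := (σ l * l - 1)⁻¹) (by simp [hf.invol, mul_comm]) b4))
  convert b5 using 1
  simp only [xx_smul_left, xx_smul_right, map_smul, map_inv₀, hf.invol, mul_smul_comm, smul_smul,
    inv_mul_cancel₀ b1, mul_inv_cancel₀ b3, one_smul, add_sub_add_left_eq_sub]
  have b6 := sub_ne_zero.2 b2
  match_scalars <;> first | linear_combination -hf.eps | linear_combination hf.eps | (field_simp; ring)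

section Cj

variable {n : V ≃ₗ[F] V} (hn : n ∈ X)
  (e : ∀ ρ, cj n (kap (c.tp.tens a) ρ) = kap (c.tp.tens a') ρ)
  (e' : ∀ ρ, cj n (kap (c.tp.tens b) ρ) = kap (c.tp.tens b') ρ)
include hn e e'

theorem LL_cj (hm : m ∈ c.LL a b) : cj n m ∈ c.LL a' b' :=
  ⟨inC_cj_of _ _ e hm.1, inC_cj_of _ _ e' hm.2.1, fun w hw => by
    simpa only [map_mul, e] using lam_cj _ _ hn e' (hm.2.2 w hw)⟩

theorem A1_cj (hx : x ∈ c.A1 a b) : cj n x ∈ c.A1 a' b' :=
  ⟨inC_cj_of _ _ e hx.1, inC_cj_of _ _ e' hx.2.1, fun w y a1 a2 a3 => by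
    have := c.fd a
    simpa only [map_mul, map_sub, e, (c.hm a).adj_cj _ ((c.one a).le hn)]
      using lam_cj _ _ hn e' (hx.2.2 w y a1 a2 a3)⟩

end Cj

theorem inv_A1 (a b : τ) : c.tp.Inv (SI f) (· ∈ c.A1 a b) := fun j g hg x hx => by
  by_cases h1 : j = a
  · subst h1; rwa [hx.1.cj_ug]
  by_cases h2 : j = b
  · subst h2; rwa [hx.2.1.cj_ug]
  exact A1_cj ((c.one j).ge g hg) (c.tp.cj_kap h1 g) (c.tp.cj_kap h2 g) hx

variable (c) in
/-- The span of the coefficients of both kinds of short root terms. -/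
def NS (a b : τ) : Submodule F (End F V) := span F (c.A1 a b ⊓ c.A1 b a : AddSubgroup _)

variable (c) in
/-- The ring of right multipliers. -/
def MM (a b : τ) : Submodule F (End F V) where
  carrier := {r | r ∈ c.NS a b ∧ ∀ x ∈ c.NS a b, x * r ∈ c.NS a b}
  zero_mem' := by simp
  add_mem' h1 h2 := ⟨add_mem h1.1 h2.1, fun x hx => by
    rw [mul_add]; exact add_mem (h1.2 x hx) (h2.2 x hx)⟩
  smul_mem' s _ h1 := ⟨smul_mem _ s h1.1, fun x hx => by
    rw [mul_smul_comm]; exact smul_mem _ s (h1.2 x hx)⟩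

theorem MM_mul (x : End F V) (hx : x ∈ c.MM a b) (y : End F V) (hy : y ∈ c.MM a b) :
    x * y ∈ c.MM a b :=
  ⟨hy.2 x hx.1, fun z hz => by rw [← mul_assoc]; exact hy.2 _ (hx.2 z hz)⟩

theorem inv_MM (a b : τ) : c.tp.Inv (SI f) (· ∈ c.MM a b) := by
  have : c.tp.Inv (SI f) (· ∈ c.NS a b) := fun j g hg x hx =>
    (span_le (p := (c.NS a b).comap (cj (ug (c.tp.tens j) g)).toLinearMap)).2
      (fun x hx => subset_span ⟨inv_A1 a b j g hg x hx.1, inv_A1 b a j g hg x hx.2⟩) hx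
  refine fun i g hg r hr => ⟨this i g hg r hr.1, fun x hx => ?_⟩
  rw [← cj_cj_inv (ug (c.tp.tens i) g) x, ← map_mul, ug_inv]
  exact this i g hg _ (hr.2 _ (this i _ (inv_mem hg) x hx))

theorem mul_mem_inf (hab : a ≠ b) (hl : ∃ l, l ≠ 0 ∧ σ l * l ≠ 1) (hm : m ∈ c.LL a b)
    (hx : x ∈ c.A1 a b ⊓ c.A1 b a) : x * m ∈ c.A1 a b ⊓ c.A1 b a :=
  ⟨A1_mul hab.symm hl hx.2 (LL_symm hab hm), A1_mul hab hl hx.1 hm⟩

theorem mem_MM (hab : a ≠ b) (hl : ∃ l, l ≠ 0 ∧ σ l * l ≠ 1) (hm : m ∈ c.LL a b) :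
    m ∈ c.MM a b := by
  obtain ⟨s, h1, h2⟩ := (c.ft a).skew
  exact ⟨((c.NS a b).smul_mem_iff h1).1
    (subset_span ⟨smul_mem_A1 h2 hm, smul_mem_A1 h2 (LL_symm hab hm)⟩), fun x hx =>
      (span_le (p := (c.NS a b).comap (LinearMap.mulRight F m))).2
        (fun x hx => subset_span (mul_mem_inf hab hl hm hx)) hx⟩

theorem NS_LL (hx : x ∈ c.NS a b) : x - adj β x ∈ c.LL a b := by
  have := c.fd a
  suffices ∀ ν : F, ν • x - adj β (ν • x) ∈ c.LL a b by simpa using this 1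
  induction hx using span_induction with
  | mem x hx => exact A1_LL hx.1
  | zero => simp [(c.hm a).adj_zero]
  | add x y _ _ h1 h2 =>
    intro ν
    convert add_mem (h1 ν) (h2 ν) using 1
    rw [smul_add, (c.hm a).adj_add]; abel
  | smul s x _ h1 => exact fun ν => smul_smul ν s x ▸ h1 _

variable (c) [DecidableEq τ]

theorem full_small (hp : c.tp.Alt X) (hs : Sm σ W) (ht : 3 ≤ Fintype.card τ) (hγ : γ ∈ c.L b)
    (H : ¬ ∃ s : F, γ = s • 1) : c.Full b := by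
  obtain ⟨N, hN⟩ := c.tp.exists_step (c.ft b) (Or.inr hs)
  obtain ⟨a, ha⟩ := c.exists_not_inC H
  have hab : a ≠ b := by rintro rfl; exact ha hγ.1
  have := c.fd a
  have hf := (c.one a).hh
  have hβ := c.hm a
  obtain ⟨w, w0, w1⟩ := (c.ft a).exists_iso
  obtain ⟨y, y1, y2⟩ := hf.exists_partner w0 w1
  obtain ⟨m, m0, m1, m2⟩ := (c.ft a).step_small (c.tp.tens a) hs (c.inv_L b a)
    (fun _ h _ => (c.one b).lam_smul h) hγ ha
  have m3 : m ∈ c.LL a b := ⟨m1, m1.of_mul_kap _ (c.tp.tens b) (c.tp.comm a b hab)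
    (hf.xx_ne_zero w0 w0) (m2 _ ⟨w, w1, rfl⟩).1, fun w hw => m2 _ ⟨w, hw, rfl⟩⟩
  have h1 := hN.one_mem (inv_MM a b) MM_mul (mem_MM hab hs.2 m3) m0
  have h2 : ∀ d, ¬ (d = a ∨ d = b) → ∃ m ∈ c.LL a b, ¬ InC (T d) m := fun d hd => by
    obtain ⟨d1, d2⟩ := not_or.1 hd
    by_cases hσ : σ = RingHom.id F
    · obtain ⟨j, hj⟩ := c.exists_not_inC (x := m) fun ⟨s, e⟩ => by
        have := LL_adj m3
        rw [e, hβ.adj_smul, hβ.adj_one, hσ, RingHom.id_apply, eq_neg_iff_add_eq_zero,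
          ← two_smul F, ← e] at this
        exact smul_ne_zero (hs.1.resolve_left fun h => h hσ).2 m0 this
      by_cases hjd : j = d
      · exact ⟨m, m3, hjd ▸ hj⟩
      obtain ⟨n, hn, π, e, rfl, a2, rfl⟩ := hp.dbl hab (c := j) (by rintro rfl; exact hj m1)
        (Ne.symm d1) (by rintro rfl; exact hj m3.2.1) (Ne.symm d2) hjd
      exact ⟨_, LL_symm hab.symm (LL_cj hn (e a) (fun ρ => (e _ ρ).trans (by simp only [a2])) m3),
        fun H => hj (e.inC_iff.1 H)⟩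
    obtain ⟨μ, hμ⟩ := exists_not_fixed hσ
    obtain ⟨-, rfl, hk⟩ := (c.ft a).typ.resolve_right fun h => hσ h.1
    have a1 := NS_LL ((c.MM a b).smul_mem μ h1).1
    rw [hβ.adj_smul, hβ.adj_one, ← sub_smul] at a1
    have a2 := fun {a b} => hp.all (J := fun a b => a ≠ b ∧ (μ - σ μ) • 1 ∈ c.LL a b)
      (fun a b H => ⟨H.1, H.1.symm, LL_symm H.1 H.2⟩) (fun n hn π e a b H =>
        ⟨π.injective.ne H.1, by simpa using LL_cj hn (e a) (e b) H.2⟩) (a := a) (b := b)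
    have a3 := fun ρ => c.tp.inC_kap (Ne.symm d1) ρ
    have a4 := fun ρ => c.tp.inC_kap (Ne.symm d2) ρ
    have a5 := sub_ne_zero.2 hμ.symm
    refine ⟨((μ - σ μ) * (μ - σ μ)) • (kap (c.tp.tens d) (xx f w w) * kap (c.tp.tens d) (xx f y y) -
      kap (c.tp.tens d) (xx f y y) * kap (c.tp.tens d) (xx f w w)),
      ⟨(((a3 _).mul (a3 _)).sub ((a3 _).mul (a3 _))).smul _,
      (((a4 _).mul (a4 _)).sub ((a4 _).mul (a4 _))).smul _, fun p hp => ⟨((((a4 _).mul
        (a4 _)).sub ((a4 _).mul (a4 _))).smul _).mul (c.tp.inC_kap hab.symm _), fun z hz =>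
      uin_three ((a3 _).comm_kap _ _) ((a3 _).comm_kap _ _) ((a4 _).comm_kap _ _)
        ((a4 _).comm_kap _ _) ((c.tp.inC_kap hab.symm _).comm_kap _ _)
        (by simp [← map_mul, xx_mul, hp]) (by simp [← map_mul, xx_mul, hz])
        (((a2 ⟨hab, a1⟩ d d1).2.2.2 p hp).2 w w1)
        (((a2 ⟨hab.symm, LL_symm hab a1⟩ d d2).2.2.2 z hz).2 y y1)⟩⟩, fun H => ?_⟩
    rw [← map_mul, ← map_mul, ← map_sub, ← map_smul] at H
    obtain ⟨s, e⟩ := scalar_of_inC_kap _ H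
    obtain ⟨u, b1, b2, b3⟩ := exists_two_zero hk (f w) (f y)
    obtain rfl : s = 0 := by simpa [b2, b3, b1] using (LinearMap.congr_fun e u).symm
    simpa [a5, w1, y2, hf.swap_one y2, w0] using LinearMap.congr_fun e w
  have h3 : ∀ x, InC (T a) x → InC (T b) x → x ∈ c.NS a b := fun x x1 x2 =>
    (c.tp.mem_of_kap h1 MM_mul (fun d => d = a ∨ d = b) (fun d hd =>
      let ⟨m, m1, m2⟩ := h2 d hd; hN.kap_mem (inv_MM a b) MM_mul (mem_MM hab hs.2 m1) m2)
      (by rintro _ (rfl | rfl) <;> assumption)).1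
  obtain ⟨d, d1, d2⟩ : ∃ d, d ≠ a ∧ d ≠ b := by
    obtain ⟨d, -, hd⟩ := Finset.exists_mem_notMem_of_card_lt_card (s := {a, b}) (t := Finset.univ)
      (Finset.card_le_two.trans_lt ht)
    exact ⟨d, by simpa using hd⟩
  have h4 : ∀ ρ, ∀ x ∈ c.A1 a b ⊓ c.A1 b a,
      x * kap (c.tp.tens d) (ρ - adj f ρ) ∈ c.A1 a b ⊓ c.A1 b a := fun ρ x hx => by
    rw [map_sub, ← (c.one d).adj_kap]
    exact mul_mem_inf hab hs.2 (NS_LL (h3 _ (c.tp.inC_kap d1.symm _) (c.tp.inC_kap d2.symm _))) hx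
  obtain ⟨ν, hν⟩ : ∃ ν : F, ν - σ ν * ε ≠ 0 := by
    rcases (c.ft a).typ with ⟨hσ, rfl, -⟩ | ⟨rfl, rfl, -⟩
    · obtain ⟨μ, hμ⟩ := exists_not_fixed hσ
      exact ⟨μ, by simpa [sub_eq_zero] using hμ.symm⟩
    · exact ⟨1, by simpa [one_add_one_eq_two] using (hs.1.resolve_left fun h => h rfl).2⟩
  have h5 : ∀ (μ : F) p, f p p = 0 → ∀ x ∈ c.A1 a b ⊓ c.A1 b a,
      x * kap (c.tp.tens d) (μ • xx f p p) ∈ c.A1 a b ⊓ c.A1 b a := fun μ p hp x hx => by
    by_cases h0 : p = 0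
    · simp [h0]
    obtain ⟨z, hz⟩ := hf.exists_eq_one h0
    have := h4 ((μ / (ν - σ ν * ε)) • xx f z p) _ (h4 (ν • xx f p p) x hx)
    rw [mul_assoc, ← map_mul, hf.adj_smul, hf.adj_smul, hf.adj_xx, hf.adj_xx, smul_smul,
      ← sub_smul] at this
    generalize ν - σ ν * ε = t at this hν
    simpa [mul_sub, xx_mul, hp, hz, smul_smul, hν] using this
  have h6 := (c.ft a).n1
    { carrier := {ρ | ∀ μ : F, ∀ x ∈ c.A1 a b ⊓ c.A1 b a,
        x * kap (c.tp.tens d) (μ • ρ) ∈ c.A1 a b ⊓ c.A1 b a}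
      zero_mem' := by simp
      add_mem' := fun h1 h2 μ x hx => by
        rw [smul_add, map_add, mul_add]; exact add_mem (h1 μ x hx) (h2 μ x hx)
      smul_mem' := fun s ρ h1 μ => smul_smul μ s ρ ▸ h1 _ } (by
      rintro _ ⟨p, hp, rfl⟩ _ ⟨z, hz, rfl⟩ μ x hx
      simpa [mul_assoc] using h5 1 z hz _ (h5 μ p hp x hx))
  have h7 : ∀ x ∈ c.NS a b, x ∈ c.A1 a b ⊓ c.A1 b a := fun x hx => by
    induction hx using span_induction with
    | mem x hx => exact hx
    | zero => exact zero_mem _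
    | add x y _ _ h1 h2 => exact add_mem h1 h2
    | smul s x _ h1 => simpa using h6.ge (mem_top (x := 1)) s x h1
  have h8 := (c.ft a).eq_top_of_xx (S :=
    { carrier := {ρ | ∀ x, InC (T a) x → InC (T b) x → x * kap (c.tp.tens a) ρ -
        ε • adj β (x * kap (c.tp.tens a) ρ) ∈ c.L b}
      zero_mem' := by simp [hβ.adj_zero]
      add_mem' := fun h1 h2 x x1 x2 => by
        convert add_mem (h1 x x1 x2) (h2 x x1 x2) using 1
        rw [map_add, mul_add, hβ.adj_add]; module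
      smul_mem' := fun s _ h1 x x1 x2 => by simpa using h1 _ (x1.smul s) (x2.smul s) })
    fun p z a1 a2 a3 x x1 x2 => by
      have := (h7 _ (h3 _ (x1.smul (σ (f p z))) (x2.smul _))).1.2.2 p ((f p z)⁻¹ • z) a1
        (by simp [a2]) (by simp [a3])
      simpa [c.adj_mul_kap x1, smul_smul, hf.eps, xx_smul_left, xx_smul_right, hβ.adj_smul,
        hf.invol, a3] using this
  exact fun r hr => ind_cp (c.tp.tens a) (P := fun x => x - ε • adj β x ∈ c.L b)
    (by simp [hβ.adj_zero]) (fun x y h1 h2 => by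
      convert add_mem h1 h2 using 1
      rw [hβ.adj_add]; module) fun φ w γ ψ => h8.ge mem_top _ (inC_cp _ _ _ _)
      (hr.cp _ (c.tp.tens b) (c.tp.comm a b hab) φ w)

end FW

end Cfsg.Lib.Class.Wr
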