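import Cfsg.Agent.Class.Wr.LocF
import Cfsg.Agent.Class.Tens.SpSp

/-!
Coefficients of the long and short root terms at a symplectic or unitary factor.
-/

set_option autoImplicit false
set_option linter.unusedSectionVars false

namespace Cfsg.Lib.Class.Wr

open Module Submodule Tens Tn FE AO Form
open LinearMap (range ker)

variable {F U W V : Type*} [Field F] [AddCommGroup U] [Module F U] [AddCommGroup W] [Module F W]
  [AddCommGroup V] [Module F V] [FiniteDimensional F U] [FiniteDimensional F W] {σ : F →+* F}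
  {T T' : U →ₗ[F] W →ₗ[F] V} {h : U →ₛₗ[σ] U →ₗ[F] F} {f : W →ₛₗ[σ] W →ₗ[F] F}
  {β : V →ₛₗ[σ] V →ₗ[F] F} {ε₂ ε : F} {X : Subgroup (V ≃ₗ[F] V)} {w δ w' δ' : W}
  {b b' m m' γ : End F V}

/-- The coefficients of the long root terms. -/
def Lam (hT : IsTens T) (f : W →ₛₗ[σ] W →ₗ[F] F) (X : Subgroup (V ≃ₗ[F] V)) :
    AddSubgroup (End F V) where
  carrier := {γ | InC T γ ∧ ∀ w, f w w = 0 → UIn X (γ * kap hT (xx f w w))}
  zero_mem' := ⟨InC.zero, fun _ _ => by simpa using UIn.zero⟩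
  add_mem' ha hb := ⟨ha.1.add hb.1, fun w hw => by
    rw [add_mul]
    exact (ha.2 w hw).add (hb.2 w hw) (by simp [mul_kap_mul _ hb.1, xx_mul, hw])⟩
  neg_mem' ha := ⟨ha.1.neg, fun w hw => by
    rw [neg_mul]
    exact (ha.2 w hw).neg (by simp [mul_kap_mul _ ha.1, xx_mul, hw])⟩

/-- A short root term corrected by a long root term. -/
noncomputable def nn (hT : IsTens T) (β : V →ₛₗ[σ] V →ₗ[F] F) (f : W →ₛₗ[σ] W →ₗ[F] F)
    (b m : End F V) (w δ : W) : End F V :=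
  sk β (b * kap hT (xx f w δ)) + m * kap hT (xx f w w)

theorem lam_cj (hT : IsTens T) (hT' : IsTens T') [Nontrivial W] {n : V ≃ₗ[F] V} (hn : n ∈ X)
    (e : ∀ b, cj n (kap hT b) = kap hT' b) (hγ : γ ∈ Lam hT f X) : cj n γ ∈ Lam hT' f X :=
  ⟨inC_cj_of _ _ e hγ.1, fun w hw => by simpa only [map_mul, e] using (hγ.2 w hw).cj hn⟩

section TF

variable (t : TF T h ε₂ f ε β)
include t

theorem nn_eq (hb : InC T b) : nn t.hT β f b m w δ = b * kap t.hT (xx f w δ) -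
    ε • (adj β b * kap t.hT (xx f δ w)) + m * kap t.hT (xx f w w) := by rw [nn, t.sk_mul hb]

theorem nn_mul (hb : InC T b) (hb' : InC T b') (hm' : InC T m') (h1 : f w w' = 0) (h2 : f w δ' = 0)
    (h3 : f δ w' = 0) : nn t.hT β f b m w δ * nn t.hT β f b' m' w' δ' =
      -(ε * f δ δ') • (b * adj β b' * kap t.hT (xx f w w')) := by
  simp [nn_eq t hb, nn_eq t hb', mul_add, add_mul, mul_sub, sub_mul, mul_kap_mul _ hb',
    mul_kap_mul _ hm', mul_kap_mul _ (t.inC_adj hb'), xx_mul, h1, h2, h3, smul_smul]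

theorem nn_add : nn t.hT β f (b + b') (m + m') w δ = nn t.hT β f b m w δ + nn t.hT β f b' m' w δ := by
  have := t.hT.finiteDimensional
  simp only [nn, add_mul, t.hm.sk_add]
  abel

theorem nn_zero : nn t.hT β f 0 m w δ = m * kap t.hT (xx f w w) := by
  have := t.hT.finiteDimensional
  simp [nn, t.hm.sk_zero]

theorem nn_smul (a : F) : nn t.hT β f (σ a • b) m w δ = nn t.hT β f b m w (a • δ) := by
  simp [nn, xx_smul_right]

theorem nn_cj (hT' : IsTens T') {n : V ≃ₗ[F] V} (hn : n ∈ isomGroup β) {g : W ≃ₗ[F] W}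
    (hg : g ∈ isomGroup f) (e : ∀ b, cj n (kap t.hT b) = kap hT' (cj g b)) :
    cj n (nn t.hT β f b m w δ) = nn hT' β f (cj n b) (cj n m) (g w) (g δ) := by
  have := t.hT.finiteDimensional
  simp only [nn, map_add, t.hm.sk_cj _ hn, map_mul, e, cj_xx _ _ hg]

/-- The coefficients of the short root terms. -/
def AA (X : Subgroup (V ≃ₗ[F] V)) : Submodule F (End F V) where
  carrier := {b | InC T b ∧ ∀ w δ, f w w = 0 → f δ δ = 0 → f w δ = 0 →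
    ∃ m, InC T m ∧ UIn X (nn t.hT β f b m w δ)}
  zero_mem' := ⟨InC.zero, fun _ _ _ _ _ => ⟨0, InC.zero, by simpa [nn_zero t] using UIn.zero⟩⟩
  add_mem' ha hb := ⟨ha.1.add hb.1, fun w δ h1 h2 h3 => by
    obtain ⟨m, h4, h5⟩ := ha.2 w δ h1 h2 h3
    obtain ⟨m', h6, h7⟩ := hb.2 w δ h1 h2 h3
    exact ⟨_, h4.add h6, nn_add t ▸ h5.add h7 (by
      simp [nn_mul t ha.1 hb.1 h6 h1 h3 (t.hh.comm h3), h2])⟩⟩
  smul_mem' a _ ha := ⟨ha.1.smul a, fun w δ h1 h2 h3 => by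
    simpa only [← nn_smul t, t.hh.invol] using ha.2 w (σ a • δ) h1 (by simp [h2]) (by simp [h3])⟩

end TF

/-- An overgroup of the special isometry group of the second factor. -/
structure F1 (T : U →ₗ[F] W →ₗ[F] V) (h : U →ₛₗ[σ] U →ₗ[F] F) (ε₂ : F) (f : W →ₛₗ[σ] W →ₗ[F] F)
    (ε : F) (β : V →ₛₗ[σ] V →ₗ[F] F) (X : Subgroup (V ≃ₗ[F] V)) : Prop
    extends TF T h ε₂ f ε β where
  ft : FT f ε
  le : X ≤ isomGroup β
  ge : ∀ g ∈ SI f, ug hT g ∈ X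

namespace F1

variable [Finite F] [Nontrivial U] (c : F1 T h ε₂ f ε β X)
include c

theorem lam_of_one (hγ : InC T γ) (hw0 : w ≠ 0) (hw : f w w = 0)
    (H : UIn X (γ * kap c.hT (xx f w w))) : γ ∈ Lam c.hT f X := ⟨hγ, fun y hy => by
  by_cases h0 : y = 0
  · simpa [h0] using UIn.zero
  obtain ⟨g, hg, rfl⟩ := c.ft.trans hw0 h0 (by rw [hy, hw])
  simpa only [map_mul, hγ.cj_ug, cj_ug_kap, cj_xx _ _ hg.1] using H.cj (c.ge g hg)⟩

theorem lam_adj (hγ : γ ∈ Lam c.hT f X) : adj β γ = -ε • γ := by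
  have := c.hT.finiteDimensional
  obtain ⟨w, hw0, hw⟩ := c.ft.exists_iso
  have := c.hm.adj_of_uIn c.le (hγ.2 w hw) (by simp [mul_kap_mul _ hγ.1, xx_mul, hw])
  rw [c.hm.adj_mul, c.adj_kap, c.hh.adj_xx, (c.inC_adj hγ.1).comm_kap, map_smul] at this
  refine eq_of_sub_eq_zero (((c.inC_adj hγ.1).sub (hγ.1.smul _)).eq_zero_of_mul c.hT
    (c.hh.xx_ne_zero hw0 hw0) ?_)
  simp only [mul_smul_comm, sub_mul, smul_mul_assoc] at this ⊢
  linear_combination (norm := match_scalars <;>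
    first | ring1 | linear_combination -c.hh.eps) ε • this

theorem lam_smul {a : F} (ha : σ a = a) (hγ : γ ∈ Lam c.hT f X) : a • γ ∈ Lam c.hT f X :=
  c.ft.smul_of_norm (A := (· ∈ Lam c.hT f X)) (fun _ _ => sub_mem) (fun l => ⟨hγ.1.smul _,
    fun w hw => by
      simpa [xx_smul_left, xx_smul_right, smul_smul, mul_comm l] using hγ.2 (l • w) (by simp [hw])⟩) ha

theorem lam_skew {s : F} (hs : ε * s + σ s = 0) : s • 1 ∈ Lam c.hT f X :=
  ⟨inC_smul_one s, fun w hw => by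
    simpa [rk_smul_left, xx] using uIn_of_ug _ (c.ge _ (c.hh.tv_mem hw hs (by simp [hw]))) (tv_apply _)⟩

theorem uin_nn_cj (hb : InC T b) (hm : InC T m) (H : UIn X (nn c.hT β f b m w δ))
    {g : W ≃ₗ[F] W} (hg : g ∈ SI f) : UIn X (nn c.hT β f b m (g w) (g δ)) := by
  simpa only [nn_cj c.toTF c.hT (c.ug_isom hg.1) hg.1 (cj_ug_kap _ g), hb.cj_ug, hm.cj_ug]
    using H.cj (c.ge g hg)

theorem uin_nn_one (h1 : f w w = 0) (h2 : f δ δ = 0) (h3 : f w δ = 0) (a : F) :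
    UIn X (nn c.hT β f (a • 1) 0 w δ) := by
  have := c.hT.finiteDimensional
  obtain ⟨g, hg, e⟩ := c.hh.exists_eich_zero (p := σ a • δ) (δ := w) (by simp [h2]) h1
    (by simp [c.hh.comm h3])
  rw [← c.hh.invol a, nn_smul c.toTF, nn_eq c.toTF inC_one]
  simpa [c.hm.adj_one] using uIn_of_ug _ (c.ge g hg) e

theorem one_mem_AA : 1 ∈ AA c.toTF X :=
  ⟨inC_one, fun w δ h1 h2 h3 => ⟨0, InC.zero, by simpa using c.uin_nn_one h1 h2 h3 1⟩⟩

theorem uin_nn_sub (hb : InC T b) (hb' : InC T b') (hm' : InC T m') (h1 : f w w = 0)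
    (h2 : f w δ = 0) (h3 : f w δ' = 0) (h4 : f δ δ' = 0) (h5 : f δ' δ' = 0)
    (H : UIn X (nn c.hT β f b m w δ)) (H' : UIn X (nn c.hT β f b' m' w δ')) :
    UIn X (nn c.hT β f b m w δ - nn c.hT β f b' m' w δ') :=
  UIn.sub H H' (by simp [nn_mul c.toTF hb hb' hm' h1 h3 (c.hh.comm h2), h4])
    (by simp [nn_mul c.toTF hb' hb' hm' h1 h3 (c.hh.comm h3), h5])

theorem lam_of_nn (hb : InC T b) (hm : InC T m) (hw0 : w ≠ 0) (h1 : f w w = 0) (h2 : f δ δ = 0)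
    (h3 : f w δ = 0) (h4 : ∀ a : F, δ ≠ a • w) (H : UIn X (nn c.hT β f b m w δ)) (μ : F) :
    σ μ • b - (ε * μ) • adj β b ∈ Lam c.hT f X := by
  obtain ⟨y, b1, b2⟩ := c.hh.exists_orth_ne hw0 h4
  obtain ⟨g, hg, d, -, e⟩ := c.hh.exists_eich h1 (u := -σ μ • y) (by simp [b1])
  have b3 : g w = w := (mem_Rad_span.1 hg).2.1
  have b4 : g δ = δ + μ • w := by
    simp [e, h3, c.hh.invol, c.hh.swap_one b2, mul_left_comm ε, c.hh.eps]
  have h5 := c.hh.comm h3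
  have := c.uin_nn_cj hb hm H (rad_le_SI _ hg)
  rw [b3, b4] at this
  refine c.lam_of_one ((hb.smul _).sub ((c.inC_adj hb).smul _)) hw0 h1 ?_
  convert c.uin_nn_sub hb hb hm h1 (by simp [h1, h3]) h3 (by simp [h2, h3]) h2 this H using 1
  simp only [nn_eq c.toTF hb, xx_add_left, xx_add_right, xx_smul_left, xx_smul_right, map_add,
    map_smul, mul_add, sub_mul, mul_smul_comm, smul_mul_assoc]
  module

theorem AA_lam (hk : 4 ≤ finrank F W) (hb : b ∈ AA c.toTF X) : b - ε • adj β b ∈ Lam c.hT f X := by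
  obtain ⟨w, hw0, h1⟩ := c.ft.exists_iso
  obtain ⟨δ, h2, h3, h4⟩ := c.ft.exists_indep hk hw0
  obtain ⟨m, hm, H⟩ := hb.2 w δ h1 h2 h3
  simpa using c.lam_of_nn hb.1 hm hw0 h1 h2 h3 h4 H 1

theorem mem_AA (hb : InC T b) (H : ∀ w δ, w ≠ 0 → f w w = 0 → f δ δ = 0 → f w δ = 0 →
    (∀ a : F, δ ≠ a • w) → ∃ m, InC T m ∧ UIn X (nn c.hT β f b m w δ)) : b ∈ AA c.toTF X :=
  ⟨hb, fun w δ h1 h2 h3 => by
    have := c.hT.finiteDimensional
    by_cases h0 : w = 0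
    · exact ⟨0, InC.zero, by simpa [h0, nn, c.hm.sk_zero] using UIn.zero⟩
    by_cases h4 : ∀ a : F, δ ≠ a • w
    · exact H w δ h0 h1 h2 h3 h4
    obtain ⟨a, rfl⟩ := not_forall_not.1 h4
    refine ⟨(ε * a) • adj β b - σ a • b, ((c.inC_adj hb).smul _).sub (hb.smul _), ?_⟩
    convert UIn.zero
    simp only [nn_eq c.toTF hb, xx_smul_left, xx_smul_right, map_smul, sub_mul, mul_smul_comm,
      smul_mul_assoc]
    module⟩

theorem AA_mul (hb : b ∈ AA c.toTF X) (hγ : γ ∈ Lam c.hT f X) : b * γ ∈ AA c.toTF X :=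
  c.mem_AA (hb.1.mul hγ.1) fun w e hw0 h1 h2 h3 h4 => by
    have := c.hT.finiteDimensional
    have := c.ft.nontrivial
    obtain ⟨δ, a1, a2, a3⟩ := c.hh.exists_hyp hw0 h2 h3 h4
    obtain ⟨m, -, q, hq, a4⟩ := hb.2 w (ε • δ) h1 (by simp [a1]) (by simp [a2])
    have a5 : ∀ u, q (T u e) = T u e + b (T u w) := fun u => by
      obtain ⟨b₀, hb₀⟩ := hb.1
      simp [a4, nn_eq c.toTF hb.1, h3, c.hh.swap_one a3, hb₀, c.hh.σε, c.hh.eps]
    have a6 := (hγ.2 e h2).cj hq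
    rw [c.cj_eq (c.le hq) hb.1 hγ.1 a5 a5] at a6
    have a7 := hb.1.mul hγ.1
    refine ⟨_, a7.mul (c.inC_adj hb.1), ?_⟩
    convert UIn.sub a6 (hγ.2 e h2) (by simp [add_mul, mul_kap_mul _ hγ.1, xx_mul, h2, h3])
      (by simp [mul_kap_mul _ hγ.1, xx_mul, h2]) using 1
    simp only [nn_eq c.toTF a7, c.hm.adj_mul, c.lam_adj hγ, smul_mul_assoc]
    match_scalars <;> first | ring1 | linear_combination c.hh.eps

theorem lam_of_hyp {η : W} (hb : InC T b) (hb' : InC T b') (hm : InC T m) (hm' : InC T m')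
    (hw0 : w ≠ 0) (h1 : f w w = 0) (h2 : f δ δ = 0) (h3 : f w δ = 0) (h4 : f η η = 0)
    (h5 : f w η = 0) (h6 : f δ η = 1) (H : UIn X (nn c.hT β f b m w δ))
    (H' : UIn X (nn c.hT β f b' m' w η)) :
    b' * adj β b - ε • (b * adj β b') ∈ Lam c.hT f X := by
  have a1 := nn_mul c.toTF (m := m) hb hb' hm' h1 h5 (c.hh.comm h3)
  have a2 := nn_mul c.toTF (m := m') hb' hb hm h1 h3 (c.hh.comm h5)
  have a3 := hb.mul (c.inC_adj hb')
  have a4 := hb'.mul (c.inC_adj hb)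
  refine c.lam_of_one (a4.sub (a3.smul _)) hw0 h1 ?_
  convert uin_commutator H H' (by simp [nn_mul c.toTF hb hb hm h1 h3 (c.hh.comm h3), h2])
    (by simp [nn_mul c.toTF hb' hb' hm' h1 h5 (c.hh.comm h5), h4]) ?_ ?_ using 1
  · rw [a1, a2, h6, c.hh.swap_one h6, c.hh.eps, sub_mul, smul_mul_assoc]
    module
  · simp [a1, ← nn_zero c.toTF (δ := 0), nn_mul c.toTF InC.zero hb hm h1 h3]
  · simp [a2, ← nn_zero c.toTF (δ := 0), nn_mul c.toTF InC.zero hb' hm' h1 h5]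

theorem AA_hyp (hk : 4 ≤ finrank F W) (hb : b ∈ AA c.toTF X) (hb' : b' ∈ AA c.toTF X) :
    b' * adj β b - ε • (b * adj β b') ∈ Lam c.hT f X := by
  obtain ⟨w, hw0, h1⟩ := c.ft.exists_iso
  obtain ⟨δ, h2, h3, h4⟩ := c.ft.exists_indep hk hw0
  obtain ⟨η, h5, h6, h7⟩ := c.hh.exists_hyp hw0 h2 h3 h4
  obtain ⟨m, hm, H⟩ := hb.2 w δ h1 h2 h3
  obtain ⟨m', hm', H'⟩ := hb'.2 w η h1 h5 h6
  exact c.lam_of_hyp hb.1 hb'.1 hm hm' hw0 h1 h2 h3 h5 h6 h7 H H'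

variable (hσ : σ = RingHom.id F)
include hσ

theorem AA_of_one (hb : InC T b) (hm : InC T m) (hw0 : w ≠ 0) (h3 : f w δ = 0)
    (h4 : ∀ a : F, δ ≠ a • w) (H : UIn X (nn c.hT β f b m w δ)) : b ∈ AA c.toTF X :=
  c.mem_AA hb fun w' δ' a1 _ _ a2 a3 => by
    obtain ⟨g, hg, rfl, rfl⟩ := c.ft.pair hσ hw0 a1 h4 a3 (by rw [h3, a2])
    exact ⟨m, hm, c.uin_nn_cj hb hm H hg⟩

theorem AA_comm (hk : 5 ≤ finrank F W) (hb : b ∈ AA c.toTF X) (hb' : InC T b')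
    (hb'' : adj β b' ∈ AA c.toTF X) {y : W} (h1 : f w y = 0) : UIn X (nn c.hT β f (b * b') 0 w y) := by
  have := c.hT.finiteDimensional
  obtain ⟨rfl, rfl, ha, -⟩ := c.ft.typ.resolve_left fun h => h.1 hσ
  obtain ⟨η, δ, a1, a2, a3, a4, a5⟩ := c.hh.exists_perp_pair hk w y
  obtain ⟨η, a1, a2, a5⟩ : ∃ η, f w η = 0 ∧ f y η = 0 ∧ f δ η = 1 :=
    ⟨(f δ η)⁻¹ • η, by simp [a1], by simp [a2], by simp [a5]⟩
  obtain ⟨m, hm, H⟩ := hb.2 w δ (ha _) (ha _) a3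
  obtain ⟨m', hm', H'⟩ := hb''.2 y η (ha _) (ha _) a2
  have b1 := nn_mul c.toTF (m := m) hb.1 hb''.1 hm' h1 a1 (c.hh.comm a4)
  have b2 := nn_mul c.toTF (m := m') hb''.1 hb.1 hm (c.hh.comm h1) a4 (c.hh.comm a1)
  have b3 := hb.1.mul hb'
  rw [c.hm.adj_adj] at b1
  convert uin_commutator H H' (by simp [nn_mul c.toTF hb.1 hb.1 hm (ha _) a3 (c.hh.comm a3), ha])
    (by simp [nn_mul c.toTF hb''.1 hb''.1 hm' (ha _) a2 (c.hh.comm a2), ha]) ?_ ?_ using 1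
  · simp [b1, b2, a5, c.hh.swap_one a5, nn_eq c.toTF b3, c.hm.adj_mul]
  · rw [b1]
    simp [nn_eq c.toTF hb.1, mul_add, mul_kap_mul _ hb.1, mul_kap_mul _ hm,
      mul_kap_mul _ (c.inC_adj hb.1), xx_mul, c.hh.comm h1, a4]
  · rw [b2]
    simp [nn_eq c.toTF hb''.1, mul_add, mul_kap_mul _ hb''.1, mul_kap_mul _ hm',
      mul_kap_mul _ (c.inC_adj hb''.1), xx_mul, h1, a1]

theorem AA_sep (hk : (2 : F) ≠ 0 ∨ 5 ≤ finrank F W) (hb : b ∈ AA c.toTF X) (h0 : w ≠ 0)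
    (h1 : f w δ = 0) (h4 : ∀ a : F, δ ≠ a • w) : UIn X (nn c.hT β f b 0 w δ) := by
  have := c.hT.finiteDimensional
  rcases hk with h2 | hk
  swap
  · simpa using c.AA_comm hσ hk hb inC_one (by rw [c.hm.adj_one]; exact c.one_mem_AA) h1
  obtain ⟨rfl, rfl, ha, -⟩ := c.ft.typ.resolve_left fun h => h.1 hσ
  obtain ⟨m, hm, H⟩ := (AA c.toTF X).smul_mem 2⁻¹ hb |>.2 w δ (ha _) (ha _) h1
  obtain ⟨g, hg, a1, a2⟩ := c.ft.pair rfl h0 h0 h4 (δ' := -δ)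
    (fun a e => h4 (-a) (by rw [neg_smul, ← e, neg_neg])) (by simp [h1])
  have a3 := c.uin_nn_cj (hb.1.smul _) hm H hg
  rw [a1, a2] at a3
  convert c.uin_nn_sub (hb.1.smul _) (hb.1.smul _) hm (ha _) h1 (by simp [h1]) (by simp [ha])
    (ha _) H a3 using 1
  rw [← neg_one_smul F δ, ← nn_smul c.toTF]
  simp only [nn_eq c.toTF hb.1, nn_eq c.toTF (hb.1.smul _), c.hm.adj_smul, smul_smul,
    smul_mul_assoc, RingHom.id_apply, zero_mul]
  match_scalars <;> field_simp <;> ring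

end F1

end Cfsg.Lib.Class.Wr
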