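import Cfsg.Agent.Class.Wr.FT

/-!
The stabiliser of `U ⊗ w` in an overgroup of the factor group of a symplectic or unitary factor.
-/

set_option autoImplicit false
set_option linter.unusedSectionVars false

namespace Cfsg.Lib.Class.Tn.TF

open Module Form AO

variable {F U W V : Type*} [Field F] [AddCommGroup U] [Module F U] [AddCommGroup W] [Module F W]
  [AddCommGroup V] [Module F V] {σ : F →+* F} [FiniteDimensional F U] [FiniteDimensional F W]
  {T : U →ₗ[F] W →ₗ[F] V} {f : U →ₛₗ[σ] U →ₗ[F] F} {h : W →ₛₗ[σ] W →ₗ[F] F}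
  {β : V →ₛₗ[σ] V →ₗ[F] F} {ε₁ ε₂ : F}

/-- An isometry normalising the radical of `x` in the first factor group is a tensor product
modulo the radical of `x ⊗ W`. -/
theorem exists_levi (c : TF T f ε₁ h ε₂ β) [Nontrivial W] {x : U} (hx0 : x ≠ 0) (hx : f x x = 0)
    {s : F} (hs0 : s ≠ 0) (hs : ε₁ * s + σ s = 0) {g : V ≃ₗ[F] V} (hgi : g ∈ isomGroup β)
    (hJ : ∀ w, g (T x w) ∈ JL T x) (loc : ∀ a ∈ Rad f (Submodule.span F {x}),
      g * c.hT.mpE a 1 * g⁻¹ ∈ Rad β (JL T x) → g * c.hT.mpE a 1 * g⁻¹ ∈ tensG T) :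
    ∃ (a : U ≃ₗ[F] U) (b : W ≃ₗ[F] W) (μ : F), μ ≠ 0 ∧ (∀ y y', f (a y) (a y') = μ * f y y') ∧
      a x = μ • x ∧ c.hT.mpE a b ∈ isomGroup β ∧ (c.hT.mpE a b)⁻¹ * g ∈ Rad β (JL T x) := by
  have := c.hT.finiteDimensional
  obtain ⟨x', hx', hxx⟩ := c.hf.exists_partner hx0 hx
  have hxx' := c.hf.swap_one hxx
  have e1 := c.hf.eps
  set b : End F W := ε₁ • c.c x' ∘ₗ (g : End F V) ∘ₗ T x
  have hb : ∀ w, g (T x w) = T x (b w) := fun w => by
    obtain ⟨w', hw'⟩ := hJ w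
    simp [b, ← hw', hxx', smul_smul, e1]
  set b₁ : End F W := c.c x ∘ₗ (g : End F V) ∘ₗ T x'
  have h1 : ∀ w w', h (b w) (b₁ w') = h w w' := fun w w' => by
    have := iso hgi (T x w) (T x' w')
    rwa [hb, c.left, c.tens, hxx, one_mul] at this
  let bE := LinearEquiv.ofInjectiveEndo b ((injective_iff_map_eq_zero _).2 fun w hw =>
    c.hh.sep _ fun w' => by rw [← h1, hw]; simp)
  let b' := LinearEquiv.ofInjectiveEndo b₁ ((injective_iff_map_eq_zero _).2 fun w hw =>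
    c.hh.sep' _ fun w' => by rw [← h1, hw]; simp)
  have hb' : ∀ w, c.c x (g (T x' w)) = b' w := fun _ => rfl
  have hJ' : ∀ v ∈ JL T x, g⁻¹ v ∈ JL T x := by
    rintro _ ⟨w, rfl⟩
    obtain ⟨w, rfl⟩ := bE.surjective w
    exact ⟨w, g.injective (by simp [hb]; rfl)⟩
  have h2 : ∀ v, c.c x v = 0 → c.c x (g v) = 0 := fun v hv => c.hh.sep' _ fun w => by
    obtain ⟨w, rfl⟩ := bE.surjective w
    rw [← c.left, show T x (bE w) = g (T x w) from (hb w).symm, iso hgi, c.left, hv, map_zero]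
  have key : ∀ a ∈ Rad f (Submodule.span F {x}), ∃ u, ∀ w, g (T (a x' - x') w) = T u (b' w) +
      ((g * c.hT.mpE a 1 * g⁻¹) (g (T x' w) - T x' (b' w)) - (g (T x' w) - T x' (b' w))) := by
    intro a ha
    have h3 := conj_mem_Rad (c.mpE_mem_Rad ha) hgi (by rintro _ ⟨w, rfl⟩; exact hJ w) hJ'
    obtain ⟨a', ha'⟩ := c.hT.exists_of_fix (loc a ha h3) hx0 (c.mem_Rad_JL.1 h3).2.1
    refine ⟨a' x' - x', fun w => ?_⟩
    rw [map_sub (g * _ * g⁻¹), ha']
    simp only [map_sub, LinearMap.sub_apply, LinearEquiv.mul_apply, LinearEquiv.coe_inv,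
      LinearEquiv.symm_apply_apply, IsTens.mpE_apply, LinearEquiv.coe_one, id]
    abel
  have h3 : ∀ u, f x u = 0 → ∃ u', ∀ w, ∃ w', g (T u w) = T u' (b' w) + T x w' := fun u hu => by
    obtain ⟨a, ha, s, -, e⟩ := c.hf.exists_eich hx hu
    obtain ⟨u', hu'⟩ := key a ha
    refine ⟨u', fun w => ?_⟩
    obtain ⟨w', hw'⟩ := (c.mem_Rad_JL.1 (conj_mem_Rad (c.mpE_mem_Rad ha) hgi
      (by rintro _ ⟨w, rfl⟩; exact hJ w) hJ')).2.2 (g (T x' w) - T x' (b' w)) (by simp [hb', hxx])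
    refine ⟨w' + (ε₁ * f u x' + s) • b w, ?_⟩
    have := hu' w
    simp only [hw', e, hxx, map_add, map_sub, map_smul, LinearMap.add_apply, LinearMap.sub_apply,
      LinearMap.smul_apply, hb, one_smul] at this ⊢
    linear_combination (norm := module) this
  obtain ⟨w₀, w₁, hw⟩ := c.hh.exists_ne_pair
  obtain ⟨η, hη⟩ := Module.Projective.exists_dual_eq_one F
    (x := b' w₀) (fun h0 => by simp [b'.map_eq_zero_iff.1 h0] at hw)
  set π : End F U := 1 - (f x).smulRight x' - (ε₁ • f x').smulRight x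
  have hπ : ∀ y, π y = y - f x y • x' - (ε₁ * f x' y) • x := fun _ => rfl
  have hπ1 : ∀ y, f x (π y) = 0 := fun y => by simp [hπ, hx, hxx]
  have hπ2 : ∀ y, f x' (π y) = 0 := fun y => by
    simp only [hπ, map_sub, map_smul, hx', hxx', smul_eq_mul]; linear_combination -f x' y * e1
  have hπx : π x = 0 := by simp [hπ, hx, hxx', e1]
  set a₁ : End F U := π ∘ₗ c.hT.cR η ∘ₗ (g : End F V) ∘ₗ T.flip w₀ ∘ₗ π
  have ha₁ : ∀ y, a₁ y = π (c.hT.cR η (g (T (π y) w₀))) := fun _ => rfl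
  have h4 : ∀ y w, ∃ w', g (T (π y) w) = T (a₁ y) (b' w) + T x w' := fun y w => by
    obtain ⟨u', hu'⟩ := h3 _ (hπ1 y)
    obtain ⟨w₂, hw₂⟩ := hu' w₀
    obtain ⟨w₃, hw₃⟩ := hu' w
    have h5 : f x u' = 0 := by
      have := congrArg η (h2 (T (π y) w₀) (by simp [hπ1]))
      simpa [hw₂, hx, hη] using this
    refine ⟨w₃ + (ε₁ * f x' u') • b' w, ?_⟩
    rw [ha₁, hw₂, hw₃]
    simp only [map_add, IsTens.cR_apply, hη, one_smul, map_smul, hπx, smul_zero, add_zero]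
    simp only [hπ, h5, map_sub, LinearMap.sub_apply, LinearMap.smul_apply, map_smul]
    module
  have h5 : ∀ y y' w w', f (a₁ y) (a₁ y') * h (b' w) (b' w') = f (π y) (π y') * h w w' := by
    intro y y' w w'
    obtain ⟨v, hv⟩ := h4 y w
    obtain ⟨v', hv'⟩ := h4 y' w'
    have := iso hgi (T (π y) w) (T (π y') w')
    simpa [hv, hv', c.tens, hx, ha₁, hπ1, c.hf.comm (hπ1 _)] using this
  obtain ⟨μ, hμ0, hμ⟩ : ∃ μ : F, μ ≠ 0 ∧ ∀ w w', μ * h (b' w) (b' w') = h w w' := by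
    · obtain ⟨a, ha, e⟩ := c.hf.exists_tv hx hs
      obtain ⟨u', hu'⟩ := key a ha
      have h6 : ∀ w, s • T x (b w) = T u' (b' w) := fun w => by
        have h7 : c.c x (g⁻¹ (g (T x' w) - T x' (b' w))) = 0 := c.hh.sep' _ fun y => by
          rw [← c.left, ← iso hgi, hb, c.left]; simp [hb', hxx]
        have h8 : ∀ v, c.c x v = 0 → c.hT.mpE a 1 v = v := fun v hv =>
          c.ind_orth (P := fun v => c.hT.mpE a 1 v = v) (by simp)
            (fun u v hu hv => by rw [map_add, hu, hv]) (fun u w hu => by simp [e, hu]) hv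
        have := hu' w
        rw [LinearEquiv.mul_apply, LinearEquiv.mul_apply, h8 _ h7] at this
        simpa [e, hxx, hb] using this
      have h7 : ∀ w, b w = (s⁻¹ * (ε₁ * f x' u')) • b' w := fun w => by
        have := congrArg (c.c x') (h6 w)
        rw [map_smul, c.c_apply, c.c_apply, hxx'] at this
        rw [mul_smul, mul_smul, ← this, smul_comm ε₁, smul_smul ε₁, e1, one_smul,
          inv_smul_smul₀ hs0]
      have h8 : ∀ w w', σ (s⁻¹ * (ε₁ * f x' u')) * h (b' w) (b' w') = h w w' := fun w w' => by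
        rw [← h1 w w', h7, map_smulₛₗ]; rfl
      exact ⟨_, left_ne_zero_of_mul (by rw [h8 w₀ w₁, hw]; exact one_ne_zero), h8⟩
  have hσ : σ μ = μ := by
    have h6 := congrArg σ (hμ w₀ w₁)
    have h7 := hμ w₁ w₀
    rw [map_mul, c.hh.conj, hw, map_one] at h6
    rw [c.hh.swap_one hw] at h7
    linear_combination μ * h6 - σ μ * ε₂ * h7 - σ μ * c.hh.eps
  have h6 : ∀ w, b w = μ • b' w := fun w => c.hh.ext_left fun w' => by
    obtain ⟨w', rfl⟩ := b'.surjective w'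
    rw [map_smulₛₗ h μ, hσ, LinearMap.smul_apply μ, smul_eq_mul, hμ, ← h1 w w']; rfl
  set a₀ : End F U := a₁ + (μ • ε₁ • f x').smulRight x + (f x).smulRight x'
  have ha₀ : ∀ y, a₀ y = a₁ y + (μ * (ε₁ * f x' y)) • x + f x y • x' := fun _ => rfl
  have h7 : ∀ y y', f (a₀ y) (a₀ y') = μ * f y y' := fun y y' => by
    have h8 := h5 y y' w₀ w₁
    have h9 := hμ w₀ w₁
    rw [hw] at h8 h9
    simp only [hπ, map_sub, map_smulₛₗ, LinearMap.sub_apply, LinearMap.smul_apply, hx, hx', hxx,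
      hxx', map_mul, c.hf.σε, c.hf.conj, smul_eq_mul, RingHom.id_apply] at h8
    simp only [ha₀, map_add, map_smulₛₗ, LinearMap.add_apply, LinearMap.smul_apply, hx, hx', hxx,
      hxx', map_mul, c.hf.σε, c.hf.conj, smul_eq_mul, RingHom.id_apply, hσ, ha₁, hπ1, hπ2,
      c.hf.comm (hπ1 _), c.hf.comm (hπ2 _)]
    simp only [← ha₁]
    linear_combination μ * h8 - f (a₁ y) (a₁ y') * h9 +
      μ * (2 * ε₁ * f y x * f x' y' + f y x' * f x y') * e1
  let a := LinearEquiv.ofInjectiveEndo a₀ ((injective_iff_map_eq_zero _).2 fun y hy =>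
    c.hf.sep _ fun y' => by simpa [hy, hμ0] using h7 y y')
  have ha : ∀ y, a y = a₀ y := fun _ => rfl
  have hm : c.hT.mpE a b' ∈ isomGroup β := c.mpE_isom fun y w y' w' => by
    rw [ha, ha, h7, ← hμ w w']; ring
  have h8 : ∀ w, c.hT.mpE a b' (T x w) = g (T x w) := fun w => by
    simp [ha, ha₀, ha₁, hπx, hb, h6, hx, hxx', e1]
  have h9 : (c.hT.mpE a b')⁻¹ * g ∈ Rad β (JL T x) := by
    refine c.mem_Rad_JL.2 ⟨mul_mem (inv_mem hm) hgi, fun w => by
      rw [LinearEquiv.mul_apply, ← h8]; exact (c.hT.mpE a b').symm_apply_apply _, fun v hv => ?_⟩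
    refine c.ind_orth (P := fun v => ∃ w, ((c.hT.mpE a b')⁻¹ * g) v = v + T x w) ⟨0, by simp⟩
      ?_ ?_ hv
    · rintro u v ⟨w, hw⟩ ⟨w', hw'⟩
      exact ⟨w + w', by rw [map_add, hw, hw', map_add]; abel⟩
    · intro u w hu
      obtain ⟨w', hw'⟩ := h4 u w
      obtain ⟨w', rfl⟩ := bE.surjective w'
      refine ⟨w', (c.hT.mpE a b').injective ?_⟩
      simp only [hπ, hu, map_sub, map_smul, LinearMap.sub_apply, LinearMap.smul_apply, hb,
        show bE w' = b w' from rfl, h6] at hw'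
      simp only [LinearEquiv.mul_apply, LinearEquiv.coe_inv, LinearEquiv.apply_symm_apply, map_add,
        h8, hb, h6]
      simp only [IsTens.mpE_apply, ha, ha₀, hu, LinearMap.add_apply, map_smul, LinearMap.smul_apply,
        map_add]
      linear_combination (norm := module) hw'
  exact ⟨a, b', μ, hμ0, h7, by simp [ha, ha₀, ha₁, hπx, hx, hxx', e1], hm, h9⟩

end Cfsg.Lib.Class.Tn.TF

namespace Cfsg.Lib.Class.Wr

open Module Submodule Tens Tn FE AO Form
open LinearMap (range ker)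

variable {F U W V : Type*} [Field F] [AddCommGroup U] [Module F U] [AddCommGroup W] [Module F W]
  [AddCommGroup V] [Module F V] [FiniteDimensional F U] [FiniteDimensional F W] {σ : F →+* F}
  {T : U →ₗ[F] W →ₗ[F] V} {h : U →ₛₗ[σ] U →ₗ[F] F} {f : W →ₛₗ[σ] W →ₗ[F] F}
  {β : V →ₛₗ[σ] V →ₗ[F] F} {ε₂ ε : F} {X : Subgroup (V ≃ₗ[F] V)} {w δ : W}

theorem UIn.sub {ν μ : End F V} (h : UIn X ν) (h' : UIn X μ) (h0 : ν * μ = 0) (h1 : μ * μ = 0) :
    UIn X (ν - μ) := by
  simpa [sub_eq_add_neg] using h.add (h'.neg h1) (by simp [h0])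

theorem uIn_conj {q k : V ≃ₗ[F] V} {ν : End F V} (e : ∀ z, k z = z + ν z) (h : q * k * q⁻¹ ∈ X) :
    UIn X (cj q ν) := ⟨_, h, apply_conj e q⟩

theorem ug_eq (hT : IsTens T) {g : W ≃ₗ[F] W} {b : End F W} (e : ∀ y, g y = y + b y) (z : V) :
    ug hT g z = z + kap hT b z :=
  hT.ind (P := fun z => ug hT g z = z + kap hT b z) (by simp)
    (fun u v hu hv => by simp only [map_add, hu, hv]; abel) (fun u y => by simp [e]) z

theorem InC.exists_mp (hT : IsTens T) {m : End F V} (hm : InC T m) : ∃ a, m = hT.mp a 1 :=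
  (inC_iff hT).1 hm

/-- The elements of `X` in the centre of the radical of `U ⊗ ⟨w, δ⟩` which are trivial at `δ`
lie in the second factor. -/
def ZZ (hT : IsTens T) (β : V →ₛₗ[σ] V →ₗ[F] F) (f : W →ₛₗ[σ] W →ₗ[F] F)
    (X : Subgroup (V ≃ₗ[F] V)) (w : W) : Prop :=
  ∀ δ b c, f δ δ = 0 → f w δ = 0 → InC T b → InC T c →
    UIn X (sk β (b * kap hT (xx f w δ)) + c * kap hT (xx f w w)) →
    InE T (sk β (b * kap hT (xx f w δ)) + c * kap hT (xx f w w))

theorem ug_mem_Rad (t : TF T h ε₂ f ε β) {b : W ≃ₗ[F] W} (hb : b ∈ Rad f (span F {w})) :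
    ug t.hT b ∈ Rad β (JL T.flip w) := by
  rw [ug, ← t.hT.mpE_flip]; exact t.flip.mpE_mem_Rad hb

variable [Finite F] [Nontrivial U] (t : TF T h ε₂ f ε β) (hf : FT f ε)
include t hf

theorem ZZ.long (hZ : ZZ t.hT β f X w) (hw : w ≠ 0) {c : End F V} (hc : InC T c)
    (H : UIn X (c * kap t.hT (xx f w w))) : ∃ s : F, c = s • 1 := by
  have := t.hT.finiteDimensional
  obtain ⟨y, hy⟩ := t.hh.exists_eq_one hw
  have := hZ 0 0 c (by simp) (by simp) InC.zero hc (by simpa [t.hm.sk_zero] using H)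
  exact hc.scalar_of_apply t.hT hw this (y := y) fun u => by simp [t.hm.sk_zero, hy]

theorem ZZ.short (hZ : ZZ t.hT β f X w) (hw : w ≠ 0) (h1 : f δ δ = 0) (h2 : f w δ = 0)
    (h3 : ∀ a : F, δ ≠ a • w) {b c : End F V} (hb : InC T b) (hc : InC T c)
    (H : UIn X (sk β (b * kap t.hT (xx f w δ)) + c * kap t.hT (xx f w w))) :
    ∃ s : F, b = s • 1 := by
  obtain ⟨y, h4, h5⟩ := t.hh.exists_orth_ne hw h3
  exact hb.scalar_of_apply t.hT hw (hZ δ b c h1 h2 hb hc H) (y := y) fun u => by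
    simp [t.sk_mul hb, h4, h5]

/-- An element of the radical of `U ⊗ w` conjugating the factor group into `X`. -/
theorem core_form (hk : 4 ≤ finrank F W ∨ Sm σ W) (hX : ∀ g ∈ SI f, ug t.hT g ∈ X) (hw0 : w ≠ 0)
    (hw : f w w = 0) (hZ : ZZ t.hT β f X w) {q : V ≃ₗ[F] V} (hq : q ∈ Rad β (JL T.flip w))
    (hP : ∀ g ∈ SI f, q * ug t.hT g * q⁻¹ ∈ X) : q ∈ tensG T := by
  have := t.hT.finiteDimensional
  have := hf.nontrivial
  obtain ⟨s, hs0, hs⟩ := hf.skew
  have hσs : σ s = -(ε * s) := by linear_combination hs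
  obtain ⟨w', hww⟩ := t.hh.exists_eq_one hw0
  obtain ⟨η, hη⟩ := exists_dual_eq (K := F) hw0 1
  have hl : ∀ {p}, f p p = 0 → ∃ g ∈ SI f, ∀ z, ug t.hT g z = z + (s • kap t.hT (xx f p p)) z :=
    fun {p} hp => ⟨_, t.hh.tv_mem hp hs (by simp [hp]), fun z => by
      rw [ug_eq t.hT (tv_apply _), rk_smul_left, map_smul]; rfl⟩
  obtain ⟨-, h1, h2⟩ := t.flip.mem_Rad_JL.1 hq
  simp only [LinearMap.flip_apply] at h1 h2
  set x : End F V := (q : End F V) - 1
  have h3 : ∀ y, f w y = 0 → ∀ u, q (T u y) = T u y + cp t.hT η y x (T u w) := fun y hy u => by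
    obtain ⟨u', e⟩ := h2 (T u y) (by rw [← T.flip_apply, t.flip.c_apply, hy, zero_smul])
    simp [cp_apply, x, e, hη]
  have h4 : ∀ y, f w y = 0 → ∃ c : F, cp t.hT η y x = c • 1 := fun y hy => by
    have hy' := inC_cp t.hT η y x
    by_cases hσ : σ = RingHom.id F
    · rcases hk with hk | hk
      swap
      · obtain ⟨c, rfl⟩ := hf.eq_smul_of_two (hk.1.resolve_left fun h => h hσ).1 hw0 hw hy
        exact ⟨0, t.hT.ext fun u z => by simp [cp_apply, x, h1]⟩
      refine hf.mem_of_perp hk hw0 hw (K :=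
        { carrier := {y | ∃ c : F, cp t.hT η y x = c • 1}
          zero_mem' := ⟨0, t.hT.ext fun u z => by simp [cp_apply]⟩
          add_mem' := fun ⟨c, hc⟩ ⟨d, hd⟩ => ⟨c + d, by
            rw [add_smul, ← hc, ← hd]; exact t.hT.ext fun u z => by simp [cp_apply]⟩
          smul_mem' := fun a _ ⟨c, hc⟩ => ⟨a * c, by
            rw [mul_smul, ← hc]; exact t.hT.ext fun u z => by simp [cp_apply]⟩ })
        (fun δ a1 a2 a3 => ?_) hy
      have hδ := inC_cp t.hT η δ x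
      obtain ⟨g, hg, e⟩ := hl a1
      have a4 := uIn_conj e (hP g hg)
      rw [map_smul, ← one_mul (kap _ _), t.cj_eq hq.1 hδ inC_one (h3 δ a2) (h3 δ a2)] at a4
      obtain ⟨a, ha⟩ := hδ.exists_mp t.hT
      have a5 := UIn.sub a4 ⟨_, hX g hg, e⟩ (t.hT.ext fun u z => by simp [a1, a2])
        (t.hT.ext fun u z => by simp [a1])
      obtain ⟨c, hc⟩ := hZ.short t hf hw0 a1 a2 a3 (hδ.smul s)
        ((hδ.mul (t.inC_adj hδ)).smul s) (by
          convert a5 using 1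
          rw [t.sk_mul (hδ.smul s)]
          simp only [t.hm.adj_smul, hσs, smul_mul_assoc, mul_one, one_mul, smul_smul]
          match_scalars <;> first | ring1 | linear_combination s * t.hh.eps)
      exact ⟨s⁻¹ * c, by rw [mul_smul, ← hc, inv_smul_smul₀ hs0]⟩
    have key : ∀ μ : F, ∃ c : F, μ • cp t.hT η y x - (ε * σ μ) • adj β (cp t.hT η y x) = c • 1 := by
      intro μ
      obtain ⟨b, hb, c, -, e⟩ := t.hh.exists_eich hw (u := μ • y) (by simp [hy])
      have a1 : ∀ u, q (T u (μ • y)) = T u (μ • y) + (μ • cp t.hT η y x) (T u w) := fun u => by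
        simp [h3 y hy]
      have a2 : ∀ u, q (T u w) = T u w + (0 : End F V) (T u w) := fun u => by simp [h1]
      have a3 := ug_eq t.hT (g := b)
        (b := xx f (μ • y) w - ε • xx f w (μ • y) - c • xx f w w) fun z => by
          simp only [e, LinearMap.sub_apply, LinearMap.smul_apply, xx_apply]; module
      obtain ⟨k, hk, a4⟩ := uIn_conj a3 (hP b (rad_le_SI _ hb))
      simp only [map_sub, map_smul] at a4
      rw [← one_mul (kap _ (xx f (μ • y) w)), ← one_mul (kap _ (xx f w (μ • y))),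
        ← one_mul (kap _ (xx f w w)), t.cj_eq hq.1 InC.zero inC_one a1 a2,
        t.cj_eq hq.1 (hy'.smul μ) inC_one a2 a1, t.cj_eq hq.1 InC.zero inC_one a2 a2] at a4
      refine hZ.long t hf hw0 ((hy'.smul _).sub ((t.inC_adj hy').smul _))
        ⟨_, mul_mem (inv_mem (hX b (rad_le_SI _ hb))) hk, fun z => (ug t.hT b).injective ?_⟩
      have a5 : ∀ m, InC T m → (ug t.hT b : End F V) * (m * kap t.hT (xx f w w)) =
          m * kap t.hT (xx f w w) := fun m ⟨a, ha⟩ => t.hT.ext fun u z => by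
        simp [ha, (mem_Rad_span.1 hb).2.1]
      have a6 := LinearMap.congr_fun (a5 _ ((hy'.smul μ).sub ((t.inC_adj hy').smul (ε * σ μ)))) z
      rw [End.mul_apply, LinearEquiv.coe_coe] at a6
      rw [LinearEquiv.mul_apply, apply_inv_self, a4, map_add, a6, a3]
      simp only [t.hm.adj_zero, t.hm.adj_smul, map_sub, map_smul, mul_zero, zero_mul, add_zero,
        mul_one, one_mul, sub_mul, smul_mul_assoc, LinearMap.add_apply, LinearMap.sub_apply,
        LinearMap.smul_apply]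
      module
    obtain ⟨μ, hμ⟩ := exists_not_fixed hσ
    obtain ⟨c, hc⟩ := key 1
    obtain ⟨d, hd⟩ := key μ
    refine ⟨(μ - σ μ)⁻¹ * (d - σ μ * c), ?_⟩
    rw [mul_smul, eq_inv_smul_iff₀ (sub_ne_zero.2 hμ.symm)]
    rw [map_one] at hc
    linear_combination (norm := module) hd - σ μ • hc
  obtain ⟨u₀, hu⟩ := exists_ne (0 : U)
  obtain ⟨ξ, hξ⟩ := exists_dual_eq (K := F) hu 1
  obtain ⟨z, hz⟩ := t.hh.exists_eq_dual (ξ ∘ₗ t.hT.cR η ∘ₗ x ∘ₗ T u₀)
  have h5 : ∀ y, f w y = 0 → ∀ u, q (T u y) = T u (y + f z y • w) := fun y hy u => by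
    obtain ⟨c, hc⟩ := h4 y hy
    have := congrArg (fun v => ξ (t.hT.cR η v)) (LinearMap.congr_fun hc (T u₀ w))
    simp [cp_apply, hη, hξ] at this
    simp [h3 y hy, hc, hz, this]
  obtain ⟨b, hb, c, -, e⟩ := t.hh.exists_eich hw (u := -ε • z) (by
    rw [map_smul, t.hh.comm (u := z) (by simp [hz, x, h1]), smul_zero])
  have hb' := rad_le_SI _ hb
  have h6 : ∀ y, f w y = 0 → ∀ u, ((ug t.hT b)⁻¹ * q) (T u y) = T u y := fun y hy u =>
    (ug t.hT b).injective (by simp [h5 y hy, e, hy, t.hh.σε, ← mul_assoc, t.hh.eps])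
  have h7 : (ug t.hT b)⁻¹ * q ∈ Rad β (JL T.flip w) :=
    mul_mem (inv_mem (ug_mem_Rad t hb)) hq
  have h8 : ∀ g ∈ SI f, ((ug t.hT b)⁻¹ * q) * ug t.hT g * ((ug t.hT b)⁻¹ * q)⁻¹ ∈ X := fun g hg => by
    simpa [mul_assoc] using mul_mem (mul_mem (inv_mem (hX b hb')) (hP g hg)) (hX b hb')
  suffices (ug t.hT b)⁻¹ * q ∈ tensG T by simpa using mul_mem (ug_mem t.hT b) this
  generalize (ug t.hT b)⁻¹ * q = k at h6 h7 h8
  obtain ⟨γ, hγ⟩ := t.flip.exists_gam hw hww h7 fun u => by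
    obtain ⟨u', hu'⟩ := t.flip.mem_JL hw0 (v := k (T u w') - T u w') fun y hy =>
      t.hf.sep' _ fun v => by
        rw [← t.flip.left, map_sub, LinearMap.flip_apply, ← h6 y hy, iso h7.1, h6 y hy, sub_self]
    exact ⟨u', eq_add_of_sub_eq' hu'⟩
  set m := t.hT.mp γ 1
  have hm : InC T m := inC_mp _ _
  have h9 : ∀ v, k v = v + (m * kap t.hT (xx f w w)) v := fun v => by
    rw [hγ, kap_eq, ← t.hT.mp_mul, mul_one, one_mul, xx, rk, t.hT.mp_smulRight']; rfl
  have h10 : ∀ p, f p p = 0 → m * kap t.hT (xx f p p) * (m * kap t.hT (xx f p p)) = 0 :=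
    fun p hp => by simp [mul_kap_mul _ hm, xx_mul, hp]
  have h11 : ∀ p, p ≠ 0 → f p p = 0 → f w p = 0 →
      UIn X (m * kap t.hT (xx f w w) - m * kap t.hT (xx f p p)) := fun p a1 a2 a3 => by
    obtain ⟨g, hg, rfl⟩ := hf.trans hw0 a1 (by rw [a2, hw])
    refine ⟨_, mul_mem (h8 g hg) (inv_mem (hX g hg)), fun v => ?_⟩
    have a4 := inv_apply_of_sq (apply_conj h9 (ug t.hT g)) (by rw [← map_mul, h10 w hw, map_zero]) v
    rw [map_mul, hm.cj_ug, cj_ug_kap, cj_xx _ _ hg.1] at a4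
    have a5 := LinearMap.congr_fun (mul_kap_mul t.hT hm m (xx f w w) (xx f (g w) (g w))) v
    simp only [xx_mul, a3, zero_smul, map_zero, mul_zero, LinearMap.zero_apply] at a5
    rw [show k * ug t.hT g * k⁻¹ * (ug t.hT g)⁻¹ = k * (ug t.hT g * k * (ug t.hT g)⁻¹)⁻¹ by group,
      LinearEquiv.mul_apply, a4, h9, map_sub, show (m * kap t.hT (xx f w w)) _ = 0 from a5]
    simp only [LinearMap.sub_apply]
    abel
  obtain ⟨c, hc⟩ : ∃ c : F, m = c • 1 := by
    rcases hk with hk | ⟨-, l, a1, a2⟩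
    · obtain ⟨p, a1, a2, a3⟩ := hf.exists_indep hk hw0
      have a4 : adj β m = -ε • m := by
        have := t.hm.adj_of_uIn le_rfl ⟨k, h7.1, h9⟩ (h10 w hw)
        rw [t.hm.adj_mul, t.adj_kap, t.hh.adj_xx, (t.inC_adj hm).comm_kap, map_smul] at this
        refine eq_of_sub_eq_zero (((t.inC_adj hm).sub (hm.smul _)).eq_zero_of_mul t.hT
          (t.hh.xx_ne_zero hw0 hw0) ?_)
        simp only [mul_smul_comm, sub_mul, smul_mul_assoc] at this ⊢
        linear_combination (norm := match_scalars <;>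
          first | ring1 | linear_combination -t.hh.eps) ε • this
      refine hZ.short t hf hw0 a1 a2 a3 hm hm ?_
      have a5 := t.hh.comm a2
      convert UIn.sub (h11 p (by simpa using a3 0) a1 a2) (h11 (p + w)
        (fun h0 => a3 (-1) (by rw [neg_smul, one_smul, eq_neg_iff_add_eq_zero, h0]))
        (by simp [a1, a2, a5, hw]) (by simp [a2, hw])) ?_ ?_ using 1
      · simp only [t.sk_mul hm, a4, xx_add_left, xx_add_right, map_add, mul_add, smul_mul_assoc]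
        match_scalars <;> first | ring1 | linear_combination t.hh.eps
      all_goals simp [mul_sub, sub_mul, mul_kap_mul _ hm, xx_mul, a1, a2, a5, hw]
    · obtain ⟨c, hc⟩ := hZ.long t hf hw0 (hm.smul (1 - σ l * l)) (by
        convert h11 (l • w) (smul_ne_zero a1 hw0) (by simp [hw]) (by simp [hw]) using 1
        simp only [xx_smul_left, xx_smul_right, map_smul, mul_smul_comm, smul_mul_assoc]
        module)
      exact ⟨(1 - σ l * l)⁻¹ * c, by rw [mul_smul, ← hc, inv_smul_smul₀ (sub_ne_zero.2 a2.symm)]⟩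
  exact tensG_of_inE t.hT h9 (by rw [hc, smul_mul_assoc, one_mul]; exact (inE_kap _ _).smul c)

/-- The stabiliser of `U ⊗ w` in `X` preserves the decomposition. -/
theorem mem_tensG_form (hk : 4 ≤ finrank F W ∨ Sm σ W) (hle : X ≤ isomGroup β)
    (hX : ∀ g ∈ SI f, ug t.hT g ∈ X) (hw0 : w ≠ 0) (hw : f w w = 0) (hZ : ZZ t.hT β f X w)
    {y : V ≃ₗ[F] V} (hy : y ∈ X) (e : ∀ u, ∃ u', y (T u w) = T u' w) : y ∈ tensG T := by
  have := t.hT.finiteDimensional
  have := hf.nontrivial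
  obtain ⟨s, hs0, hs⟩ := hf.skew
  have loc : ∀ q ∈ X, q ∈ Rad β (JL T.flip w) → q ∈ tensG T := fun q hq hR =>
    core_form t hf hk hX hw0 hw hZ hR fun g hg => mul_mem (mul_mem hq (hX g hg)) (inv_mem hq)
  obtain ⟨b, a, μ, h1, h2, h3, h4, h5⟩ := t.flip.exists_levi hw0 hw hs0 hs (hle hy)
    (fun u => (e u).imp fun _ h => h.symm) fun b hb hR => tensG_flip T ▸ loc _ (mul_mem (mul_mem hy
      (by rw [t.hT.mpE_flip]; exact hX b (rad_le_SI _ hb))) (inv_mem hy)) hR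
  rw [t.hT.mpE_flip] at h4 h5
  have h6 : ∀ g, t.hT.mpE a b * ug t.hT g * (t.hT.mpE a b)⁻¹ = ug t.hT (b * g * b⁻¹) := fun g => by
    simp [ug, t.hT.mpE_inv, ← t.hT.mpE_mul]
  have h7 := core_form t hf (X := X.comap (MulAut.conj (t.hT.mpE a b)).toMonoidHom) hk
    (fun g hg => by
      simpa [h6] using hX _ ⟨fun u v => by
        obtain ⟨u, rfl⟩ := b.surjective u
        obtain ⟨v, rfl⟩ := b.surjective v
        simp [h2, iso hg.1], (inferInstance : (SLV F W).Normal).conj_mem g hg.2 b⟩) hw0 hw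
    (fun δ m c a1 a2 hm hc ⟨g, hg, e⟩ => by
      have a3 : g ∈ isomGroup β := by
        simpa [mul_assoc] using mul_mem (mul_mem (inv_mem h4) (hle hg)) h4
      obtain ⟨m', hm'⟩ := hm
      have a4 : ∀ u, g (T u w) = T u w := fun u => by
        simp [e, t.sk_mul ⟨m', hm'⟩, t.hh.comm a2, hw]
      have a5 : g ∈ Rad β (JL T.flip w) := t.flip.mem_Rad_JL.2 ⟨a3, a4, fun v =>
        t.flip.ind_orth (P := fun v => ∃ u, g v = v + T u w) ⟨0, by simp⟩ (by
          rintro u v ⟨u', hu⟩ ⟨v', hv⟩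
          exact ⟨u' + v', by simp only [map_add, hu, hv, LinearMap.add_apply]; abel⟩)
          fun z u hz => ⟨f δ z • m' u, by simp [e, t.sk_mul ⟨m', hm'⟩, hz, hm']⟩⟩
      have a6 := loc _ hg (conj_mem_Rad a5 h4 (by
        rintro _ ⟨u, rfl⟩; exact ⟨μ • a u, by simp [h3]⟩) (by
        rintro _ ⟨u, rfl⟩
        exact ⟨μ⁻¹ • a.symm u, (t.hT.mpE a b).injective (by simp [h3, smul_smul, h1])⟩))
      obtain ⟨ρ, hρ⟩ := t.hT.flip.exists_of_fix (x := w) (g := g) (by
        rw [tensG_flip]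
        simpa [mul_assoc] using mul_mem (mul_mem (inv_mem (t.hT.mpE_mem a b)) a6)
          (t.hT.mpE_mem a b)) hw0 a4
      exact ⟨(ρ : End F W) - 1, fun u z => by
        have := hρ z u
        rw [LinearMap.flip_apply, e] at this
        simp [eq_sub_of_add_eq' this]⟩) h5
    (fun g hg => by simpa [mul_assoc] using mul_mem (mul_mem hy (hX g hg)) (inv_mem hy))
  simpa using mul_mem (t.hT.mpE_mem a b) h7

end Cfsg.Lib.Class.Wr
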