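import Cfsg.Agent.Class.Wr.TP

/-!
Overgroups in `SL` of the stabiliser of a tensor power decomposition.
-/

set_option autoImplicit false
set_option linter.unusedSectionVars false

namespace Cfsg.Lib.Class.Wr

open Module Submodule Tens Tn FE AO
open LinearMap (range ker)

variable {F U W V : Type*} [Field F] [AddCommGroup U] [Module F U] [AddCommGroup W] [Module F W]
  [AddCommGroup V] [Module F V] [FiniteDimensional F U] [FiniteDimensional F W]
  {w γ : W} {φ ψ : Dual F W}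

theorem rk_sq (h : φ w = 0) : rk w φ * rk w φ = 0 := by rw [rk_mul, h, zero_smul]

/-- The transvection `1 + w φ`. -/
def tv (w : W) (φ : Dual F W) (h : φ w = 0) : W ≃ₗ[F] W := sqEquiv _ (rk_sq h)

theorem tv_mem (h : φ w = 0) : tv w φ h ∈ SLV F W := sqEquiv_mem_SLV _

theorem tv_apply (h : φ w = 0) (y : W) : tv w φ h y = y + rk w φ y := rfl

theorem cj_tv_rk (h : ψ γ = 0) : cj (tv γ ψ h) (rk w φ) = rk (w + ψ w • γ) (φ - φ γ • ψ) := by
  rw [cj_rk]
  congr 1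
  ext y
  rw [LinearMap.comp_apply, LinearEquiv.coe_coe, inv_apply_of_sq (tv_apply h) (rk_sq h)]
  simp [mul_comm]

theorem exists_ker_notMem (hk : 3 ≤ finrank F W) (φ : Dual F W) (w : W) :
    ∃ y, φ y = 0 ∧ y ∉ span F {w} := by
  by_cases hw : w = 0
  · obtain ⟨y, h1, h2⟩ := exists_one_zero (by omega) φ
    exact ⟨y, h2, by simpa [hw] using h1⟩
  obtain ⟨η, hη⟩ := exists_dual_eq (K := F) hw 1
  obtain ⟨y, h1, h2, h3⟩ := exists_two_zero hk φ η
  refine ⟨y, h2, fun h => ?_⟩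
  obtain ⟨c, rfl⟩ := mem_span_singleton.1 h
  simp [hη] at h3
  simp [h3] at h1

/-- `SL` is transitive on transvections. -/
theorem exists_cj_rk (hk : 3 ≤ finrank F W) (hw : w ≠ 0) (hφ : φ ≠ 0) (h : φ w = 0) (hγ : γ ≠ 0)
    (hψ : ψ ≠ 0) (h' : ψ γ = 0) : ∃ g ∈ SLV F W, cj g (rk w φ) = rk γ ψ := by
  let R : End F W → End F W → Prop := fun a b => ∃ g ∈ SLV F W, cj g a = b
  have tr : ∀ {a b c}, R a b → R b c → R a c := fun ⟨g, hg, e⟩ ⟨k, hk, e'⟩ =>
    ⟨k * g, mul_mem hk hg, by rw [cj_mul, e, e']⟩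
  have a1 : ∀ {w γ : W} {φ : Dual F W}, w ≠ 0 → φ w = 0 → φ γ = 0 → γ ∉ span F {w} →
      R (rk w φ) (rk γ φ) := fun {w γ φ} hw h h' hγ => by
    obtain ⟨ψ, h1, h2⟩ := exists_dual_pair' hw hγ 1 1
    exact ⟨tv (γ - w) ψ (by simp [h1, h2]), tv_mem _, by simp [cj_tv_rk, h1, h, h']⟩
  have a2 : ∀ {w γ : W} {φ : Dual F W}, w ≠ 0 → γ ≠ 0 → φ w = 0 → φ γ = 0 →
      R (rk w φ) (rk γ φ) := fun {w γ φ} hw hγ h h' => by
    by_cases hc : γ ∈ span F {w}
    · obtain ⟨y, h1, h2⟩ := exists_ker_notMem hk φ w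
      exact tr (a1 hw h h1 h2) (a1 (by rintro rfl; simp at h2) h1 h' (notMem_span_symm hγ
        fun h3 => h2 ((span_singleton_le_iff_mem _ _).2 hc h3)))
    · exact a1 hw h h' hc
  have b1 : ∀ {w : W} {φ ψ : Dual F W}, φ ≠ 0 → φ w = 0 → ψ w = 0 → ψ ∉ span F {φ} →
      R (rk w φ) (rk w ψ) := fun {w φ ψ} hφ h h' hψ => by
    obtain ⟨y, h1, h2⟩ := exists_pair_of_notMem hψ 1
    obtain ⟨z, h3, h4⟩ := exists_pair_of_notMem (notMem_span_symm (K := F) (V := Dual F W) hφ hψ) 1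
    have h5 : (φ - ψ) (y + z) = 0 := by simp [h1, h2, h3, h4]
    refine ⟨tv (y + z) (φ - ψ) h5, tv_mem h5, (cj_tv_rk h5).trans ?_⟩
    rw [LinearMap.sub_apply, h, h', map_add, h1, h4]
    simp
  obtain ⟨y, h1, h2, h3⟩ := exists_two_zero hk φ ψ
  refine tr (a2 hw h1 h h2) (tr ?_ (a2 h1 hγ h3 h'))
  by_cases hc : ψ ∈ span F {φ}
  · obtain ⟨χ, h4, h5⟩ := exists_ker_notMem (W := Dual F W) (by rwa [Subspace.dual_finrank_eq])
      (Dual.eval F W y) φ
    exact tr (b1 hφ h2 h4 h5) (b1 (by rintro rfl; simp at h5) h4 h3 (notMem_span_symm (K := F)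
      (V := Dual F W) hψ fun h3 => h5 ((span_singleton_le_iff_mem _ _).2 hc h3)))
  · exact b1 hφ h2 h3 hc

/-- The nilpotent maps of rank at most one. -/
def NL (F W : Type*) [Field F] [AddCommGroup W] [Module F W] : Set (End F W) :=
  {ρ | ∃ w φ, φ w = 0 ∧ ρ = rk w φ}

theorem scalar_of_flags {b : End F W} (hb : ∀ w (φ : Dual F W), φ w = 0 → φ (b w) = 0) :
    ∃ c : F, b = c • 1 := exists_smul_of_forall_mem fun w => by_contra fun h => by
  obtain ⟨φ, h1, h2⟩ := exists_dual_pair h 1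
  simp [hb w φ h1] at h2

theorem eq_top_of_NL (h3 : 3 ≤ finrank F W) (S : Submodule F (End F W))
    (hS : ∀ ρ ∈ NL F W, ∀ ρ' ∈ NL F W, ρ * ρ' ∈ S) : S = ⊤ :=
  eq_top_of_rk fun w φ => by
    obtain ⟨y, h1, h2⟩ := exists_ker_notMem h3 φ w
    obtain ⟨ψ, h4, h5⟩ := exists_dual_pair h2 1
    simpa [rk_mul, h5] using hS _ ⟨w, ψ, h4, rfl⟩ _ ⟨y, φ, h1, rfl⟩

section One

variable {T : U →ₗ[F] W →ₗ[F] V} (h : IsTens T) {X : Subgroup (V ≃ₗ[F] V)} {m x : End F V}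

theorem cj_ug_tv (h0 : φ w = 0) (x : End F V) :
    cj (ug h (tv w φ h0)) x - x = kap h (rk w φ) * x - x * kap h (rk w φ) -
      kap h (rk w φ) * x * kap h (rk w φ) := by
  rw [cj_ug_of_sq h (tv_apply h0) (rk_sq h0)]
  noncomm_ring

theorem kap_rk_mul (w γ : W) (φ ψ : Dual F W) :
    kap h (rk w φ) * kap h (rk γ ψ) = φ γ • kap h (rk w ψ) := by rw [← map_mul, rk_mul, map_smul]

theorem cp_mem_SL (hk : 3 ≤ finrank F W) {M : Submodule F (End F V)}
    (hM : ∀ g ∈ SLV F W, ∀ x ∈ M, cj (ug h g) x ∈ M) (hx : x ∈ M) (h0 : φ γ = 0) :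
    cp h φ γ x * kap h (rk γ φ) ∈ M := by
  have D : ∀ {w φ} (h0 : φ w = 0) {x}, x ∈ M → kap h (rk w φ) * x - x * kap h (rk w φ) -
      kap h (rk w φ) * x * kap h (rk w φ) ∈ M := fun h0 x hx =>
    cj_ug_tv h h0 x ▸ sub_mem (hM _ (tv_mem h0) x hx) hx
  obtain ⟨w, h1, h2⟩ := exists_ker_notMem hk φ γ
  obtain ⟨ψ, h3, h4⟩ := exists_dual_pair h2 1
  have a1 : ∀ y, kap h (rk γ φ) * (kap h (rk w φ) * y) = 0 := fun y => by
    rw [← mul_assoc, kap_rk_mul, h1, zero_smul, zero_mul]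
  have a2 := kap_rk_mul h w γ φ φ
  have h5 := D h0 (D h1 hx)
  simp only [mul_sub, sub_mul, mul_assoc, a1, a2, h0, zero_smul, mul_zero, zero_sub, sub_zero] at h5
  simp only [← mul_assoc, kap_mul_mul] at h5
  convert neg_mem (D h3 h5) using 1
  exact h.ext fun u y => by simp [cp_apply, h0, h3, h4]

/-- Commutators with the transvections of the second factor detect the first factor part of an
element of the unipotent radical. -/
theorem core_SL [Nontrivial U] (hk : 3 ≤ finrank F W) (hw : w ≠ 0)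
    (hX : ∀ g ∈ SLV F W, ug h g ∈ X)
    (hΓ : ∀ m ψ, InC T m → ψ ≠ 0 → ψ w = 0 → UIn X (m * kap h (rk w ψ)) → ∃ c : F, m = c • 1)
    {q : V ≃ₗ[F] V} (h1 : ∀ u, q (T u w) = T u w) (h2 : ∀ v, ∃ u, q v = v + T u w)
    (h3 : ∀ g ∈ SLV F W, q * ug h g * q⁻¹ ∈ X) : q ∈ tensG T := by
  obtain ⟨η, hη⟩ := exists_dual_eq (K := F) hw 1
  set x : End F V := (q : End F V) - 1
  have hq : ∀ v, q v = v + x v := fun v => by simp [x]
  have h4 : ∀ v, x v = T (h.cR η (x v)) w := fun v => by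
    obtain ⟨u, hu⟩ := h2 v
    simp [x, hu, hη]
  have h5 : ∀ u, x (T u w) = 0 := fun u => by simp [x, h1]
  have h6 : x * x = 0 := LinearMap.ext fun v => by rw [End.mul_apply, h4 v, h5]; rfl
  have h7 : ∀ γ, ∃ c : F, cp h η γ x = c • 1 := fun γ => by
    obtain ⟨ψ, a1, a2, a3⟩ := exists_dual_two_zero hk w γ
    have a4 : kap h (rk γ ψ) * x = 0 := LinearMap.ext fun v => by
      rw [End.mul_apply, h4 v]; simp [a2]
    have a5 : x * kap h (rk γ ψ) = cp h η γ x * kap h (rk w ψ) := h.ext fun u y => by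
      simp [cp_apply, ← h4]
    have a6 : UIn X (cj q (kap h (rk γ ψ))) := ⟨_, h3 _ (tv_mem a3), apply_conj (h.ind (by simp)
      (fun u v hu hv => by simp only [map_add, hu, hv]; abel) fun u y => by simp [tv_apply]) q⟩
    have a7 := a6.mul ((uIn_of_ug h (hX _ (tv_mem a3)) (tv_apply a3)).neg (by
      rw [kap_rk_mul, a3, zero_smul]))
    rw [cj_eq_of_sq hq h6] at a7
    refine hΓ _ ψ (inC_cp h _ _ _) a1 a2 ?_
    convert a7 using 1
    simp only [mul_sub, add_mul, mul_one, one_mul, mul_assoc, a4, mul_neg, sub_mul, kap_rk_mul,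
      a3, zero_smul, mul_zero, ← a5]
    simp
  obtain ⟨u₀, hu⟩ := exists_ne (0 : U)
  obtain ⟨ξ, hξ⟩ := exists_dual_eq (K := F) hu 1
  refine tensG_of_inE h hq ⟨rk w (ξ ∘ₗ h.cR η ∘ₗ x ∘ₗ T u₀), fun u y => ?_⟩
  obtain ⟨c, hc⟩ := h7 y
  have a1 : ∀ u, h.cR η (x (T u y)) = c • u := fun u => h.injective' hw (by
    simpa [cp_apply] using LinearMap.congr_fun hc (T u w))
  rw [h4, a1]
  simp [a1, hξ]

theorem mem_tensG_SL [Nontrivial U] (hk : 3 ≤ finrank F W) (hw : w ≠ 0)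
    (hX : ∀ g ∈ SLV F W, ug h g ∈ X)
    (hΓ : ∀ m ψ, InC T m → ψ ≠ 0 → ψ w = 0 → UIn X (m * kap h (rk w ψ)) → ∃ c : F, m = c • 1)
    {y : V ≃ₗ[F] V} (hy : y ∈ X) (e : ∀ u, ∃ u', y (T u w) = T u' w) : y ∈ tensG T := by
  have : Nontrivial W := ⟨w, 0, hw⟩
  obtain ⟨η, hη⟩ := exists_dual_eq (K := F) hw 1
  let a := LinearEquiv.ofInjectiveEndo (h.cR η ∘ₗ (y : End F V) ∘ₗ T.flip w)
    ((injective_iff_map_eq_zero _).2 fun u hu => by
      obtain ⟨u', h1⟩ := e u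
      simp [h1, hη] at hu
      simpa [hu, h.eq_zero_iff, hw] using h1)
  have ha : ∀ u, y (T u w) = T (a u) w := fun u => by
    obtain ⟨u', h1⟩ := e u
    simp [a, h1, hη]
  have ha' : ∀ u, y.symm (T u w) = T (a.symm u) w := fun u => y.injective (by simp [ha])
  have loc : ∀ q ∈ X, (∀ u, q (T u w) = T u w) → (∀ v, ∃ u, q v = v + T u w) → q ∈ tensG T :=
    fun q hq h1 h2 => core_SL h hk hw hX hΓ h1 h2 fun g hg =>
      mul_mem (mul_mem hq (hX g hg)) (inv_mem hq)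
  obtain ⟨u₀, hu⟩ := exists_ne (0 : U)
  obtain ⟨ξ, hξ⟩ := exists_dual_eq (K := F) (a.map_ne_zero_iff.2 hu) 1
  set b₀ : End F W := h.cL ξ ∘ₗ (y : End F V) ∘ₗ T u₀
  have h1 : ∀ φ : Dual F W, φ w = 0 → ∀ u z, h.cR φ (y (T u z)) = φ (b₀ z) • a u := by
    intro φ hφ
    have a0 : ∀ v, ug h (tv w φ hφ) v = v + T (h.cR φ v) w := h.ind (by simp)
      (fun u v hu hv => by simp only [map_add, hu, hv, LinearMap.add_apply]; abel)
      fun u y => by simp [tv_apply]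
    obtain ⟨ρ, hρ⟩ := h.flip.exists_of_fix (x := w) (tensG_flip T ▸ loc _ (mul_mem (mul_mem
      (inv_mem hy) (hX _ (tv_mem hφ))) hy) (fun u => by simp [ha, ha', tv_apply, hφ])
      fun v => ⟨a⁻¹ (h.cR φ (y v)), by simp [a0, ha']⟩) hw fun u => by simp [ha, ha', tv_apply, hφ]
    have a1 : ∀ u z, h.cR φ (y (T u z)) = η (ρ z - z) • a u := fun u z => by
      have := congrArg (h.cR η) (hρ z u)
      simp only [LinearEquiv.mul_apply, a0, map_add, ha', LinearMap.flip_apply, IsTens.cR_apply,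
        hη, one_smul, LinearEquiv.coe_inv, LinearEquiv.symm_apply_apply] at this
      rw [← a.apply_symm_apply (h.cR φ _), eq_sub_of_add_eq' this]
      simp [sub_smul]
    intro u z
    simp [a1, b₀, h.apply_cL, hξ]
  have h2 : ∀ v, (∀ φ : Dual F W, φ w = 0 → h.cR φ v = 0) → ∃ u, v = T u w := fun v hv => by
    obtain ⟨u, -, hu⟩ := (h.mem_map₂_span_right (y := w) (v := v)).1
      (h.mem_map₂_top_left.2 fun ξ => by_contra fun hc => by
      obtain ⟨φ, a1, a2⟩ := exists_dual_pair hc 1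
      simp [h.apply_cL, hv φ a1] at a2)
    exact ⟨u, hu.symm⟩
  have h3 : b₀ w = w := by simp [b₀, ha, hξ]
  let b := LinearEquiv.ofInjectiveEndo b₀ ((injective_iff_map_eq_zero _).2 fun z hz => by
    obtain ⟨u, hu'⟩ := h2 (y (T u₀ z)) fun φ hφ => by simp [h1 φ hφ, hz]
    obtain ⟨ξ', h4⟩ := exists_dual_eq (K := F) hu 1
    have := congrArg (h.cL ξ') (y.injective (hu'.trans (by rw [ha, apply_inv_self])) :
      T u₀ z = T (a⁻¹ u) w)
    simp only [IsTens.cL_apply, h4, one_smul] at this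
    rw [this, map_smul, h3] at hz
    rw [this, hz])
  have hb : ∀ z, b z = b₀ z := fun _ => rfl
  have h4 : ∀ u, (h.mpE a b)⁻¹ (T u w) = T (a⁻¹ u) w := fun u =>
    (h.mpE a b).injective (by simp [hb, h3])
  have h5 : ∀ g, h.mpE a b * ug h g * (h.mpE a b)⁻¹ = ug h (b * g * b⁻¹) := fun g => by
    simp [ug, h.mpE_inv, ← h.mpE_mul]
  have h6 := core_SL h (X := X.comap (MulAut.conj (h.mpE a b)).toMonoidHom) hk hw
    (fun g hg => by
      simpa [h5] using hX _ ((inferInstance : (SLV F W).Normal).conj_mem g hg b))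
    (fun m ψ hm a1 a2 ⟨g, hg, e⟩ => by
      obtain ⟨c, hc⟩ := hΓ _ (ψ ∘ₗ (b⁻¹ : W ≃ₗ[F] W)) (hm.cj_of_mem (h.mpE_mem a b))
        (fun h0 => a1 (LinearMap.ext fun z => by simpa using LinearMap.congr_fun h0 (b z)))
        (by simpa [b.symm_apply_eq.2 ((hb w).trans h3).symm] using a2)
        ⟨_, hg, fun z => (apply_conj e _ z).trans (by
          rw [map_mul]
          congr 3
          exact h.ext fun u z => by simp [h.mpE_symm, hb, h3])⟩
      exact ⟨c, (cj (h.mpE a b)).injective (by simp [hc])⟩)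
    (q := (h.mpE a b)⁻¹ * y) (fun u => by simp [ha, h4]) (h.ind ⟨0, by simp⟩ (by
      rintro u v ⟨u', hu⟩ ⟨v', hv⟩
      exact ⟨u' + v', by simp only [map_add, hu, hv, LinearMap.add_apply]; abel⟩) fun u z => by
        obtain ⟨u', hu'⟩ := h2 (y (T u z) - T (a u) (b z)) fun φ hφ => by simp [h1 φ hφ, hb]
        exact ⟨a⁻¹ u', by
          rw [LinearEquiv.mul_apply, eq_add_of_sub_eq' hu', map_add, h4]
          simp [h.mpE_symm]⟩)
    (fun g hg => by simpa [mul_assoc] using mul_mem (mul_mem hy (hX g hg)) (inv_mem hy))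
  simpa using mul_mem (h.mpE_mem a b) h6

/-- Transvections with pure centre and pure axis generate. -/
theorem SLV_le_of_pure (hU : 3 ≤ finrank F U) (hW : 2 ≤ finrank F W)
    (H : ∀ m w φ, InC T m → φ w = 0 → UIn X (m * kap h (rk w φ))) : SLV F V ≤ X := by
  have := h.finiteDimensional
  have : Nontrivial W := nontrivial_of_finrank_pos (R := F) (by omega)
  have h1 : ∀ u (ξ : Dual F U) w φ, φ w = 0 → TvIn X (T u w) (ξ ∘ₗ h.cR φ) := by
    intro u ξ w φ h0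
    obtain ⟨g, hg, e⟩ := H _ w φ (inC_mp h (rk u ξ)) h0
    refine ⟨by simp [h0], g, hg, fun v => ?_⟩
    rw [e, kap_eq, ← h.mp_mul, mul_one, one_mul, rk, rk, h.mp_smulRight']
    simp
  have h2 : ∀ u (ξ : Dual F U) w φ, ξ u = 0 → TvIn X (T u w) (ξ ∘ₗ h.cR φ) := by
    intro u ξ w φ h0
    by_cases hc : φ w = 0
    · exact h1 u ξ w φ hc
    obtain ⟨w', a1, a2⟩ := exists_one_zero hW φ
    obtain ⟨φ', a3, a4⟩ := exists_dual_pair (v := w) (x := w') (fun hh => by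
      obtain ⟨c, rfl⟩ := mem_span_singleton.1 hh
      simp [hc] at a2
      simp [a2] at a1) (1 : F)
    obtain ⟨u', a5, -⟩ := exists_one_zero (M := U) (by omega) ξ
    obtain ⟨ξ', a6⟩ := exists_dual_eq (K := F) a5 1
    simpa [a4, a6] using (h1 u' ξ w' φ a2).comm (h1 u ξ' w φ' a3) (by simp [h0])
  have h3 : ∀ u w (Φ : Dual F V), w ≠ 0 → Φ (T u w) = 0 → TvIn X (T u w) Φ := by
    intro u w Φ hw h0
    obtain ⟨η, hη⟩ := exists_dual_eq (K := F) hw 1
    have : Φ = (Φ ∘ₗ T.flip w) ∘ₗ h.cR η + ∑ i, (finBasis F U).coord i ∘ₗ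
        h.cR (Φ ∘ₗ T (finBasis F U i) ∘ₗ (1 - rk w η)) := h.ext fun y z => by
      have := congrArg (Φ ∘ₗ T.flip ((1 - rk w η) z)) ((finBasis F U).sum_repr y)
      simp only [map_sum, map_smul] at this
      simp only [LinearMap.add_apply, LinearMap.comp_apply, IsTens.cR_apply, map_smul,
        LinearMap.flip_apply, LinearMap.sum_apply, smul_eq_mul, Basis.coord_apply] at this ⊢
      rw [Finset.sum_congr rfl fun i _ => mul_comm _ _, this]
      simp
    rw [this]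
    exact (h2 u _ w η h0).add_right (Finset.sum_induction _ _ (fun _ _ => TvIn.add_right)
      (TvIn.zero_right _ _) fun i _ => h1 _ _ _ _ (by simp [hη]))
  refine SLV_le_of_tvIn X fun v Φ h0 => ?_
  obtain ⟨w, hw⟩ := exists_ne (0 : W)
  obtain ⟨φ, hφ⟩ := exists_dual_eq (K := F) hw 1
  obtain ⟨u, a1, a2⟩ := exists_ker_notMem hU (Φ ∘ₗ T.flip w) (h.cR φ v)
  obtain ⟨ξ, a3, a4⟩ := exists_dual_pair a2 1
  have h4 : TvIn X v (ξ ∘ₗ h.cR φ) := by
    rw [← sub_add_cancel v (T (h.cR φ v) w), h.eq_sum (finBasis F U) (v - _)]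
    exact (Finset.sum_induction _ (TvIn X · _) (fun _ _ => TvIn.add_left) (TvIn.zero_left _ _)
      fun i _ => h1 _ _ _ _ (by simp [h.apply_cL, hφ])).add_left (h2 _ _ _ _ a3)
  simpa [hφ, a4] using (h3 u w Φ hw a1).comm h4 h0

end One

theorem inC_cj_of {T T' : U →ₗ[F] W →ₗ[F] V} (h : IsTens T) (h' : IsTens T') [Nontrivial W]
    {n : V ≃ₗ[F] V} (e : ∀ b, cj n (kap h b) = kap h' b) {x : End F V} (hx : InC T x) :
    InC T' (cj n x) := inC_of_comm h' fun a ha => by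
  obtain ⟨a, rfl⟩ := ha.exists_kap h'
  rw [← e, ← map_mul, hx.comm_kap, map_mul]

theorem not_inC_of_sq {T : U →ₗ[F] W →ₗ[F] V} (h : IsTens T) [Nontrivial U] {b : End F W}
    (h0 : b ≠ 0) (hb : b * b = 0) : ¬ InC T (kap h b) := fun H => by
  obtain ⟨c, rfl⟩ := scalar_of_inC_kap h H
  have : c ≠ 0 := left_ne_zero_of_smul h0
  exact h0 (by simpa [this] using hb)

theorem eig_of_odd [Finite F] {T : U →ₗ[F] W →ₗ[F] V} {X : Subgroup (V ≃ₗ[F] V)}
    (h2 : ∀ c : F, c = 0 ∨ c = 1) (hU : Odd (finrank F U)) : Eig X T := by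
  classical
  intro _ _ a _ _ c x hc e
  obtain rfl := (h2 c).resolve_left hc
  have h11 : (1 + 1 : F) = 0 := (h2 _).resolve_right (by simp)
  have hadd : ∀ u : U, u + u = 0 := fun u => by rw [← one_smul F u, ← add_smul, h11, zero_smul]
  have : Nontrivial U := nontrivial_of_finrank_pos (R := F) hU.pos
  by_contra! hc
  rcases h2 x with rfl | rfl
  · obtain ⟨u, hu⟩ := exists_ne (0 : U)
    simp only [one_smul, zero_smul, add_zero] at e
    exact hc (a u + u) (fun h0 => hc u hu 1 (by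
      rw [one_smul, ← add_zero (a u), ← hadd u, ← add_assoc, h0, zero_add])) 1
      (by rw [map_add, e, one_smul, add_comm])
  simp only [one_smul] at e
  have := Module.finite_of_finite F (M := U)
  have := Fintype.ofFinite U
  have := Fintype.ofFinite F
  let f : Function.End U := fun u => a u
  have h3 : f ^ 3 ^ 1 = 1 := funext fun u => by
    show a (a (a u)) = u
    rw [← add_zero (a _), ← hadd (a (a u)), ← add_assoc, e, add_comm, e]
  have h4 := Equiv.Perm.card_fixedPoints_modEq (hp := ⟨Nat.prime_three⟩) h3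
  have h5 : Fintype.card f.fixedPoints = 1 :=
    Fintype.card_eq_one_iff.2 ⟨⟨0, map_zero a⟩, fun u => Subtype.ext (by_contra fun h0 =>
      hc u h0 1 (by rw [one_smul]; exact u.2))⟩
  have h6 : Fintype.card F = 2 := by
    rw [← Nat.card_eq_fintype_card]
    exact (Nat.card_eq_two_iff' (0 : F)).2 ⟨1, one_ne_zero, fun y hy => (h2 y).resolve_left hy⟩
  rw [h5, Module.card_eq_pow_finrank (K := F), h6] at h4
  obtain ⟨n, hn⟩ := hU
  rw [hn, pow_succ, pow_mul] at h4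
  have := ((Nat.ModEq.pow n (show 2 ^ 2 ≡ 1 [MOD 3] by decide)).mul_right 2).symm.trans h4
  simp [Nat.ModEq] at this

namespace TP

variable {τ : Type*} {T : τ → U →ₗ[F] W →ₗ[F] V} (h : TP T) [Nontrivial U] [Nontrivial W]
  {X : Subgroup (V ≃ₗ[F] V)} {i j : τ} {m x : End F V}

theorem step_SL (hk : 3 ≤ finrank F W) : h.Step (SLV F W) (NL F W) (NL F W) where
  step j M hM x hx hx' := by
    by_contra! hc
    refine hx' (inC_of_cp (h.tens j) (D := fun w φ => φ w = 0) (fun b => scalar_of_flags)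
      fun w φ h0 => by_contra fun h1 => (hc _ h1).1 ⟨inC_cp _ _ _ _, ?_⟩)
    rintro _ ⟨γ, ψ, h2, rfl⟩
    by_cases h3 : rk γ ψ = 0
    · simp [h3]
    obtain ⟨g, hg, e⟩ := exists_cj_rk hk (w := w) (φ := φ) (γ := γ) (ψ := ψ)
      (by rintro rfl; exact h1 ((h.tens j).ext fun u y => by simp [cp_apply]))
      (by rintro rfl; exact h1 ((h.tens j).ext fun u y => by
        rw [cp_apply, (forall_dual_apply_eq_zero_iff F _).1 fun ξ => ((h.tens j).apply_cL ξ 0 _).symm]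
        simp)) h0
      (by rintro rfl; exact h3 (by ext; simp)) (by rintro rfl; exact h3 (by ext; simp)) h2
    simpa only [map_mul, (inC_cp _ _ _ _).cj_ug, cj_ug_kap, e] using
      hM j g hg _ (cp_mem_SL (h.tens j) hk (hM j) hx h0)
  n1 := eq_top_of_NL hk
  n2 S hS ρ _ := eq_top_of_NL hk S hS ▸ trivial
  ne := by
    by_contra! hc
    simpa using (eq_top_of_NL hk ⊥ fun ρ hρ ρ' _ => by simp [hc ρ hρ]).ge (mem_top (x := 1))

/-- The ring of coefficients of the root elements at the factor `i`. -/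
def AL (X : Subgroup (V ≃ₗ[F] V)) (i : τ) : Submodule F (End F V) where
  carrier := {m | InC (T i) m ∧ ∀ w φ, φ w = 0 → UIn X (m * kap (h.tens i) (rk w φ))}
  zero_mem' := ⟨InC.zero, fun _ _ _ => by simpa using UIn.zero⟩
  add_mem' ha hb := ⟨ha.1.add hb.1, fun w φ h0 => by
    rw [add_mul]
    exact (ha.2 w φ h0).add (hb.2 w φ h0) (by simp [mul_kap_mul _ hb.1, rk_sq h0])⟩
  smul_mem' c _ ha := ⟨ha.1.smul c, fun w φ h0 => by
    simpa [rk_smul_left] using ha.2 (c • w) φ (by simp [h0])⟩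

variable {h}

theorem AL_mul (hk : 3 ≤ finrank F W) (x : End F V) (hx : x ∈ h.AL X i) (m : End F V)
    (hm : m ∈ h.AL X i) : x * m ∈ h.AL X i := ⟨hx.1.mul hm.1, fun w φ h0 => by
  obtain ⟨y, h1, h2⟩ := exists_ker_notMem hk φ w
  obtain ⟨ψ, h4, h5⟩ := exists_dual_pair h2 1
  simpa [mul_kap_mul _ hm.1, rk_mul, h5] using (hx.2 w ψ h4).comm (hm.2 y φ h1)
    (by simp [mul_kap_mul _ hx.1, rk_sq h4]) (by simp [mul_kap_mul _ hm.1, rk_sq h1])
    (by simp [mul_kap_mul _ hx.1, rk_mul, h0])⟩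

theorem AL_cj {n : V ≃ₗ[F] V} (hn : n ∈ X) (e : ∀ b, cj n (kap (h.tens i) b) = kap (h.tens j) b)
    (hm : m ∈ h.AL X i) : cj n m ∈ h.AL X j :=
  ⟨inC_cj_of _ _ e hm.1, fun w φ h0 => by simpa only [map_mul, e] using (hm.2 w φ h0).cj hn⟩

variable [Fintype τ] [DecidableEq τ]

theorem Alt.all (hp : h.Alt X) {J : τ → τ → Prop} (h1 : ∀ a b, J a b → a ≠ b ∧ J b a)
    (h2 : ∀ n ∈ X, ∀ σ, h.Pm n σ → ∀ a b, J a b → J (σ a) (σ b)) {a b : τ} (H : J a b) (c : τ)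
    (hc : c ≠ a) : J a c := by
  by_cases hb : b = c
  · exact hb ▸ H
  obtain ⟨n, hn, σ, e, h3, h4, h5⟩ := hp.cyc (h1 a b H).1 hc.symm hb
  have := h2 n hn σ e _ _ (h2 n hn σ e _ _ H)
  rw [h3, h4, h5] at this
  exact (h1 _ _ this).2

variable [Finite F]

/-- The overgroups in `SL` of the stabiliser of a tensor power decomposition. -/
theorem main_SL (hk : 3 ≤ finrank F W) (hU : 3 ≤ finrank F U)
    (hE : 4 ≤ finrank F W ∨ Odd (finrank F U)) (hX : ∀ j, ∀ g ∈ SLV F W, ug (h.tens j) g ∈ X)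
    (hp : h.Alt X) : (∀ g ∈ X, IsWr T g) ∨ SLV F V ≤ X := by
  have h1 : ∀ i, 1 ∈ h.AL X i := fun i => ⟨inC_one, fun w φ h0 => by
    simpa using uIn_of_ug _ (hX i _ (tv_mem h0)) (tv_apply h0)⟩
  have h2 : ∀ i, h.Inv (SLV F W) (· ∈ h.AL X i) := fun i j g hg x hx => by
    by_cases hij : j = i
    · subst hij; rwa [hx.1.cj_ug]
    · exact AL_cj (hX j g hg) (h.cj_kap hij g) hx
  by_cases H : ∀ i, ∀ m ∈ h.AL X i, ∃ c : F, m = c • 1
  · have hall : ∀ i w φ, w ≠ 0 → φ ≠ 0 → φ w = 0 → Rt X (T i) w φ := fun i w φ a1 a2 a3 =>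
      ⟨_, by simpa using (h1 i).2 w φ a3, a1, a2, a3, fun u y => by simp⟩
    have hL : ∀ i, Loc X (T i) := fun i => ⟨h.tens i, fun w φ ⟨_, ht⟩ y hy =>
      mem_tensG_SL (h.tens i) hk ht.w0 (hX i) (fun m ψ hm a1 a2 a3 => H i m ⟨hm, fun γ χ a4 => by
        by_cases a5 : rk γ χ = 0
        · simpa [a5] using UIn.zero
        obtain ⟨g, hg, e⟩ := exists_cj_rk hk ht.w0 a1 a2 (γ := γ) (ψ := χ)
          (by rintro rfl; exact a5 (by ext; simp)) (by rintro rfl; exact a5 (by ext; simp)) a4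
        simpa only [map_mul, hm.cj_ug, cj_ug_kap, e] using a3.cj (hX i g hg)⟩) hy,
      fun w φ w' φ' ⟨_, ht⟩ ⟨_, ht'⟩ => by
        obtain ⟨g, hg, e⟩ := exists_cj_rk hk ht.w0 ht.φ0 ht.φw ht'.w0 ht'.φ0 ht'.φw
        obtain ⟨y, hy⟩ := ht.exists_one
        have := LinearMap.congr_fun e (g y)
        exact ⟨_, hX i g hg, ug_mem _ g, fun u => ⟨φ' (g y) • u, by
          simp [hy] at this; simp [this]⟩⟩,
      fun ρ hρ => exists_smul_of_forall_mem fun w => by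
        by_cases hw : w = 0
        · simp [hw]
        obtain ⟨φ, a1, a2⟩ := exists_dual_zero (F := F) (by omega) w
        exact hρ w φ (hall i w φ hw a1 a2), by omega, Or.inr hk⟩
    refine Or.inl fun g hg => hp.isWr (by omega) (fun i g hg => ?_) hg
    by_cases h3 : ∀ c : F, c = 0 ∨ c = 1
    · exact (hL i).good_of_two_linear h3 hk (hall i) (hE.imp_right (eig_of_odd h3)) hg
    push Not at h3
    obtain ⟨c, a1, a2⟩ := h3
    refine (hL i).good_of_scalar a1 a2 (fun w φ ⟨_, ht⟩ => ⟨hall i _ _ ht.w0 (smul_ne_zero a1 ht.φ0)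
      (by simp [ht.φw]), hall i _ _ ht.w0 (smul_ne_zero (inv_ne_zero a1) ht.φ0) (by simp [ht.φw])⟩)
      (Or.inl hk) (fun y => ?_) hg
    obtain ⟨φ, a3, a4⟩ := exists_dual_zero (F := F) (by omega) y
    obtain ⟨w, a5, a6⟩ := exists_one_zero (by omega) φ
    exact ⟨w, φ, hall i w φ a5 a3 a6, a4⟩
  push Not at H
  obtain ⟨a, m, hm, H⟩ := H
  obtain ⟨b, hb⟩ : ∃ b, ¬ InC (T b) m := by
    by_contra! hc
    obtain ⟨c, hc⟩ := h.cent m hc
    exact H c hc
  have h3 := fun {a b} m (hm : m ∈ h.AL X a) (hb : ¬ InC (T b) m) =>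
    (h.step_SL hk).kap_mem (h2 a) (AL_mul hk) hm hb
  have h4 := hp.all (J := fun a b => ∃ m ∈ h.AL X a, ¬ InC (T b) m) (fun a b ⟨m, hm, hb⟩ => by
    have hab : a ≠ b := by rintro rfl; exact hb hm.1
    obtain ⟨w, hw⟩ := exists_ne (0 : W)
    obtain ⟨φ, a1, a2⟩ := exists_dual_zero (F := F) (by omega) w
    exact ⟨hab, _, ⟨h.inC_kap hab.symm _, fun γ ψ _ => by
      rw [(h.inC_kap hab _).comm_kap]; exact (h3 m hm hb _).2 w φ a2⟩,
      not_inC_of_sq _ (rk_ne_zero hw a1) (rk_sq a2)⟩)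
    (fun n hn σ e a b ⟨m, hm, hb⟩ => ⟨_, AL_cj hn (e a) hm, fun H => hb (e.inC_iff.1 H)⟩)
    ⟨m, hm, hb⟩
  exact Or.inr (SLV_le_of_pure (h.tens a) hU (by omega) fun x w φ hx =>
    (h.mem_of_kap (h1 a) (AL_mul hk) (· = a) (fun j hj => let ⟨m, hm, hb⟩ := h4 j hj; h3 m hm hb)
      (by rintro _ rfl; exact hx)).2 w φ)

end TP

end Cfsg.Lib.Class.Wr
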