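import Cfsg.Agent.Class.Wr.Shear
import Cfsg.Agent.Class.Tens.Basic

/-!
The two factor algebras of a tensor decomposition, and quadratic unipotent elements which
normalise them or move them to a commuting algebra.
-/

set_option autoImplicit false
set_option linter.unusedSectionVars false

namespace Cfsg.Lib.Class.Wr

open Module Submodule Tens Tn FE AO
open LinearMap (range ker)

variable {F U W V : Type*} [Field F] [AddCommGroup U] [Module F U] [AddCommGroup W] [Module F W]
  [AddCommGroup V] [Module F V]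

/-- Conjugation of endomorphisms. -/
def cj (g : V ≃ₗ[F] V) : End F V ≃ₐ[F] End F V := g.conjAlgEquiv F

@[simp] theorem cj_apply (g : V ≃ₗ[F] V) (a : End F V) (v : V) : cj g a v = g (a (g⁻¹ v)) := rfl

theorem cj_mul (g k : V ≃ₗ[F] V) (a : End F V) : cj (g * k) a = cj g (cj k a) := rfl

@[simp] theorem cj_one (a : End F V) : cj 1 a = a := rfl

@[simp] theorem cj_inv_cj (g : V ≃ₗ[F] V) (a : End F V) : cj g⁻¹ (cj g a) = a := by
  rw [← cj_mul, inv_mul_cancel, cj_one]

@[simp] theorem cj_cj_inv (g : V ≃ₗ[F] V) (a : End F V) : cj g (cj g⁻¹ a) = a := by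
  rw [← cj_mul, mul_inv_cancel, cj_one]

theorem range_cj (g : V ≃ₗ[F] V) (a : End F V) : range (cj g a) = im g (range a) := by
  ext v
  rw [mem_im]
  exact ⟨fun ⟨u, e⟩ => ⟨g⁻¹ u, by simp [← e]⟩, fun ⟨u, e⟩ => ⟨g u, by simp [e]⟩⟩

theorem _root_.Cfsg.Lib.Class.Tens.UIn.cj {X : Subgroup (V ≃ₗ[F] V)} {ν : End F V}
    (h : UIn X ν) {k : V ≃ₗ[F] V} (hk : k ∈ X) : UIn X (cj k ν) := h.conj hk

theorem cj_eq_of_sq {x : V ≃ₗ[F] V} {r : End F V} (e : ∀ z, x z = z + r z) (h0 : r * r = 0)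
    (a : End F V) : cj x a = (1 + r) * a * (1 - r) := by
  ext v
  simp [e, inv_apply_of_sq e h0]

theorem cj_eq_of_comm {x : V ≃ₗ[F] V} {r a : End F V} (e : ∀ z, x z = z + r z)
    (h0 : r * a = a * r) : cj x a = a := by
  ext v
  have := LinearMap.congr_fun h0 (x⁻¹ v)
  rw [End.mul_apply, End.mul_apply] at this
  rw [cj_apply, e, this, ← map_add, ← e, apply_inv_self]

/-- `a` lies in the algebra `1 ⊗ End W`. -/
def InE (T : U →ₗ[F] W →ₗ[F] V) (a : End F V) : Prop :=
  ∃ b : End F W, ∀ x y, a (T x y) = T x (b y)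

/-- `a` lies in the algebra `End U ⊗ 1`. -/
def InC (T : U →ₗ[F] W →ₗ[F] V) (a : End F V) : Prop :=
  ∃ b : End F U, ∀ x y, a (T x y) = T (b x) y

/-- The transported decomposition. -/
def tr (T : U →ₗ[F] W →ₗ[F] V) (g : V ≃ₗ[F] V) : U →ₗ[F] W →ₗ[F] V := T.compr₂ (g : V →ₗ[F] V)

@[simp] theorem tr_apply (T : U →ₗ[F] W →ₗ[F] V) (g : V ≃ₗ[F] V) (x : U) (y : W) :
    tr T g x y = g (T x y) := rfl

theorem tr_tr (T : U →ₗ[F] W →ₗ[F] V) (g k : V ≃ₗ[F] V) : tr (tr T k) g = tr T (g * k) := rfl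

@[simp] theorem tr_one (T : U →ₗ[F] W →ₗ[F] V) : tr T 1 = T := rfl

/-- Two decompositions differ by automorphisms of the factors. -/
def Same (T T' : U →ₗ[F] W →ₗ[F] V) : Prop :=
  ∃ (a : U ≃ₗ[F] U) (b : W ≃ₗ[F] W), ∀ x y, T' x y = T (a x) (b y)

/-- The algebras `1 ⊗ End W` of two decompositions commute. -/
def Comm (T T' : U →ₗ[F] W →ₗ[F] V) : Prop := ∀ a b, InE T a → InE T' b → a * b = b * a

/-- The algebras `1 ⊗ End W` of two decompositions are equal or commute. -/
def Good (T T' : U →ₗ[F] W →ₗ[F] V) : Prop := Same T T' ∨ Comm T T'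

variable {T T' T'' : U →ₗ[F] W →ₗ[F] V}

theorem same_tr {g : V ≃ₗ[F] V} : Same T (tr T g) ↔ g ∈ tensG T := Iff.rfl

theorem Same.refl (T : U →ₗ[F] W →ₗ[F] V) : Same T T := ⟨1, 1, fun _ _ => rfl⟩

theorem Same.symm (h : Same T T') : Same T' T :=
  let ⟨a, b, e⟩ := h; ⟨a⁻¹, b⁻¹, fun x y => by simp [e]⟩

theorem Same.trans (h : Same T T') (h' : Same T' T'') : Same T T'' :=
  let ⟨a, b, e⟩ := h; let ⟨c, d, e'⟩ := h'; ⟨a * c, b * d, fun x y => by simp [e, e']⟩

theorem Same.tr (h : Same T T') (g : V ≃ₗ[F] V) : Same (tr T g) (tr T' g) :=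
  let ⟨a, b, e⟩ := h; ⟨a, b, fun x y => by simp [e]⟩

theorem Same.inE (h : Same T T') {a : End F V} (ha : InE T a) : InE T' a :=
  let ⟨_, d, e⟩ := h; let ⟨b, hb⟩ := ha; ⟨cj d⁻¹ b, fun x y => by simp [e, hb]⟩

theorem Same.inC (h : Same T T') {a : End F V} (ha : InC T a) : InC T' a :=
  let ⟨c, _, e⟩ := h; let ⟨b, hb⟩ := ha; ⟨cj c⁻¹ b, fun x y => by simp [e, hb]⟩

theorem inE_tr {g : V ≃ₗ[F] V} {a : End F V} : InE (tr T g) a ↔ InE T (cj g⁻¹ a) :=
  exists_congr fun _ => forall₂_congr fun _ _ => by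
    simp [← LinearEquiv.eq_symm_apply, eq_comm]

theorem inC_tr {g : V ≃ₗ[F] V} {a : End F V} : InC (tr T g) a ↔ InC T (cj g⁻¹ a) :=
  exists_congr fun _ => forall₂_congr fun _ _ => by
    simp [← LinearEquiv.eq_symm_apply, eq_comm]

theorem InE.cj {a : End F V} (h : InE T a) (g : V ≃ₗ[F] V) : InE (tr T g) (cj g a) :=
  inE_tr.2 (by rwa [cj_inv_cj])

theorem InC.cj {a : End F V} (h : InC T a) (g : V ≃ₗ[F] V) : InC (tr T g) (cj g a) :=
  inC_tr.2 (by rwa [cj_inv_cj])

theorem InE.cj_of_mem {a : End F V} (h : InE T a) {g : V ≃ₗ[F] V} (hg : g ∈ tensG T) :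
    InE T (Wr.cj g a) := (same_tr.2 hg).symm.inE (h.cj g)

theorem InC.cj_of_mem {a : End F V} (h : InC T a) {g : V ≃ₗ[F] V} (hg : g ∈ tensG T) :
    InC T (Wr.cj g a) := (same_tr.2 hg).symm.inC (h.cj g)

theorem Comm.symm (h : Comm T T') : Comm T' T := fun a b ha hb => (h b a hb ha).symm

theorem Comm.of_same (h : Comm T T') (h' : Same T' T'') : Comm T T'' :=
  fun a b ha hb => h a b ha (h'.symm.inE hb)

theorem Comm.tr (h : Comm T T') (g : V ≃ₗ[F] V) : Comm (tr T g) (tr T' g) := fun a b ha hb => by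
  simpa using congrArg (cj g) (h _ _ (inE_tr.1 ha) (inE_tr.1 hb))

theorem Good.symm (h : Good T T') : Good T' T := h.imp Same.symm Comm.symm

theorem Good.of_same (h : Good T T') (h' : Same T' T'') : Good T T'' :=
  h.imp (·.trans h') (·.of_same h')

theorem Good.same_left (h : Good T T') (h' : Same T T'') : Good T'' T' :=
  (h.symm.of_same h').symm

theorem Good.tr (h : Good T T') (g : V ≃ₗ[F] V) : Good (tr T g) (tr T' g) :=
  h.imp (·.tr g) (·.tr g)

theorem InE.smul {a : End F V} (h : InE T a) (c : F) : InE T (c • a) :=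
  let ⟨b, e⟩ := h; ⟨c • b, fun x y => by simp [e]⟩

theorem InE.add {a b : End F V} (h : InE T a) (h' : InE T b) : InE T (a + b) :=
  let ⟨c, e⟩ := h; let ⟨d, e'⟩ := h'; ⟨c + d, fun x y => by simp [e, e']⟩

theorem InE.sub {a b : End F V} (h : InE T a) (h' : InE T b) : InE T (a - b) :=
  let ⟨c, e⟩ := h; let ⟨d, e'⟩ := h'; ⟨c - d, fun x y => by simp [e, e']⟩

theorem InE.mul {a b : End F V} (h : InE T a) (h' : InE T b) : InE T (a * b) :=
  let ⟨c, e⟩ := h; let ⟨d, e'⟩ := h'; ⟨c * d, fun x y => by simp [e, e']⟩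

theorem inE_one : InE T 1 := ⟨1, fun _ _ => rfl⟩

theorem InC.smul {a : End F V} (h : InC T a) (c : F) : InC T (c • a) :=
  let ⟨b, e⟩ := h; ⟨c • b, fun x y => by simp [e]⟩

theorem InC.add {a b : End F V} (h : InC T a) (h' : InC T b) : InC T (a + b) :=
  let ⟨c, e⟩ := h; let ⟨d, e'⟩ := h'; ⟨c + d, fun x y => by simp [e, e']⟩

theorem InC.sub {a b : End F V} (h : InC T a) (h' : InC T b) : InC T (a - b) :=
  let ⟨c, e⟩ := h; let ⟨d, e'⟩ := h'; ⟨c - d, fun x y => by simp [e, e']⟩

theorem InC.mul {a b : End F V} (h : InC T a) (h' : InC T b) : InC T (a * b) :=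
  let ⟨c, e⟩ := h; let ⟨d, e'⟩ := h'; ⟨c * d, fun x y => by simp [e, e']⟩

theorem inC_one : InC T 1 := ⟨1, fun _ _ => rfl⟩

theorem isTens_tr (h : IsTens T) (g : V ≃ₗ[F] V) : IsTens (tr T g) := by
  unfold IsTens tr
  rw [TensorProduct.lift_compr₂, LinearMap.coe_comp]
  exact g.bijective.comp h

theorem inE_iff (h : IsTens T) {a : End F V} : InE T a ↔ ∃ b, a = h.mp 1 b :=
  exists_congr fun b => ⟨fun e => h.ext fun x y => by simp [e], fun e x y => by simp [e]⟩

theorem inC_iff (h : IsTens T) {a : End F V} : InC T a ↔ ∃ b, a = h.mp b 1 :=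
  exists_congr fun b => ⟨fun e => h.ext fun x y => by simp [e], fun e x y => by simp [e]⟩

theorem inE_mp (h : IsTens T) (b : End F W) : InE T (h.mp 1 b) := (inE_iff h).2 ⟨b, rfl⟩

theorem inC_mp (h : IsTens T) (b : End F U) : InC T (h.mp b 1) := (inC_iff h).2 ⟨b, rfl⟩

theorem InE.comm (h : IsTens T) {a c : End F V} (ha : InE T a) (hc : InC T c) : a * c = c * a :=
  let ⟨_, e⟩ := ha; let ⟨_, e'⟩ := hc; h.ext fun x y => by simp [e, e']

theorem InE.eq_zero (h : IsTens T) {a c : End F V} (ha : InE T a) (hc : InC T c) (h0 : a ≠ 0)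
    (e : a * c = 0) : c = 0 := by
  obtain ⟨b, rfl⟩ := (inE_iff h).1 ha
  obtain ⟨d, rfl⟩ := (inC_iff h).1 hc
  have hb : b ≠ 0 := by rintro rfl; simp at h0
  rw [← h.mp_mul, one_mul, mul_one, ← h.mp_zero_left b] at e
  rw [h.mp_injective_left hb e, h.mp_zero_left]

theorem mem_tensG_of_inE (h : IsTens T) [Nontrivial U] [FiniteDimensional F W] {x : V ≃ₗ[F] V}
    (hx : InE T x) : ∃ b : W ≃ₗ[F] W, ∀ u w, x (T u w) = T u (b w) := by
  obtain ⟨b, e⟩ := hx
  obtain ⟨u, hu⟩ := exists_ne (0 : U)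
  have hb : Function.Injective b := (injective_iff_map_eq_zero _).2 fun w hw => by
    have := e u w
    rw [hw, map_zero, LinearEquiv.coe_coe, LinearEquiv.map_eq_zero_iff] at this
    exact (h.eq_zero_iff.1 this).resolve_left hu
  exact ⟨LinearEquiv.ofInjectiveEndo b hb, e⟩

theorem tensG_of_inE (h : IsTens T) [Nontrivial U] [FiniteDimensional F W] {x : V ≃ₗ[F] V}
    {r : End F V} (e : ∀ z, x z = z + r z) (hr : InE T r) : x ∈ tensG T := by
  have : (x : End F V) = 1 + r := LinearMap.ext e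
  obtain ⟨b, hb⟩ := mem_tensG_of_inE h (x := x) (this ▸ inE_one.add hr)
  exact ⟨1, b, hb⟩

theorem tensG_of_inC (h : IsTens T) [Nontrivial W] [FiniteDimensional F U] {x : V ≃ₗ[F] V}
    {r : End F V} (e : ∀ z, x z = z + r z) (hr : InC T r) : x ∈ tensG T :=
  tensG_flip T ▸ tensG_of_inE h.flip e (let ⟨b, hb⟩ := hr; ⟨b, fun x y => hb y x⟩)

variable [FiniteDimensional F U] [FiniteDimensional F W]

theorem inC_of_comm (h : IsTens T) [Nontrivial W] {c : End F V}
    (hc : ∀ a, InE T a → a * c = c * a) : InC T c :=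
  (inC_iff h).2 (h.exists_eq_mp_one' fun _ _ => (hc _ (inE_mp h _)).symm)

theorem inE_of_comm (h : IsTens T) [Nontrivial U] {a : End F V}
    (ha : ∀ c, InC T c → a * c = c * a) : InE T a :=
  (inE_iff h).2 (h.exists_eq_mp_one fun _ _ => ha _ (inC_mp h _))

theorem Comm.inC (hc : Comm T T') (h : IsTens T) [Nontrivial W] {b : End F V} (hb : InE T' b) :
    InC T b := inC_of_comm h fun a ha => hc a b ha hb

/-- A quadratic unipotent element normalising both factor algebras lies in one of them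
(odd characteristic). -/
theorem inE_or_inC_odd (h : IsTens T) (h2 : (2 : F) ≠ 0) {x : V ≃ₗ[F] V} {r : End F V}
    (e : ∀ z, x z = z + r z) (h0 : r * r = 0) (hx : x ∈ tensG T) : InE T r ∨ InC T r := by
  obtain ⟨a, b, hab⟩ := hx
  have er : ∀ z, r z = x z - z := fun z => by rw [e, add_sub_cancel_left]
  by_cases hb : ∀ w, (b : End F W) w ∈ span F {w}
  · obtain ⟨c, hc⟩ := exists_smul_of_forall_mem hb
    have hc' : ∀ w, b w = c • w := LinearMap.congr_fun hc
    exact Or.inr ⟨c • (a : End F U) - 1, fun u w => by simp [er, hab, hc']⟩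
  push Not at hb
  obtain ⟨w, hw⟩ := hb
  obtain ⟨φ, h1, h3⟩ := exists_dual_pair hw 1
  have key : ∀ u, φ (b (b w)) • a u = (2 : F) • u := fun u => by
    have h4 := congrArg (h.cR φ) (LinearMap.congr_fun h0 (T (a⁻¹ u) w))
    simp only [End.mul_apply, er, map_sub, hab, IsTens.cR_apply, h1, apply_inv_self,
      show φ (b w) = 1 from h3, LinearMap.zero_apply, map_zero] at h4
    linear_combination (norm := module) h4
  obtain ⟨c, hc⟩ : ∃ c : F, ∀ u, a u = c • u := by
    by_cases hκ : φ (b (b w)) = 0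
    · refine ⟨0, fun u => ?_⟩
      have := key (a u)
      rw [hκ, zero_smul, eq_comm, smul_eq_zero] at this
      rw [this.resolve_left h2, zero_smul]
    · exact ⟨(φ (b (b w)))⁻¹ * 2, fun u => by rw [mul_smul, ← key, inv_smul_smul₀ hκ]⟩
  exact Or.inl ⟨c • (b : End F W) - 1, fun u w => by simp [er, hab, hc]⟩

theorem exists_ker_notMem_span {β : End F W} (h0 : β * β = 0) (h3 : 3 ≤ finrank F W) (w : W) :
    ∃ v, β v = 0 ∧ v ∉ span F {w} := by
  by_contra! hc
  have h1 := β.finrank_range_add_finrank_ker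
  have h2 : finrank F (range β) ≤ finrank F (ker β) :=
    Submodule.finrank_mono (by rintro _ ⟨v, rfl⟩; exact LinearMap.congr_fun h0 v)
  have h4 : finrank F (ker β) ≤ finrank F (span F {w}) := Submodule.finrank_mono hc
  have h5 := finrank_span_le_card (R := F) ({w} : Set W)
  simp only [Set.toFinset_singleton, Finset.card_singleton] at h5
  omega

/-- A quadratic unipotent element of small rank normalising both factor algebras lies in one of
them (even characteristic). -/
theorem inE_or_inC_two [Finite F] [Nontrivial U] (h : IsTens T) (h2 : (2 : F) = 0)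
    (h3 : 3 ≤ finrank F W) {x : V ≃ₗ[F] V} {r : End F V} (e : ∀ z, x z = z + r z)
    (h0 : r * r = 0) (hr : finrank F (range r) = finrank F U) (hx : x ∈ tensG T) :
    InE T r ∨ InC T r := by
  have := h.finiteDimensional
  have : Nontrivial W := Module.nontrivial_of_finrank_pos (R := F) (by omega)
  obtain ⟨a, b, hab⟩ := hx
  have er : ∀ z, r z = x z - z := fun z => by rw [e, add_sub_cancel_left]
  have hxx : ∀ z, x (x z) = z := fun z => by
    have h4 : r (r z) = 0 := LinearMap.congr_fun h0 z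
    rw [e, e, map_add, h4, add_zero, add_assoc, ← two_smul F, h2, zero_smul, add_zero]
  obtain ⟨u₁, hu₁⟩ := exists_ne (0 : U)
  obtain ⟨ξ, hξ⟩ := exists_dual_eq hu₁ (1 : F)
  have hb : ∀ w, ξ (a (a u₁)) • b (b w) = w := fun w => by
    simpa [hab, hξ] using congrArg (h.cL ξ) (hxx (T u₁ w))
  obtain ⟨w₀, hw₀⟩ := exists_ne (0 : W)
  have : CharP F 2 := CharTwo.of_one_ne_zero_of_two_eq_zero one_ne_zero h2
  obtain ⟨μ, hμ⟩ := isSquare_of_charTwo' (ξ (a (a u₁)))
  rw [hμ] at hb
  have hμ0 : μ ≠ 0 := by rintro rfl; exact hw₀ (by simpa using (hb w₀).symm)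
  have ha : ∀ u, a (a u) = (μ * μ) • u := fun u => h.injective' hw₀ (by
    have := hxx (T u ((μ * μ) • w₀))
    rw [hab, hab, map_smul, map_smul, hb] at this
    rw [this]
    simp)
  set α : End F U := μ⁻¹ • (a : End F U) - 1
  set β : End F W := μ • (b : End F W) - 1
  have hα : ∀ u, α (α u) = 0 := fun u => by
    have : α (α u) = u + u - (μ⁻¹ • a u + μ⁻¹ • a u) := by
      simp only [α, LinearMap.sub_apply, LinearMap.smul_apply, LinearEquiv.coe_coe, map_sub,
        map_smul, ha, End.one_apply]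
      match_scalars <;> field_simp <;> ring
    rw [this, ← two_smul F, ← two_smul F, h2]
    simp
  have hβ : ∀ w, β (β w) = 0 := fun w => by
    have : β (β w) = w + w - (μ • b w + μ • b w) := by
      simp only [β, LinearMap.sub_apply, LinearMap.smul_apply, LinearEquiv.coe_coe, map_sub,
        map_smul, End.one_apply]
      linear_combination (norm := module) hb w
    rw [this, ← two_smul F, ← two_smul F, h2]
    simp
  have hr' : ∀ u w, r (T u w) = T (α u) w + T (u + α u) (β w) := fun u w => by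
    simp [er, hab, α, β, smul_sub, smul_smul, hμ0]
  by_cases hα0 : α = 0
  · exact Or.inl ⟨β, fun u w => by simp [hr', hα0]⟩
  by_cases hβ0 : β = 0
  · exact Or.inr ⟨α, fun u w => by simp [hr', hβ0]⟩
  exfalso
  obtain ⟨u₀, hu₀⟩ : ∃ u, α u ≠ 0 := by by_contra! hc; exact hα0 (LinearMap.ext hc)
  obtain ⟨w₁, hw₁⟩ : ∃ w, β w ≠ 0 := by by_contra! hc; exact hβ0 (LinearMap.ext hc)
  obtain ⟨w₂, hw₂, hw₃⟩ := exists_ker_notMem_span (β := β) (LinearMap.ext hβ) h3 (β w₁)
  obtain ⟨φ, h4, h5⟩ := exists_dual_pair hw₃ 1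
  let f : U × F →ₗ[F] range r :=
    r.rangeRestrict ∘ₗ (T.flip w₁).coprod (LinearMap.toSpanSingleton F V (T u₀ w₂))
  have hf : Function.Injective f := (injective_iff_map_eq_zero _).2 fun ⟨u, c⟩ hz => by
    have h6 : T (α u) w₁ + T (u + α u) (β w₁) + c • T (α u₀) w₂ = 0 := by
      simpa [f, hr', hw₂] using congrArg Subtype.val hz
    have h7 : α u = 0 := by
      have := congrArg (h.mp 1 β) h6
      simp only [map_add, map_smul, IsTens.mp_apply, hβ, hw₂, map_zero, smul_zero, add_zero,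
        End.one_apply, LinearMap.add_apply] at this
      exact (h.eq_zero_iff.1 this).resolve_right hw₁
    have h8 : c = 0 := by simpa [h7, h4, h5, hu₀] using congrArg (h.cR φ) h6
    simp only [h7, h8, map_zero, LinearMap.zero_apply, add_zero, zero_add, zero_smul] at h6
    rw [(h.eq_zero_iff.1 h6).resolve_right hw₁, h8]
    rfl
  have := LinearMap.finrank_le_finrank_of_injective hf
  rw [Module.finrank_prod, finrank_self] at this
  omega

/-- A non-central idempotent of the algebra `1 ⊗ End W`. -/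
theorem exists_idem [Nontrivial U] (h : IsTens T) (h2 : 2 ≤ finrank F W) :
    ∃ e e' : End F V, InE T e ∧ InE T e' ∧ e * e = e ∧ e * e' ≠ e' * e := by
  have : Nontrivial W := Module.nontrivial_of_finrank_pos (R := F) (by omega)
  obtain ⟨w, hw⟩ := exists_ne (0 : W)
  obtain ⟨w', hw'⟩ := exists_notMem_span h2 w
  obtain ⟨φ, h3, h4⟩ := exists_dual_pair' hw hw' 1 0
  obtain ⟨ψ, h5, h6⟩ := exists_dual_pair' hw hw' 0 1
  obtain ⟨u, hu⟩ := exists_ne (0 : U)
  refine ⟨_, _, inE_mp h (φ.smulRight w), inE_mp h (ψ.smulRight w), h.ext fun x y => by simp [h3],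
    fun e => h.ne_zero hu hw ?_⟩
  simpa [h3, h4, h5, h6] using LinearMap.congr_fun e (T u w')

theorem not_comm_odd [Nontrivial U] (h : IsTens T) (h2 : (2 : F) ≠ 0) (hk : 2 ≤ finrank F W)
    {x : V ≃ₗ[F] V} {r : End F V} (e : ∀ z, x z = z + r z) (h0 : r * r = 0) :
    ¬ Comm T (tr T x) := fun hc => by
  obtain ⟨a, a', ha, ha', haa, hne⟩ := exists_idem h hk
  have h1 := hc a _ ha (ha.cj x)
  have h3 : cj x⁻¹ a * a = a * cj x⁻¹ a := by simpa using congrArg (cj x⁻¹) h1
  have h4 : cj x⁻¹ a = (1 - r) * a * (1 + r) := by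
    ext v
    simp [e, inv_apply_of_sq e h0]
  rw [h4] at h3
  rw [cj_eq_of_sq e h0] at h1
  have e1 : ∀ y, a * (a * y) = a * y := fun y => by rw [← mul_assoc, haa]
  have h5 : (2 : F) • (r * a + a * r - (2 : F) • (a * (r * a))) = 0 := by
    simp only [mul_add, add_mul, mul_sub, sub_mul, mul_one, one_mul, mul_assoc, haa, e1] at h1 h3
    linear_combination (norm := module) -h1 - h3
  have h6 := (smul_eq_zero.1 h5).resolve_left h2
  have h7 : r * a = a * r := by
    have h8 := congrArg (a * ·) h6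
    have h9 := congrArg (· * a) h6
    simp only [mul_add, add_mul, mul_sub, sub_mul, mul_assoc, haa, e1, mul_smul_comm,
      smul_mul_assoc, mul_zero, zero_mul] at h8 h9
    linear_combination (norm := module) h9 - h8
  exact hne (by simpa [cj_eq_of_comm e h7] using (hc a' _ ha' (ha.cj x)).symm)

theorem not_comm_three [Nontrivial U] (h : IsTens T) (hk : 2 ≤ finrank F W) {r : End F V}
    (h0 : r * r = 0) {c : Fin 3 → F} (hc : Function.Injective c) {x : Fin 3 → V ≃ₗ[F] V}
    (e : ∀ i z, x i z = z + (c i • r) z) : ¬ ∀ i, Comm T (tr T (x i)) := fun hC => by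
  obtain ⟨a, a', ha, ha', -, hne⟩ := exists_idem h hk
  set B := a' * (r * a - a * r) - (r * a - a * r) * a'
  set C := a' * (r * a * r) - r * a * r * a'
  have key : ∀ i, (a' * a - a * a') + c i • B - (c i * c i) • C = 0 := fun i => by
    have h1 := hC i a' _ ha' (ha.cj (x i))
    rw [cj_eq_of_sq (e i) (by rw [smul_mul_smul_comm, h0, smul_zero])] at h1
    simp only [B, C, mul_add, add_mul, mul_sub, sub_mul, mul_one, one_mul, mul_assoc,
      mul_smul_comm, smul_mul_assoc] at h1 ⊢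
    linear_combination (norm := module) h1
  have k2 : ∀ i j, i ≠ j → B = (c i + c j) • C := fun i j hij => by
    have : (c i - c j) • (B - (c i + c j) • C) = 0 := by
      linear_combination (norm := module) key i - key j
    exact sub_eq_zero.1 ((smul_eq_zero.1 this).resolve_left (sub_ne_zero.2 (hc.ne hij)))
  have k3 : (c 1 - c 2) • C = 0 := by
    linear_combination (norm := module) k2 0 2 (by decide) - k2 0 1 (by decide)
  have k4 : C = 0 := (smul_eq_zero.1 k3).resolve_left (sub_ne_zero.2 (hc.ne (by decide)))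
  have k5 := key 0
  rw [k2 0 1 (by decide), k4] at k5
  exact hne (sub_eq_zero.1 (by simpa using k5)).symm

/-- The rank bound for an involution moving the factor algebra to a commuting one. -/
theorem rank_of_comm (h : IsTens T) {x : V ≃ₗ[F] V} {r : End F V} (e : ∀ z, x z = z + r z)
    (hr : finrank F (range r) = finrank F U) (hc : Comm T (tr T x)) {w₁ w₂ : W}
    {φ₁ φ₂ : Dual F W} (h11 : φ₁ w₁ = 1) (h12 : φ₁ w₂ = 0) (h21 : φ₂ w₁ = 0) (h22 : φ₂ w₂ = 1)
    (Z : Submodule F V) (hZ : ∀ v ∈ Z, h.mp 1 (φ₁.smulRight w₁) v = v ∧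
      cj x (h.mp 1 (φ₁.smulRight w₁)) v = v ∧ (x v = v → v = 0))
    (hxx : ∀ z, x (x z) = z) :
    finrank F W * (finrank F Z + finrank F U) ≤ 3 * finrank F U := by
  have := h.finiteDimensional
  have hw₁ : w₁ ≠ 0 := by rintro rfl; simp at h11
  have hw₂ : w₂ ≠ 0 := by rintro rfl; simp at h22
  have : Nontrivial W := ⟨⟨w₁, 0, hw₁⟩⟩
  have hf : ∀ (w : W) (φ : Dual F W), φ w = 1 → ∃ f : End F U,
      cj x (h.mp 1 (φ.smulRight w)) = h.mp f 1 ∧
        finrank F (ker f) * finrank F W + finrank F U = finrank F U * finrank F W := by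
    intro w φ h1
    obtain ⟨f, hf⟩ := (inC_iff h).1 (hc.inC h ((inE_mp h (φ.smulRight w)).cj x))
    refine ⟨f, hf, ?_⟩
    have h2 : finrank F (range (cj x (h.mp 1 (φ.smulRight w)))) = finrank F (range (h.mp f 1)) := by
      rw [hf]
    have h3 : range (φ.smulRight w) = span F {w} :=
      LinearMap.range_smulRight_apply (by rintro rfl; simp at h1) w
    rw [range_cj, finrank_im, h.range_mp, h.range_mp, h.finrank_map₂, h.finrank_map₂, h3, End.one_eq_id, End.one_eq_id,
      LinearMap.range_id, LinearMap.range_id, finrank_top, finrank_top,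
      finrank_span_singleton (show w ≠ 0 by rintro rfl; simp at h1), mul_one] at h2
    rw [← f.finrank_range_add_finrank_ker, add_mul, ← h2, f.finrank_range_add_finrank_ker, add_comm]
  obtain ⟨f₁, e₁, d₁⟩ := hf w₁ φ₁ h11
  obtain ⟨f₂, e₂, d₂⟩ := hf w₂ φ₂ h22
  have hinv : ∀ z, x⁻¹ z = x z := fun z => by rw [← hxx z, inv_apply_self, hxx]
  let g : Z × ker f₁ × ↥(ker f₁ ⊓ ker f₂) →ₗ[F] range r := r.rangeRestrict ∘ₗ
    Z.subtype.coprod ((T.flip w₁ ∘ₗ Submodule.subtype _).coprod (T.flip w₂ ∘ₗ Submodule.subtype _))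
  have hg : Function.Injective g := (injective_iff_map_eq_zero _).2 <| by
    rintro ⟨⟨v, hv⟩, ⟨u₁, hu₁⟩, ⟨u₂, hu₂, hu₃⟩⟩ hz
    obtain ⟨z1, z2, z3⟩ := hZ v hv
    replace hu₁ : f₁ u₁ = 0 := hu₁
    replace hu₂ : f₁ u₂ = 0 := hu₂
    replace hu₃ : f₂ u₂ = 0 := hu₃
    set y := v + (T u₁ w₁ + T u₂ w₂) with hy
    have h1 : x y = y := by
      rw [e, show r y = 0 from congrArg Subtype.val hz, add_zero]
    have h2 : x (v + T u₁ w₁) = v := by
      have := LinearMap.congr_fun e₁ y
      rw [cj_apply, hinv, h1, hy] at this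
      rw [e₁] at z2
      simpa [z1, h11, h12, hu₁, hu₂, z2] using this
    have h3 : x v = v + T u₁ w₁ := by rw [← hxx (v + T u₁ w₁), h2]
    have h4 : v = 0 := z3 (by
      have := LinearMap.congr_fun e₁ (x v)
      rw [cj_apply, inv_apply_self, z1] at this
      rw [this, h3, map_add, ← e₁, z2, e₁]
      simp [hu₁])
    subst h4
    have h5 : u₁ = 0 := (h.eq_zero_iff.1 (by simpa using h3.symm)).resolve_right hw₁
    subst h5
    have h6 : u₂ = 0 := by
      have := LinearMap.congr_fun e₂ y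
      rw [cj_apply, hinv, h1, hy] at this
      exact (h.eq_zero_iff.1 (by simpa [h22, hu₃] using this)).resolve_right hw₂
    subst h6
    rfl
  have h1 := LinearMap.finrank_le_finrank_of_injective hg
  rw [Module.finrank_prod, Module.finrank_prod, hr] at h1
  have h2 := Submodule.finrank_sup_add_finrank_inf_eq (ker f₁) (ker f₂)
  have h3 := Submodule.finrank_le (ker f₁ ⊔ ker f₂)
  nlinarith

theorem not_comm_four [Nontrivial U] (h : IsTens T) (hk : 4 ≤ finrank F W) {x : V ≃ₗ[F] V}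
    {r : End F V} (e : ∀ z, x z = z + r z) (hr : finrank F (range r) = finrank F U)
    (hxx : ∀ z, x (x z) = z) : ¬ Comm T (tr T x) := fun hc => by
  have : Nontrivial W := Module.nontrivial_of_finrank_pos (R := F) (by omega)
  obtain ⟨w, hw⟩ := exists_ne (0 : W)
  obtain ⟨w', hw'⟩ := exists_notMem_span (K := F) (V := W) (by omega) w
  obtain ⟨φ, h3, h4⟩ := exists_dual_pair' hw hw' 1 0
  obtain ⟨ψ, h5, h6⟩ := exists_dual_pair' hw hw' 0 1
  have := rank_of_comm h e hr hc h3 h4 h5 h6 ⊥ (fun v hv => by simp [(mem_bot F).1 hv]) hxx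
  have h7 : 0 < finrank F U := finrank_pos
  rw [finrank_bot] at this
  nlinarith

/-- A four-group cannot permute four pairwise commuting conjugates regularly if one of its
involutions has small rank. -/
theorem not_comm_klein [Nontrivial U] (h : IsTens T) (hk : 3 ≤ finrank F W) {x y : V ≃ₗ[F] V}
    {r : End F V} (e : ∀ z, x z = z + r z) (hr : finrank F (range r) = finrank F U)
    (hxx : x * x = 1) (hyy : y * y = 1) (hxy : x * y = y * x) (c1 : Comm T (tr T x))
    (c2 : Comm T (tr T y)) (c3 : Comm T (tr T (x * y))) : False := by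
  have := h.finiteDimensional
  have : Nontrivial W := Module.nontrivial_of_finrank_pos (R := F) (by omega)
  obtain ⟨w, hw⟩ := exists_ne (0 : W)
  obtain ⟨w', hw'⟩ := exists_notMem_span (K := F) (V := W) (by omega) w
  obtain ⟨φ, h3, h4⟩ := exists_dual_pair' hw hw' 1 0
  obtain ⟨ψ, h5, h6⟩ := exists_dual_pair' hw hw' 0 1
  obtain ⟨u, hu⟩ := exists_ne (0 : U)
  set a := h.mp 1 (φ.smulRight w) with ha
  have hE : InE T a := inE_mp h _
  have haa : a * a = a := h.ext fun x y => by simp [ha, h3]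
  have ha0 : a ≠ 0 := fun e0 => h.ne_zero hu hw (by
    simpa [ha, h3] using LinearMap.congr_fun e0 (T u w))
  have i1 := c1.inC h (hE.cj x)
  have i2 := c2.inC h (hE.cj y)
  have i3 := c3.inC h (hE.cj (x * y))
  have m1 : cj x (cj x a) = a := by rw [← cj_mul, hxx, cj_one]
  have m2 : cj x (cj (x * y) a) = cj y a := by rw [← cj_mul, ← mul_assoc, hxx, one_mul]
  have m3 : cj (x * y) (cj (x * y) a) = a := by
    rw [← cj_mul, mul_assoc, ← mul_assoc y, ← hxy, mul_assoc, hyy, mul_one, hxx, cj_one]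
  have m4 : cj (x * y) (cj y a) = cj x a := by rw [← cj_mul, mul_assoc, hyy, mul_one]
  have m5 : cj y (cj x a) = cj (x * y) a := by rw [← cj_mul, hxy]
  have m6 : cj y (cj y a) = a := by rw [← cj_mul, hyy, cj_one]
  have m7 : cj y (cj (x * y) a) = cj x a := by
    rw [← cj_mul, hxy, ← mul_assoc, hyy, one_mul]
  have hne : a * (cj x a * (cj y a * (1 - cj (x * y) a))) ≠ 0 := fun e0 => by
    have e1 := congrArg (cj x) (hE.eq_zero h (i1.mul (i2.mul (inC_one.sub i3))) ha0 e0)
    simp only [map_mul, map_sub, map_one, map_zero, m1, m2, ← cj_mul x y] at e1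
    have e2 := congrArg (cj (x * y)) (hE.eq_zero h (i3.mul (inC_one.sub i2)) ha0 e1)
    simp only [map_mul, map_sub, map_one, map_zero, m3, m4] at e2
    have e3 := congrArg (cj x) (hE.eq_zero h (inC_one.sub i1) ha0 e2)
    simp only [map_sub, map_one, map_zero, m1] at e3
    exact h.ne_zero hu (show w' ≠ 0 from fun e => hw' (e ▸ zero_mem _))
      (by simpa [ha, h4] using LinearMap.congr_fun e3 (T u w'))
  obtain ⟨v₀, hv₀⟩ : ∃ v, (a * (cj x a * (cj y a * (1 - cj (x * y) a)))) v ≠ 0 := by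
    by_contra! hc; exact hne (LinearMap.ext hc)
  have q1 : Commute a (cj x a) := hE.comm h i1
  have q2 : Commute a (cj y a) := hE.comm h i2
  have q3 : Commute a (cj (x * y) a) := hE.comm h i3
  have q4 : Commute (cj x a) (cj y a) := by simpa only [m2] using q3.map (cj x)
  have q5 : Commute (cj x a) (cj (x * y) a) := q2.map (cj x)
  have q6 : Commute (cj y a) (cj (x * y) a) := by simpa only [m5] using q1.map (cj y)
  have idem : ∀ g, cj g a * cj g a = cj g a := fun g => by rw [← map_mul, haa]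
  set p := a * (cj x a * (cj y a * (1 - cj (x * y) a))) with hp
  have p1 : a * p = p := by rw [hp, ← mul_assoc, haa]
  have p2 : cj x a * p = p := by rw [hp, ← q1.left_comm, ← mul_assoc (cj x a), idem]
  have p3 : cj y a * p = p := by
    rw [hp, ← q2.left_comm, ← q4.left_comm, ← mul_assoc (cj y a), idem]
  have p4 : cj (x * y) a * p = 0 := by
    rw [hp, ← q3.left_comm, ← q5.left_comm, ← q6.left_comm, mul_sub, idem]
    simp
  have hxx' : ∀ z, x (x z) = z := fun z => by rw [← LinearEquiv.mul_apply, hxx]; rfl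
  have := rank_of_comm h e hr c1 h3 h4 h5 h6 (span F {p v₀}) (fun v hv => by
    obtain ⟨c, rfl⟩ := mem_span_singleton.1 hv
    refine ⟨by rw [map_smul, ← End.mul_apply, p1], by rw [map_smul, ← End.mul_apply, p2],
      fun hx => ?_⟩
    have k1 : cj (x * y) a (c • p v₀) = 0 := by
      rw [map_smul, ← End.mul_apply, p4, LinearMap.zero_apply, smul_zero]
    have k2 : x⁻¹ (c • p v₀) = c • p v₀ := by rw [← hx, inv_apply_self, hx]
    rw [cj_mul, cj_apply, k2, map_smul, ← End.mul_apply, p3, hx] at k1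
    exact k1) hxx'
  rw [finrank_span_singleton hv₀] at this
  nlinarith

end Cfsg.Lib.Class.Wr
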