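import Cfsg.Agent.Class.Wr.Norm

/-!
Root elements of a tensor factor inside a group `X`, the local hypotheses, and pairs of root
elements from different conjugates of the decomposition with largest intersection.
-/

set_option autoImplicit false
set_option linter.unusedSectionVars false

namespace Cfsg.Lib.Class.Wr

open Module Submodule Tens Tn FE AO
open LinearMap (range ker)

variable {F U W V : Type*} [Field F] [AddCommGroup U] [Module F U] [AddCommGroup W] [Module F W]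
  [AddCommGroup V] [Module F V] {X : Subgroup (V ≃ₗ[F] V)} {T T' T₁ T₂ : U →ₗ[F] W →ₗ[F] V}
  {w w' : W} {φ φ' : Dual F W} {t s r : End F V}

/-- `t = 1 ⊗ w φ` is a root element of the second factor with `1 + t` in `X`. -/
structure RtE (X : Subgroup (V ≃ₗ[F] V)) (T : U →ₗ[F] W →ₗ[F] V) (w : W) (φ : Dual F W)
    (t : End F V) : Prop where
  uin : UIn X t
  w0 : w ≠ 0
  φ0 : φ ≠ 0
  φw : φ w = 0
  eq : ∀ u y, t (T u y) = φ y • T u w

/-- The flag `(w, φ)` gives a root element in `X`. -/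
def Rt (X : Subgroup (V ≃ₗ[F] V)) (T : U →ₗ[F] W →ₗ[F] V) (w : W) (φ : Dual F W) : Prop :=
  ∃ t, RtE X T w φ t

/-- `t` is a root element of the second factor in `X`. -/
def IsRt (X : Subgroup (V ≃ₗ[F] V)) (T : U →ₗ[F] W →ₗ[F] V) (t : End F V) : Prop :=
  ∃ w φ, RtE X T w φ t

namespace RtE

theorem rt (h : RtE X T w φ t) : Rt X T w φ := ⟨t, h⟩

theorem isRt (h : RtE X T w φ t) : IsRt X T t := ⟨w, φ, h⟩

theorem tr (h : RtE X T w φ t) {g : V ≃ₗ[F] V} (hg : g ∈ X) : RtE X (tr T g) w φ (cj g t) :=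
  ⟨h.uin.cj hg, h.w0, h.φ0, h.φw, fun u y => by simp [h.eq]⟩

theorem same (h : RtE X T w φ t) (hs : Same T T') : IsRt X T' t := by
  obtain ⟨a, b, e⟩ := hs
  refine ⟨b⁻¹ w, φ ∘ₗ (b : End F W), h.uin, by simpa using h.w0, fun e0 => h.φ0 ?_,
    by simpa using h.φw, fun u y => by simp [e, h.eq]⟩
  ext y
  simpa using LinearMap.congr_fun e0 (b⁻¹ y)

theorem inE (h : RtE X T w φ t) : InE T t := ⟨φ.smulRight w, fun u y => by simp [h.eq]⟩

theorem exists_one (h : RtE X T w φ t) : ∃ y, φ y = 1 := exists_apply_eq h.φ0 1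

theorem smul (h : RtE X T w φ t) (hT : IsTens T) {c : F} (h' : Rt X T w (c • φ)) :
    RtE X T w (c • φ) (c • t) := by
  obtain ⟨t', h'⟩ := h'
  have : t' = c • t := hT.ext fun u y => by simp [h.eq, h'.eq, mul_smul]
  exact this ▸ h'

variable (hT : IsTens T) (h : RtE X T w φ t)
include hT h

theorem apply (v : V) : t v = T (hT.cR φ v) w :=
  LinearMap.congr_fun (hT.ext (a := t) (b := T.flip w ∘ₗ hT.cR φ) fun u y => by simp [h.eq]) v

theorem mem_range {v : V} : v ∈ range t ↔ ∃ u, T u w = v := by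
  refine ⟨fun ⟨z, e⟩ => ⟨_, (h.apply hT z).symm.trans e⟩, fun ⟨u, e⟩ => ?_⟩
  obtain ⟨y, hy⟩ := h.exists_one
  exact ⟨T u y, by rw [h.eq, hy, one_smul, e]⟩

theorem mem (u : U) : T u w ∈ range t := (h.mem_range hT).2 ⟨u, rfl⟩

theorem sq : t * t = 0 := hT.ext fun u y => by simp [h.eq, h.φw]

theorem apply_eq_zero {v : V} : t v = 0 ↔ hT.cR φ v = 0 := by
  rw [h.apply hT, hT.eq_zero_iff, or_iff_left h.w0]

theorem finrank_range : finrank F (range t) = finrank F U := by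
  have : range t = range (T.flip w) := by
    ext v
    exact h.mem_range hT
  rw [this, LinearMap.finrank_range_of_inj fun x y e => hT.injective' h.w0 e]

theorem eq_zero_of_mem {u : U} {y : W} (hy : y ∉ span F {w}) (hv : T u y ∈ range t) : u = 0 := by
  obtain ⟨u', e⟩ := (h.mem_range hT).1 hv
  obtain ⟨χ, h1, h2⟩ := exists_dual_pair hy 1
  simpa [h1, h2] using (congrArg (hT.cR χ) e).symm

theorem range_eq (h' : RtE X T w' φ' s) {v : V} (h0 : v ≠ 0) (h1 : v ∈ range t)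
    (h2 : v ∈ range s) : range t = range s := by
  obtain ⟨u, rfl⟩ := (h'.mem_range hT).1 h2
  have : w' ∈ span F {w} := by_contra fun hc => h0 (by simp [h.eq_zero_of_mem hT hc h1])
  obtain ⟨c, rfl⟩ := mem_span_singleton.1 this
  have hc : c ≠ 0 := by rintro rfl; simp at h0
  ext v
  rw [h.mem_range hT, h'.mem_range hT]
  exact ⟨fun ⟨u, e⟩ => ⟨c⁻¹ • u, by simp [smul_smul, hc, e]⟩, fun ⟨u, e⟩ => ⟨c • u, by simpa using e⟩⟩

theorem ne_zero [Nontrivial U] : t ≠ 0 := fun e => by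
  obtain ⟨u, hu⟩ := exists_ne (0 : U)
  exact hT.ne_zero hu h.w0 (by simpa [e] using h.mem hT u)

/-- An element of the other factor algebra with image in the image of a root element is zero. -/
theorem eq_zero_of_inC {d : End F V} (hd : InC T d) {y : W} (hy : y ∉ span F {w})
    (e : ∀ u, d (T u y) ∈ range t) : d = 0 := by
  obtain ⟨γ, hγ⟩ := hd
  have : ∀ u, γ u = 0 := fun u => h.eq_zero_of_mem hT hy (hγ u y ▸ e u)
  exact hT.ext fun u y => by simp [hγ, this]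

theorem exists_ker [FiniteDimensional F W] (hk : 3 ≤ finrank F W) : ∃ y, φ y = 0 ∧ y ∉ span F {w} := by
  obtain ⟨y, h1, h2⟩ := exists_ker_notMem_span (β := φ.smulRight w)
    (LinearMap.ext fun y => by simp [h.φw]) hk w
  exact ⟨y, by simpa [h.w0] using h1, h2⟩

end RtE

theorem IsRt.uin (h : IsRt X T t) : UIn X t := let ⟨_, _, h⟩ := h; h.uin

theorem IsRt.inE (h : IsRt X T t) : InE T t := let ⟨_, _, h⟩ := h; h.inE

theorem IsRt.sq (h : IsRt X T t) (hT : IsTens T) : t * t = 0 := let ⟨_, _, h⟩ := h; h.sq hT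

theorem IsRt.finrank_range (h : IsRt X T t) (hT : IsTens T) : finrank F (range t) = finrank F U :=
  let ⟨_, _, h⟩ := h; h.finrank_range hT

theorem IsRt.tr (h : IsRt X T t) {g : V ≃ₗ[F] V} (hg : g ∈ X) : IsRt X (tr T g) (cj g t) :=
  let ⟨_, _, h⟩ := h; (h.tr hg).isRt

theorem IsRt.same (h : IsRt X T t) (hs : Same T T') : IsRt X T' t := let ⟨_, _, h⟩ := h; h.same hs

theorem rt_tr {g : V ≃ₗ[F] V} (hg : g ∈ X) : Rt X (tr T g) = Rt X T := by
  ext w φ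
  refine ⟨fun ⟨_, h⟩ => ?_, fun ⟨_, h⟩ => (h.tr hg).rt⟩
  simpa [tr_tr] using (h.tr (X.inv_mem hg)).rt

/-- `T'` is the image of `T` under an element of `X`. -/
def Rel (X : Subgroup (V ≃ₗ[F] V)) (T T' : U →ₗ[F] W →ₗ[F] V) : Prop := ∃ g ∈ X, T' = tr T g

theorem Rel.refl : Rel X T T := ⟨1, X.one_mem, rfl⟩

theorem Rel.symm (h : Rel X T T') : Rel X T' T := by
  obtain ⟨g, hg, rfl⟩ := h
  exact ⟨g⁻¹, X.inv_mem hg, by simp [tr_tr]⟩

theorem Rel.trans (h : Rel X T T') (h' : Rel X T' T₁) : Rel X T T₁ := by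
  obtain ⟨g, hg, rfl⟩ := h
  obtain ⟨k, hk, rfl⟩ := h'
  exact ⟨k * g, X.mul_mem hk hg, rfl⟩

theorem rel_tr {g : V ≃ₗ[F] V} (hg : g ∈ X) : Rel X T (tr T g) := ⟨g, hg, rfl⟩

theorem Rel.rt (h : Rel X T T') : Rt X T' = Rt X T := by
  obtain ⟨g, hg, rfl⟩ := h
  exact rt_tr hg

/-- The local hypotheses. -/
structure Loc (X : Subgroup (V ≃ₗ[F] V)) (T : U →ₗ[F] W →ₗ[F] V) : Prop where
  tens : IsTens T
  h1 : ∀ w φ, Rt X T w φ → ∀ y ∈ X, (∀ u, ∃ u', y (T u w) = T u' w) → y ∈ tensG T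
  h2 : ∀ w φ w' φ', Rt X T w φ → Rt X T w' φ' →
    ∃ n ∈ X, n ∈ tensG T ∧ ∀ u, ∃ u', n (T u w) = T u' w'
  h3 : ∀ ρ : End F W, (∀ w φ, Rt X T w φ → ρ w ∈ span F {w}) → ∃ c : F, ρ = c • 1
  two : 2 ≤ finrank F W
  nl : (2 : F) ≠ 0 ∨ 3 ≤ finrank F W

theorem mem_tensG_tr {g y : V ≃ₗ[F] V} : y ∈ tensG (tr T g) ↔ g⁻¹ * y * g ∈ tensG T :=
  exists₂_congr fun _ _ => forall₂_congr fun _ _ => by
    simp [LinearEquiv.symm_apply_eq]

namespace Loc

theorem rel (h : Loc X T) (hr : Rel X T T') : Loc X T' := by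
  obtain ⟨g, hg, rfl⟩ := hr
  refine ⟨isTens_tr h.tens g, fun w φ hw y hy e => ?_, fun w φ w' φ' h1 h2 => ?_,
    by rw [rt_tr hg]; exact h.h3, h.two, h.nl⟩
  · rw [rt_tr hg] at hw
    refine mem_tensG_tr.2 (h.h1 w φ hw _ (X.mul_mem (X.mul_mem (X.inv_mem hg) hy) hg) fun u => ?_)
    obtain ⟨u', e⟩ := e u
    exact ⟨u', by simpa [LinearEquiv.symm_apply_eq] using e⟩
  · rw [rt_tr hg] at h1 h2
    obtain ⟨n, hn, h3, h4⟩ := h.h2 w φ w' φ' h1 h2
    exact ⟨g * n * g⁻¹, X.mul_mem (X.mul_mem hg hn) (X.inv_mem hg),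
      mem_tensG_tr.2 (by simpa [mul_assoc] using h3), fun u => by simpa using h4 u⟩

theorem norm_of_range (h : Loc X T) (ht : IsRt X T t) {y : V ≃ₗ[F] V} (hy : y ∈ X)
    (e : ∀ v ∈ range t, y v ∈ range t) : y ∈ tensG T := by
  obtain ⟨w, φ, ht⟩ := ht
  exact h.h1 w φ ht.rt y hy fun u =>
    let ⟨u', e'⟩ := (ht.mem_range h.tens).1 (e _ (ht.mem h.tens u)); ⟨u', e'.symm⟩

theorem norm_of_comm (h : Loc X T) (ht : IsRt X T t) {y : V ≃ₗ[F] V} (hy : y ∈ X)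
    (e : ∀ z, y z = z + r z) (hc : r * t = t * r) : y ∈ tensG T :=
  h.norm_of_range ht hy <| by
    rintro _ ⟨v, rfl⟩
    rw [e, ← End.mul_apply, hc]
    exact add_mem ⟨v, rfl⟩ ⟨r v, rfl⟩

theorem same_of_range (h : Loc X T) (hr : Rel X T T') (ht : IsRt X T t) (hs : IsRt X T' s)
    (e : range s ≤ range t) : Same T T' := by
  obtain ⟨g, hg, rfl⟩ := hr
  obtain ⟨w, φ, ht⟩ := ht
  obtain ⟨w', φ', hs⟩ := hs
  obtain ⟨n, hn, h3, h4⟩ := h.h2 w φ w' φ' ht.rt (rt_tr (T := T) hg ▸ hs.rt)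
  have : g * n ∈ tensG T := h.h1 w φ ht.rt _ (X.mul_mem hg hn) fun u => by
    obtain ⟨u', e'⟩ := h4 u
    obtain ⟨u'', e''⟩ := (ht.mem_range h.tens).1 (e (hs.mem (isTens_tr h.tens g) u'))
    exact ⟨u'', by rw [LinearEquiv.mul_apply, e', e'', tr_apply]⟩
  exact same_tr.2 (by simpa using mul_mem this (inv_mem h3))

theorem nontrivial (h : Loc X T) : Nontrivial W :=
  Module.nontrivial_of_finrank_pos (R := F) (by have := h.two; omega)

variable [FiniteDimensional F U] [FiniteDimensional F W] [Nontrivial U]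

theorem inC_of_range (h : Loc X T) {d : End F V}
    (hd : ∀ t, IsRt X T t → ∀ v ∈ range t, d v ∈ range t) : InC T d := by
  have := h.nontrivial
  obtain ⟨w₀, hw₀⟩ := exists_ne (0 : W)
  obtain ⟨η, hη⟩ := exists_dual_eq hw₀ (1 : F)
  refine ⟨h.tens.cR η ∘ₗ d ∘ₗ T.flip w₀, fun u y => h.tens.eq_of_cL fun ξ => ?_⟩
  obtain ⟨c, hc⟩ := h.h3 (h.tens.cL ξ ∘ₗ d ∘ₗ T u) <| by
    rintro w φ ⟨t, ht⟩
    obtain ⟨u', e⟩ := (ht.mem_range h.tens).1 (hd t ht.isRt _ (ht.mem h.tens u))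
    simp only [LinearMap.comp_apply, ← e, IsTens.cL_apply]
    exact smul_mem _ _ (mem_span_singleton_self w)
  have h1 : ∀ y, h.tens.cL ξ (d (T u y)) = c • y := LinearMap.congr_fun hc
  simp [h1, ← h.tens.apply_cL, hη]

theorem inC_of_comm_rt (h : Loc X T) {d : End F V} (hd : ∀ t, IsRt X T t → d * t = t * d) :
    InC T d :=
  h.inC_of_range fun t ht => by
    rintro _ ⟨v, rfl⟩
    rw [← End.mul_apply, hd t ht]
    exact ⟨d v, rfl⟩

theorem exists_rt (h : Loc X T) : ∃ t, IsRt X T t := by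
  by_contra! hc
  obtain ⟨a, a', ha, ha', -, hne⟩ := exists_idem h.tens h.two
  exact hne (ha'.comm h.tens (h.inC_of_range fun t ht => (hc t ht).elim)).symm

theorem isRt_of_inE (h : Loc X T) (hr : Rel X T T') (hs : IsRt X T' s) (hE : InE T s) :
    IsRt X T s := by
  have h' := (h.rel hr).tens
  obtain ⟨b, rfl⟩ := (inE_iff h.tens).1 hE
  have h1 := hs.finrank_range h'
  rw [h.tens.range_mp, h.tens.finrank_map₂, End.one_eq_id, LinearMap.range_id, finrank_top] at h1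
  have h2 : finrank F (range b) = 1 := Nat.eq_of_mul_eq_mul_left finrank_pos (by rw [h1, mul_one])
  obtain ⟨⟨w, y₀, hw⟩, hw0, h3⟩ := finrank_eq_one_iff'.1 h2
  replace hw0 : w ≠ 0 := fun e => hw0 (Subtype.ext e)
  obtain ⟨ξ, hξ⟩ := exists_dual_eq hw0 (1 : F)
  have h4 : ∀ y, b y = ξ (b y) • w := fun y => by
    obtain ⟨c, hc⟩ := h3 ⟨b y, y, rfl⟩
    have : c • w = b y := congrArg Subtype.val hc
    simp [← this, hξ]
  obtain ⟨u, hu⟩ := exists_ne (0 : U)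
  refine ⟨w, ξ ∘ₗ b, hs.uin, hw0, fun e => ?_, ?_, fun u y => ?_⟩
  · simpa [hw, hξ] using LinearMap.congr_fun e y₀
  · have := LinearMap.congr_fun (hs.sq h') (T u y₀)
    simp only [End.mul_apply, IsTens.mp_apply, End.one_apply, LinearMap.zero_apply, hw] at this
    simp [(h.tens.eq_zero_iff.1 this).resolve_left hu]
  · rw [IsTens.mp_apply, h4, map_smul]
    rfl

theorem same_of_inE (h : Loc X T) (hr : Rel X T T') (hs : IsRt X T' s) (hE : InE T s) :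
    Same T T' := h.same_of_range hr (h.isRt_of_inE hr hs hE) hs le_rfl

variable [Finite F]

theorem inE_or_inC (h : Loc X T) (hr : Rel X T T') (hs : IsRt X T' s) {x : V ≃ₗ[F] V}
    (e : ∀ z, x z = z + s z) (hx : x ∈ tensG T) : InE T s ∨ InC T s := by
  have h' := (h.rel hr).tens
  by_cases h2 : (2 : F) = 0
  · exact inE_or_inC_two h.tens h2 (h.nl.resolve_left (not_not.2 h2)) e (hs.sq h')
      (hs.finrank_range h') hx
  · exact inE_or_inC_odd h.tens h2 e (hs.sq h') hx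

theorem inE_or_inC_of_comm (h : Loc X T) (hr : Rel X T T') (ht : IsRt X T t) (hs : IsRt X T' s)
    (hc : s * t = t * s) : InE T s ∨ InC T s :=
  let ⟨_, hx, e⟩ := hs.uin; h.inE_or_inC hr hs e (h.norm_of_comm ht hx e hc)

theorem good_of_inC (h : Loc X T) (hr : Rel X T T') (hs : IsRt X T' s) (hC : InC T s) :
    Good T T' := by
  have h' := h.rel hr
  by_cases hc : ∃ t, IsRt X T t ∧ InE T' t
  · obtain ⟨t, ht, hE⟩ := hc
    exact Or.inl (h'.same_of_inE hr.symm ht hE).symm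
  · push Not at hc
    refine Or.inr fun a b ha hb => ha.comm h.tens (h.inC_of_comm_rt fun t ht => ?_)
    exact hb.comm h'.tens ((h'.inE_or_inC_of_comm hr.symm hs ht (ht.inE.comm h.tens hC)).resolve_left
      (hc t ht))

theorem good_of_norm (h : Loc X T) (hr : Rel X T T') (hs : IsRt X T' s) {x : V ≃ₗ[F] V}
    (e : ∀ z, x z = z + s z) (hx : x ∈ tensG T) : Good T T' :=
  (h.inE_or_inC hr hs e hx).elim (fun hE => Or.inl (h.same_of_inE hr hs hE)) (h.good_of_inC hr hs)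

theorem good_of_comm (h : Loc X T) (hr : Rel X T T') (ht : IsRt X T t) (hs : IsRt X T' s)
    (hc : s * t = t * s) : Good T T' :=
  let ⟨_, hx, e⟩ := hs.uin; h.good_of_norm hr hs e (h.norm_of_comm ht hx e hc)

theorem norm_of_good (h : Loc X T) (hs : IsRt X T' s) {x : V ≃ₗ[F] V}
    (e : ∀ z, x z = z + s z) (hg : Good T T') : x ∈ tensG T := by
  have := h.nontrivial
  rcases hg with hg | hg
  · exact tensG_of_inE h.tens e (hg.symm.inE hs.inE)
  · exact tensG_of_inC h.tens e (hg.inC h.tens hs.inE)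

end Loc

theorem apply_apply_of_two (h2 : (2 : F) = 0) {x : V ≃ₗ[F] V} (e : ∀ z, x z = z + r z)
    (h0 : r * r = 0) (z : V) : x (x z) = z := by
  have h4 : r (r z) = 0 := LinearMap.congr_fun h0 z
  rw [e, e, map_add, h4, add_zero, add_assoc, ← two_smul F, h2, zero_smul, add_zero]

theorem mul_self_of_two (h2 : (2 : F) = 0) {x : V ≃ₗ[F] V} (e : ∀ z, x z = z + r z)
    (h0 : r * r = 0) : x * x = 1 := LinearEquiv.ext (apply_apply_of_two h2 e h0)

theorem apply_conj {x : V ≃ₗ[F] V} (e : ∀ z, x z = z + r z) (g : V ≃ₗ[F] V) (z : V) :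
    (g * x * g⁻¹) z = z + cj g r z := by simp [e]

theorem comm_of_mul_comm {x y : V ≃ₗ[F] V} (e : ∀ z, x z = z + r z) (e' : ∀ z, y z = z + s z) :
    x * y = y * x ↔ r * s = s * r := by
  simp only [LinearEquiv.ext_iff, LinearMap.ext_iff, LinearEquiv.mul_apply, End.mul_apply, e, e',
    map_add]
  exact forall_congr' fun z => ⟨fun h => by linear_combination (norm := abel_nf) h,
    fun h => by linear_combination (norm := abel_nf) h⟩

/-- Hypothesis excluding root elements that move the factor algebra to a commuting one. -/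
def NoMove (D : W → Dual F W → Prop) : Prop :=
  (2 : F) ≠ 0 ∨ 4 ≤ finrank F W ∨
    (3 ≤ finrank F W ∧ ∃ w φ₁ φ₂, D w φ₁ ∧ D w φ₂ ∧ D w (φ₁ + φ₂))

/-- The set of root flags is closed under scaling by `c` and its inverse. -/
def Sc (D : W → Dual F W → Prop) (c : F) : Prop := ∀ w φ, D w φ → D w (c • φ) ∧ D w (c⁻¹ • φ)

variable [FiniteDimensional F U] [FiniteDimensional F W] [Nontrivial U] [Finite F]

theorem Loc.not_good_tr (h : Loc X T) (hm : NoMove (Rt X T)) (hr : Rel X T T') (hb : ¬ Good T T')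
    (hs : IsRt X T' s) {x : V ≃ₗ[F] V} (e : ∀ z, x z = z + s z) : ¬ Good T (tr T x) := by
  have h' := h.rel hr
  rintro (hg | hg)
  · exact hb (h.good_of_norm hr hs e hg)
  by_cases h2 : (2 : F) = 0
  swap
  · exact not_comm_odd h.tens h2 h.two e (hs.sq h'.tens) hg
  have hxx := mul_self_of_two h2 e (hs.sq h'.tens)
  rcases hm with hm | hm | ⟨hk, w, φ₁, φ₂, ⟨t₁, h₁⟩, ⟨t₂, h₂⟩, ⟨t₃, h₃⟩⟩
  · exact hm h2
  · exact not_comm_four h.tens hm e (hs.finrank_range h'.tens)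
      (apply_apply_of_two h2 e (hs.sq h'.tens)) hg
  have key : ∀ t (y : V ≃ₗ[F] V), IsRt X T t → y ∈ X → (∀ z, y z = z + t z) →
      Comm T' (tr T' y) := fun t y ht hy ey => by
    have hyy := mul_self_of_two h2 ey (ht.sq h.tens)
    have h1 : y * (x * y * x⁻¹) = x * y * x⁻¹ * y :=
      (comm_of_mul_comm ey (apply_conj ey x)).2 (hg _ _ ht.inE (ht.inE.cj x))
    have h3 : cj y s * s = s * cj y s := (comm_of_mul_comm (apply_conj e y) e).1 (by
      rw [inv_eq_of_mul_eq_one_right hxx] at h1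
      rw [inv_eq_of_mul_eq_one_right hyy]
      simpa only [mul_assoc] using h1)
    exact (h'.good_of_comm (rel_tr hy) hs (hs.tr hy) h3).resolve_left fun hS =>
      hb (h'.good_of_norm hr.symm ht ey hS).symm
  obtain ⟨x₁, hx₁, e₁⟩ := h₁.uin
  obtain ⟨x₂, hx₂, e₂⟩ := h₂.uin
  have m12 : t₁ * t₂ = 0 := h.tens.ext fun u y => by simp [h₁.eq, h₂.eq, h₁.φw]
  have m21 : t₂ * t₁ = 0 := h.tens.ext fun u y => by simp [h₁.eq, h₂.eq, h₂.φw]
  have e₃ : ∀ z, (x₁ * x₂) z = z + t₃ z := fun z => by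
    have : t₃ = t₁ + t₂ := h.tens.ext fun u y => by simp [h₁.eq, h₂.eq, h₃.eq, add_smul]
    have h0 : t₁ (t₂ z) = 0 := LinearMap.congr_fun m12 z
    simp only [this, LinearEquiv.mul_apply, e₁, e₂, map_add, h0, LinearMap.add_apply]
    abel
  exact not_comm_klein h'.tens hk e₁ (h₁.finrank_range h.tens) (mul_self_of_two h2 e₁ (h₁.sq h.tens))
    (mul_self_of_two h2 e₂ (h₂.sq h.tens)) ((comm_of_mul_comm e₁ e₂).2 (m12.trans m21.symm))
    (key _ _ h₁.isRt hx₁ e₁) (key _ _ h₂.isRt hx₂ e₂) (key _ _ h₃.isRt (X.mul_mem hx₁ hx₂) e₃)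

/-- A pair of root elements from badly placed conjugates with largest intersection. -/
structure Pair (X : Subgroup (V ≃ₗ[F] V)) (T₁ T₂ : U →ₗ[F] W →ₗ[F] V) (t s : End F V) : Prop where
  loc : Loc X T₁
  rel : Rel X T₁ T₂
  bad : ¬ Good T₁ T₂
  rt₁ : IsRt X T₁ t
  rt₂ : IsRt X T₂ s
  max : ∀ T₃ T₄ t' s', Rel X T₁ T₃ → Rel X T₁ T₄ → ¬ Good T₃ T₄ → IsRt X T₃ t' → IsRt X T₄ s' →
    finrank F ↥(range t' ⊓ range s') ≤ finrank F ↥(range t ⊓ range s)

theorem Loc.exists_pair (h : Loc X T) {g : V ≃ₗ[F] V} (hg : g ∈ X) (hb : ¬ Good T (tr T g)) :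
    ∃ T₂ t s, Pair X T T₂ t s := by
  have := h.tens.finiteDimensional
  let S : Set ℕ := {n | ∃ T₂ t s, Rel X T T₂ ∧ ¬ Good T T₂ ∧ IsRt X T t ∧ IsRt X T₂ s ∧
    finrank F ↥(range t ⊓ range s) = n}
  obtain ⟨t₀, ht₀⟩ := h.exists_rt
  have hb' : BddAbove S := ⟨finrank F V, by
    rintro _ ⟨_, _, _, -, -, -, -, rfl⟩; exact Submodule.finrank_le _⟩
  obtain ⟨T₂, t, s, h1, h2, h3, h4, h5⟩ :=
    Nat.sSup_mem (s := S) ⟨_, _, _, _, rel_tr hg, hb, ht₀, ht₀.tr hg, rfl⟩ hb'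
  refine ⟨T₂, t, s, h, h1, h2, h3, h4, ?_⟩
  rintro _ T₄ t' s' ⟨k, hk, rfl⟩ h7 h8 h9 h10
  have hk' := X.inv_mem hk
  refine h5 ▸ le_csSup hb' ⟨tr T₄ k⁻¹, cj k⁻¹ t', cj k⁻¹ s', h7.trans (rel_tr hk'),
    fun hG => h8 (by simpa [tr_tr] using hG.tr k), by simpa [tr_tr] using h9.tr hk', h10.tr hk', ?_⟩
  rw [range_cj, range_cj, ← im_inf, finrank_im]

namespace Pair

variable (h : Pair X T₁ T₂ t s)
include h

theorem loc₂ : Loc X T₂ := h.loc.rel h.rel

theorem symm : Pair X T₂ T₁ s t :=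
  ⟨h.loc₂, h.rel.symm, fun hg => h.bad hg.symm, h.rt₂, h.rt₁, fun T₃ T₄ t' s' h3 h4 h5 h6 h7 =>
    inf_comm (range t) (range s) ▸ h.max T₃ T₄ t' s' (h.rel.trans h3) (h.rel.trans h4) h5 h6 h7⟩

theorem range_ne : range t ≠ range s := fun e =>
  h.bad (Or.inl (h.loc.same_of_range h.rel h.rt₁ h.rt₂ e.ge))

theorem good_of_lt {T₃ T₄ : U →ₗ[F] W →ₗ[F] V} {t' s' : End F V} (h3 : Rel X T₁ T₃)
    (h4 : Rel X T₁ T₄) (h6 : IsRt X T₃ t') (h7 : IsRt X T₄ s')
    (hle : range t ⊓ range s ≤ range t' ⊓ range s') {v : V} (hv : v ∈ range t' ⊓ range s')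
    (hv' : v ∉ range t ⊓ range s) : Good T₃ T₄ := by
  have := h.loc.tens.finiteDimensional
  by_contra hb
  exact (Submodule.finrank_lt_finrank_of_lt (SetLike.lt_iff_le_and_exists.2 ⟨hle, v, hv, hv'⟩)).not_ge
    (h.max T₃ T₄ t' s' h3 h4 hb h6 h7)

theorem of_le {T₃ T₄ : U →ₗ[F] W →ₗ[F] V} {t' s' : End F V} (h3 : Rel X T₁ T₃)
    (h4 : Rel X T₁ T₄) (hb : ¬ Good T₃ T₄) (h6 : IsRt X T₃ t') (h7 : IsRt X T₄ s')
    (hle : range t ⊓ range s ≤ range t' ⊓ range s') : Pair X T₃ T₄ t' s' := by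
  have := h.loc.tens.finiteDimensional
  exact ⟨h.loc.rel h3, h3.symm.trans h4, hb, h6, h7, fun T₅ T₆ _ _ h8 h9 h10 h11 h12 =>
    (h.max T₅ T₆ _ _ (h3.trans h8) (h3.trans h9) h10 h11 h12).trans (Submodule.finrank_mono hle)⟩

theorem eq_of_le {T₃ T₄ : U →ₗ[F] W →ₗ[F] V} {t' s' : End F V} (h3 : Rel X T₁ T₃)
    (h4 : Rel X T₁ T₄) (hb : ¬ Good T₃ T₄) (h6 : IsRt X T₃ t') (h7 : IsRt X T₄ s')
    (hle : range t ⊓ range s ≤ range t' ⊓ range s') : range t ⊓ range s = range t' ⊓ range s' := by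
  have := h.loc.tens.finiteDimensional
  exact Submodule.eq_of_le_of_finrank_le hle (h.max T₃ T₄ t' s' h3 h4 hb h6 h7)

theorem good_tr {v : V} (h1 : v ∈ range t) (h2 : s v ∈ range t) (h3 : v ∉ range s) {c : F}
    {x : V ≃ₗ[F] V} (hx : x ∈ X) (e : ∀ z, x z = z + (c • s) z) : Good T₁ (tr T₁ x) := by
  have hs := h.rt₂.sq h.loc₂.tens
  have hfix : ∀ j ∈ range s, x j = j := by
    rintro _ ⟨j, rfl⟩
    rw [e, LinearMap.smul_apply, ← End.mul_apply, hs, LinearMap.zero_apply, smul_zero, add_zero]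
  refine h.good_of_lt Rel.refl (rel_tr hx) h.rt₁ (h.rt₁.tr hx) (fun j hj => ⟨hj.1, ?_⟩)
    (v := x v) ⟨?_, ?_⟩ fun hj => h3 ?_
  · rw [range_cj, ← hfix j hj.2]
    exact apply_mem_im.2 hj.1
  · rw [e]
    exact add_mem h1 (smul_mem _ _ h2)
  · rw [range_cj]
    exact apply_mem_im.2 h1
  · exact x.injective (hfix _ hj.2) ▸ hj.2

theorem shear_aux (hm : NoMove (Rt X T₁) ∨ ∃ c : F, c ≠ 0 ∧ c ≠ 1 ∧ Sc (Rt X T₁) c) {v : V}
    (h1 : v ∈ range t) (h2 : s v ∈ range t) : v ∈ range s := by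
  by_contra h3
  obtain ⟨x, hx, e⟩ := h.rt₂.uin
  by_cases hm' : NoMove (Rt X T₁)
  · exact h.loc.not_good_tr hm' h.rel h.bad h.rt₂ e
      (h.good_tr h1 h2 h3 (c := 1) hx (by simpa using e))
  obtain ⟨c, hc0, hc1, hc⟩ := hm.resolve_left hm'
  have h2' : (2 : F) = 0 := not_not.1 fun h2 => hm' (Or.inl h2)
  obtain ⟨w, φ, hs⟩ := h.rt₂
  rw [← h.rel.rt] at hc
  have k : ∀ d : F, Rt X T₂ w (d • φ) → ∃ y : V ≃ₗ[F] V, (∀ z, y z = z + (d • s) z) ∧
      Comm T₁ (tr T₁ y) := fun d hd => by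
    have hd' := hs.smul h.loc₂.tens hd
    obtain ⟨y, hy, ey⟩ := hd'.uin
    exact ⟨y, ey, (h.good_tr h1 h2 h3 hy ey).resolve_left fun hS =>
      h.bad (h.loc.good_of_norm h.rel hd'.isRt ey hS)⟩
  choose y ey hy using fun i : Fin 3 => k (![1, c, c⁻¹] i) (by
    fin_cases i
    · simpa using hs.rt
    · exact (hc w φ hs.rt).1
    · exact (hc w φ hs.rt).2)
  refine not_comm_three h.loc.tens h.loc.two (hs.sq h.loc₂.tens) (c := ![1, c, c⁻¹]) ?_ ey hy
  have n1 : c⁻¹ ≠ 1 := by simpa using hc1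
  have n2 : c ≠ c⁻¹ := fun e => hc1 (by
    have : (c - 1) ^ 2 = 0 := by
      have := mul_inv_cancel₀ hc0
      rw [← e] at this
      linear_combination this + (1 - c) * h2'
    exact sub_eq_zero.1 (pow_eq_zero_iff two_ne_zero |>.1 this))
  intro i j
  fin_cases i <;> fin_cases j <;> simp [hc1, hc1.symm, n1.symm, n2, n2.symm]

theorem shear (hm : NoMove (Rt X T₁) ∨ ∃ c : F, c ≠ 0 ∧ c ≠ 1 ∧ Sc (Rt X T₁) c) : Shear t s :=
  ⟨h.rt₁.sq h.loc.tens, h.rt₂.sq h.loc₂.tens,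
    (h.rt₁.finrank_range h.loc.tens).trans (h.rt₂.finrank_range h.loc₂.tens).symm,
    fun _ => h.shear_aux hm, fun _ => h.symm.shear_aux (h.rel.rt ▸ hm)⟩

end Pair

end Cfsg.Lib.Class.Wr
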