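import Cfsg.Agent.Class.Wr.Lam

/-!
Tensor powers of a symplectic or unitary space: either all root coefficients are scalars, or
all of them occur.
-/

set_option autoImplicit false
set_option linter.unusedSectionVars false

namespace Cfsg.Lib.Class.Wr

open Module Submodule Tens Tn FE AO Form
open LinearMap (range ker)

variable {F U W V : Type*} [Field F] [AddCommGroup U] [Module F U] [AddCommGroup W] [Module F W]
  [AddCommGroup V] [Module F V] [FiniteDimensional F U] [FiniteDimensional F W] {σ : F →+* F}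
  {τ : Type*} {T : τ → U →ₗ[F] W →ₗ[F] V} {h : τ → U →ₛₗ[σ] U →ₗ[F] F} {f : W →ₛₗ[σ] W →ₗ[F] F}
  {β : V →ₛₗ[σ] V →ₗ[F] F} {ε₂ ε : F} {X : Subgroup (V ≃ₗ[F] V)} {a b j : τ} {x m γ : End F V}
  [Nontrivial U] [Nontrivial W] [Fintype τ]

theorem TP.Step.scalar_of_comm {t : TP T} {G : Subgroup (W ≃ₗ[F] W)} {N₁ N₂ : Set (End F W)}
    (hs : t.Step G N₁ N₂) (h2 : 2 ≤ finrank F W) {M : Submodule F (End F V)} (h1 : t.Inv G (· ∈ M))
    (hc : ∀ x ∈ M, ∀ y ∈ M, x * y = y * x) (hx : x ∈ M) : ∃ c : F, x = c • 1 := by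
  let R : Submodule F (End F V) :=
    { carrier := {x | ∀ y, (∀ m ∈ M, m * y = y * m) → x * y = y * x}
      zero_mem' := fun _ _ => by simp
      add_mem' := fun a b y hy => by rw [add_mul, mul_add, a y hy, b y hy]
      smul_mem' := fun c _ a y hy => by rw [smul_mul_assoc, mul_smul_comm, a y hy] }
  refine t.cent x fun j => by_contra fun hj => not_comm_kap (t.tens j) h2 fun a b => ?_
  have := hs.kap_mem (M := R) (fun i g hg x hx y hy => by
    rw [← cj_cj_inv (ug (t.tens i) g) y, ← map_mul, ← map_mul, hx]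
    exact fun m hm => (cj (ug (t.tens i) g)).injective (by
      rw [map_mul, map_mul, cj_cj_inv, hy _ (h1 i g hg m hm)]))
    (fun x hx y hy z hz => by rw [mul_assoc, hy z hz, ← mul_assoc, hx z hz, mul_assoc])
    (fun y hy => hy x hx) hj
  exact this a _ fun m hm => (this b m fun m' hm' => hc m' hm' m hm).symm

theorem eq_zero_of_pure {T : U →ₗ[F] W →ₗ[F] V} (hT : IsTens T) {s : F} {p : W} (hp : p ≠ 0)
    (e : x = s • 1) (h0 : ∀ u, x (T u p) = 0) : s = 0 := by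
  obtain ⟨u, hu⟩ := exists_ne (0 : U)
  simpa [h0, hT.eq_zero_iff, hu, hp] using (LinearMap.congr_fun e (T u p)).symm

theorem nontrivial_of_tens {T : U →ₗ[F] W →ₗ[F] V} (hT : IsTens T) : Nontrivial V :=
  let ⟨_, hu⟩ := exists_ne (0 : U); let ⟨_, hw⟩ := exists_ne (0 : W); ⟨_, _, hT.ne_zero hu hw⟩

/-- An overgroup of the special isometry groups of all factors. -/
structure FW (T : τ → U →ₗ[F] W →ₗ[F] V) (h : τ → U →ₛₗ[σ] U →ₗ[F] F) (ε₂ : F)
    (f : W →ₛₗ[σ] W →ₗ[F] F) (ε : F) (β : V →ₛₗ[σ] V →ₗ[F] F) (X : Subgroup (V ≃ₗ[F] V)) :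
    Prop where
  tp : TP T
  one : ∀ i, F1 (T i) (h i) ε₂ f ε β X

namespace FW

variable [Finite F] (c : FW T h ε₂ f ε β X)
include c

/-- The long root coefficients at a factor. -/
abbrev L (a : τ) : AddSubgroup (End F V) := Lam (c.tp.tens a) f X

/-- The short root coefficients at a factor. -/
abbrev A (a : τ) : Submodule F (End F V) := AA (c.one a).toTF X

theorem ft (a : τ) : FT f ε := (c.one a).ft

theorem inv_L (a : τ) : c.tp.Inv (SI f) (· ∈ c.L a) := fun j g hg x hx => by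
  by_cases hij : j = a
  · subst hij; rwa [hx.1.cj_ug]
  · exact lam_cj _ _ ((c.one j).ge g hg) (c.tp.cj_kap hij g) hx

theorem inv_A (a : τ) : c.tp.Inv (SI f) (· ∈ c.A a) := fun j g hg x hx => by
  by_cases hij : j = a
  · subst hij; rwa [hx.1.cj_ug]
  refine ⟨c.tp.inC_cj hx.1 j g, fun w δ h1 h2 h3 => ?_⟩
  obtain ⟨m, hm, H⟩ := hx.2 w δ h1 h2 h3
  have := H.cj ((c.one j).ge g hg)
  rw [nn_cj (c.one a).toTF (c.tp.tens a) ((c.one j).ug_isom hg.1) (one_mem _)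
    (c.tp.cj_kap hij g)] at this
  exact ⟨_, c.tp.inC_cj hm j g, this⟩

theorem adj_cj (j : τ) {g : W ≃ₗ[F] W} (hg : g ∈ SI f) (x : End F V) :
    adj β (cj (ug (c.tp.tens j) g) x) = cj (ug (c.tp.tens j) g) (adj β x) :=
  have := (c.tp.tens j).finiteDimensional
  (c.one j).hm.adj_cj x ((c.one j).ug_isom hg.1)

theorem A_scalar_five (hσ : σ = RingHom.id F) (hk : 5 ≤ finrank F W)
    (H : ∀ γ ∈ c.L a, ∃ s : F, γ = s • 1) (hx : x ∈ c.A a) : ∃ s : F, x = s • 1 := by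
  obtain ⟨N, hs⟩ := c.tp.exists_step (c.ft a) (Or.inl (by omega))
  refine c.tp.cent x fun j => by_contra fun hj => ?_
  have h1 := hs.kap_mem (c.inv_A a) (fun x hx y hy => ⟨hx.1.mul hy.1, fun w δ _ _ h3 =>
    ⟨0, InC.zero, (c.one a).AA_comm hσ hk hx hy.1 (by
      obtain ⟨s, e⟩ := H _ ((c.one a).AA_lam (by omega) hy)
      have := (c.A a).smul_mem ε (sub_mem hy ((c.A a).smul_mem s (c.one a).one_mem_AA))
      rwa [← e, sub_sub_cancel, smul_smul, (c.one a).hh.eps, one_smul] at this) h3⟩⟩) hx hj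
  obtain ⟨p, h2, h3⟩ := (c.ft a).exists_iso
  obtain ⟨δ, h4, h5, h6⟩ := (c.ft a).exists_indep (by omega) h2
  obtain ⟨y, h7, h8⟩ := (c.one a).hh.exists_orth_ne h2 h6
  obtain ⟨s, e⟩ := H _ ((c.one a).AA_lam (by omega) (h1 (xx f p δ)))
  rw [(c.one j).adj_kap, (c.one a).hh.adj_xx, ← map_smul, ← map_sub] at e
  obtain rfl := eq_zero_of_pure (c.tp.tens j) h2 e (by simp [h3, (c.one a).hh.comm h5])
  exact kap_ne_zero _ (fun h0 => h2 (by simpa [h7, h8] using LinearMap.congr_fun h0 y))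
    (e.trans (zero_smul _ _))

theorem A_scalar_odd (hσ : σ = RingHom.id F) (h2 : (2 : F) ≠ 0) (hk : 4 ≤ finrank F W)
    (H : ∀ γ ∈ c.L a, ∃ s : F, γ = s • 1) (hx : x ∈ c.A a) : ∃ s : F, x = s • 1 := by
  have := (c.tp.tens a).finiteDimensional
  have := nontrivial_of_tens (c.tp.tens a)
  have hβ := (c.one a).hm
  obtain ⟨N, hs⟩ := c.tp.exists_step (c.ft a) (Or.inl hk)
  obtain ⟨rfl, rfl, ha, -⟩ := (c.ft a).typ.resolve_left fun h => h.1 hσ
  have hf := (c.one a).hh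
  let M : Submodule F (End F V) :=
    { carrier := {x | x ∈ c.A a ∧ adj β x = -x}
      zero_mem' := ⟨zero_mem _, by simp [hβ.adj_zero]⟩
      add_mem' := fun a b => ⟨add_mem a.1 b.1, by rw [hβ.adj_add, a.2, b.2, neg_add]⟩
      smul_mem' := fun s _ a => ⟨smul_mem _ s a.1, by simp [hβ.adj_smul, a.2]⟩ }
  have h1 : c.tp.Inv (SI f) (· ∈ M) := fun j g hg x hx =>
    ⟨c.inv_A a j g hg x hx.1, by rw [c.adj_cj j hg, hx.2, map_neg]⟩
  have h3 : ∀ x ∈ M, ∀ y ∈ M, ∃ s : F, x * y + y * x = s • 1 := fun x hx y hy => by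
    obtain ⟨s, e⟩ := H _ ((c.one a).AA_hyp hk hy.1 hx.1)
    exact ⟨-s, by rw [neg_smul, ← e, hx.2, hy.2]; simp [add_comm]⟩
  have h4 : ∀ s : F, adj β (s • 1) = -(s • 1) → s = 0 := fun s e => by
    rw [hβ.adj_smul, hβ.adj_one, eq_neg_iff_add_eq_zero, RingHom.id_apply, ← two_smul F] at e
    simpa [h2] using e
  obtain ⟨p, a1, -⟩ := (c.ft a).exists_iso
  obtain ⟨δ, -, a2, a3⟩ := (c.ft a).exists_indep hk a1
  obtain ⟨η, -, a4, a5⟩ := hf.exists_hyp a1 (ha δ) a2 a3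
  suffices ∀ x ∈ M, x = 0 by
    obtain ⟨s, e⟩ := H _ ((c.one a).AA_lam hk hx)
    refine ⟨2⁻¹ * s, eq_of_sub_eq_zero (this _ ⟨sub_mem hx (smul_mem _ _ (c.one a).one_mem_AA), ?_⟩)⟩
    rw [hβ.adj_sub, hβ.adj_smul, hβ.adj_one, RingHom.id_apply, mul_smul, ← e]
    match_scalars <;> field_simp <;> ring
  intro x hx
  by_contra h0
  obtain ⟨j, hj⟩ : ∃ j, ¬ InC (T j) x := by
    by_contra! hc
    obtain ⟨s, rfl⟩ := c.tp.cent x hc
    simp [h4 s hx.2] at h0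
  obtain ⟨m, m0, m1, m2⟩ := (c.ft a).step_big (c.tp.tens j) (M := M.toAddSubgroup) hk (h1 j) hx hj
  have h5 : ∀ N, ∀ x ∈ c.tp.coef M j N, ∀ y ∈ c.tp.coef M j N, ∀ ρ ∈ N, ∀ ρ' ∈ N, ∃ s : F,
      x * y * kap (c.tp.tens j) (ρ * ρ') + y * x * kap (c.tp.tens j) (ρ' * ρ) = s • 1 :=
    fun N x hx y hy ρ hρ ρ' hρ' => by
      simpa only [mul_kap_mul _ hx.1, mul_kap_mul _ hy.1] using h3 _ (hx.2 ρ hρ) _ (hy.2 ρ' hρ')
  rcases m2 with m2 | ⟨-, m2⟩
  · have h6 : ∀ x ∈ c.tp.coef M j (N1 f), ∀ y ∈ c.tp.coef M j (N1 f), x * y = 0 := by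
      intro x hx y hy
      obtain ⟨s, e⟩ := h5 _ x hx y hy _ ⟨δ, ha _, rfl⟩ _ ⟨η, ha _, rfl⟩
      have b1 := eq_zero_of_pure (c.tp.tens j) a1 e (by simp [hf.comm a2, hf.comm a4])
      have b2 := congrArg (· * kap (c.tp.tens j) (xx f δ δ)) e
      simp only [add_mul, mul_assoc _ (kap _ _), ← map_mul, xx_mul, b1, a5, one_smul, ha,
        smul_mul_assoc, zero_smul, smul_zero, map_zero, mul_zero, add_zero] at b2
      exact (hx.1.mul hy.1).eq_zero_of_mul _ (smul_ne_zero (by simp [hf.swap_one a5])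
        (hf.xx_ne_zero (by simpa using a3 0) (by simpa using a3 0))) b2
    have h7 := hs.one_mem (h1.coef c.tp j _) (fun x hx y hy => h6 x hx y hy ▸ zero_mem _)
      (x := m) ⟨m1, m2⟩ m0
    simpa using h6 _ h7 _ h7
  obtain ⟨s, rfl⟩ := hs.scalar_of_comm (by omega) (h1.coef c.tp j (N2 f)) (fun x hx y hy => by
    obtain ⟨s, e⟩ := h5 _ x hx y hy _ ⟨p, δ, a2, rfl⟩ _ ⟨p, η, a4, rfl⟩
    have b1 : (y * x - x * y) * kap (c.tp.tens j) (xx f p p) = s • 1 := by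
      rw [← e]
      simp [mul_sub, sub_mul, xx_mul, ha, a2, a4, a5, hf.comm a2, hf.comm a4, hf.swap_one a5]
      abel
    have b2 := (hy.1.mul hx.1).sub (hx.1.mul hy.1)
    rw [eq_zero_of_pure (c.tp.tens j) a1 b1 (by simp [ha]), zero_smul] at b1
    exact (sub_eq_zero.1 (b2.eq_zero_of_mul _ (hf.xx_ne_zero a1 a1) b1)).symm) (x := m) ⟨m1, m2⟩
  have b1 := (m2 _ ⟨p, δ, a2, rfl⟩).2
  rw [smul_mul_assoc, one_mul, hβ.adj_smul, (c.one j).adj_kap, hf.adj_sub, hf.adj_xx, hf.adj_xx,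
    show (-1 : F) • xx f δ p - (-1 : F) • xx f p δ = xx f p δ - xx f δ p by module,
    eq_neg_iff_add_eq_zero, RingHom.id_apply, ← two_smul F] at b1
  exact smul_ne_zero h2 (smul_ne_zero (left_ne_zero_of_smul m0) (kap_ne_zero _ fun h0 =>
    a1 (by simpa [a4, a5] using LinearMap.congr_fun h0 η))) b1

/-- If the long root coefficients are scalars, so are the short ones. -/
theorem zz (hk : σ = RingHom.id F → finrank F W = 2 ∨ 5 ≤ finrank F W ∨
    4 ≤ finrank F W ∧ (2 : F) ≠ 0) (H : ∀ γ ∈ c.L a, ∃ s : F, γ = s • 1) {w : W} (hw0 : w ≠ 0)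
    (hw : f w w = 0) : ZZ (c.tp.tens a) β f X w := by
  intro δ x m h1 h2 hx hm (hn : UIn X (nn _ β f x m w δ))
  show InE _ (nn _ β f x m w δ)
  have := (c.tp.tens a).finiteDimensional
  have t := c.one a
  have key : ∀ {γ}, InC (T a) γ → UIn X (γ * kap t.hT (xx f w w)) → InE (T a) (γ * kap t.hT (xx f w w)) :=
    fun hγ h3 => by
      obtain ⟨s, rfl⟩ := H _ (t.lam_of_one hγ hw0 hw h3)
      rw [smul_mul_assoc, one_mul]
      exact (inE_kap _ _).smul s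
  by_cases h3 : ∀ s : F, δ ≠ s • w
  swap
  · obtain ⟨s, rfl⟩ := not_forall_not.1 h3
    have : nn t.hT β f x m w (s • w) = (σ s • x - (ε * s) • adj β x + m) * kap t.hT (xx f w w) := by
      simp only [nn_eq t.toTF hx, xx_smul_left, xx_smul_right, map_smul, sub_mul, add_mul,
        mul_smul_comm, smul_mul_assoc, smul_smul]
    rw [this] at hn ⊢
    exact key (((hx.smul _).sub ((t.inC_adj hx).smul _)).add hm) hn
  obtain ⟨s, rfl⟩ : ∃ s : F, x = s • 1 := by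
    by_cases hσ : σ = RingHom.id F
    · have h4 := t.AA_of_one hσ hx hm hw0 h2 h3 hn
      rcases hk hσ with hk | hk | hk
      · obtain ⟨s, e⟩ := t.ft.eq_smul_of_two hk hw0 hw h2
        exact (h3 s e).elim
      · exact c.A_scalar_five hσ hk H h4
      · exact c.A_scalar_odd hσ hk.2 hk.1 H h4
    obtain ⟨μ, hμ⟩ := exists_not_fixed hσ
    obtain ⟨s, hs⟩ := H _ (t.lam_of_nn hx hm hw0 hw h1 h2 h3 hn 1)
    obtain ⟨d, hd⟩ := H _ (t.lam_of_nn hx hm hw0 hw h1 h2 h3 hn μ)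
    refine ⟨(σ μ - μ)⁻¹ * (d - μ * s), ?_⟩
    rw [mul_smul, eq_inv_smul_iff₀ (sub_ne_zero.2 hμ)]
    rw [map_one] at hs
    linear_combination (norm := module) hd - μ • hs
  have h4 := t.uin_nn_sub hx hx InC.zero hw h2 h2 h1 h1 hn (t.uin_nn_one hw h1 h2 s)
  simp only [nn, zero_mul, add_zero, add_sub_cancel_left] at h4
  rw [nn_eq t.toTF hx, t.hm.adj_smul, t.hm.adj_one]
  simp only [smul_mul_assoc, one_mul]
  exact (((inE_kap _ _).smul _).sub (((inE_kap _ _).smul _).smul _)).add (key hm h4)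

/-- All root coefficients occur at the factor `a`. -/
def Full (a : τ) : Prop := ∀ r, InC (T a) r → r - ε • adj β r ∈ c.L a

theorem exists_not_inC (H : ¬ ∃ s : F, x = s • 1) : ∃ j, ¬ InC (T j) x := by
  by_contra! hc
  exact H (c.tp.cent x hc)

theorem mem_L_swap (hab : a ≠ b) {ρ : End F W} {p : W} (h0 : p ≠ 0) (hp : f p p = 0)
    (H : UIn X (kap (c.tp.tens b) (xx f p p) * kap (c.tp.tens a) ρ)) :
    kap (c.tp.tens a) ρ ∈ c.L b :=
  (c.one b).lam_of_one (c.tp.inC_kap hab.symm _) h0 hp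
    (by rwa [(c.tp.inC_kap hab _).comm_kap])

variable [DecidableEq τ]

theorem full_big (hp : c.tp.Alt X) (hk : 4 ≤ finrank F W)
    (hk' : σ = RingHom.id F → (2 : F) ≠ 0 ∨ 5 ≤ finrank F W) (hγ : γ ∈ c.L a)
    (H : ¬ ∃ s : F, γ = s • 1) : c.Full a := by
  obtain ⟨N, hs⟩ := c.tp.exists_step (c.ft a) (Or.inl hk)
  have hf := (c.one a).hh
  let R : τ → Submodule F (End F V) := fun a =>
    { carrier := {r | ∀ x ∈ c.A a, x * r ∈ c.A a}
      zero_mem' := fun _ _ => by simp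
      add_mem' := fun h1 h2 x hx => by rw [mul_add]; exact add_mem (h1 x hx) (h2 x hx)
      smul_mem' := fun s _ h1 x hx => by rw [mul_smul_comm]; exact smul_mem _ s (h1 x hx) }
  have h1 : ∀ a, ∀ x ∈ R a, ∀ y ∈ R a, x * y ∈ R a := fun a x hx y hy z hz => by
    rw [← mul_assoc]; exact hy _ (hx z hz)
  have h2 : ∀ {a r}, r ∈ R a → r ∈ c.A a := fun {a r} hr => by
    simpa using hr 1 (c.one a).one_mem_AA
  have h3 : ∀ {a j γ}, γ ∈ c.L a → ¬ InC (T j) γ → ∀ ρ, kap (c.tp.tens j) ρ ∈ R a :=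
    fun {a j γ} hγ hj => hs.kap_mem (fun i g hg r hr x hx => by
      rw [← cj_cj_inv (ug (c.tp.tens i) g) x, ← map_mul, ug_inv]
      exact c.inv_A a i g hg _ (hr _ (c.inv_A a i _ (inv_mem hg) x hx))) (h1 a)
      (fun x hx => (c.one a).AA_mul hx hγ) hj
  obtain ⟨b, hb⟩ := c.exists_not_inC H
  have h4 := hp.all (J := fun a b => ∃ m ∈ c.L a, ¬ InC (T b) m) (fun a b ⟨m, hm, hb⟩ => by
    have := (c.tp.tens a).finiteDimensional
    have hab : a ≠ b := by rintro rfl; exact hb hm.1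
    obtain ⟨w, a1, a2⟩ := (c.ft a).exists_iso
    refine ⟨hab, ?_⟩
    by_cases hσ : σ = RingHom.id F
    · obtain ⟨δ, a3, a4, a5⟩ := (c.ft a).exists_indep hk a1
      obtain ⟨y, a6, a7⟩ := hf.exists_orth_ne a1 a5
      have a8 := (c.one a).AA_sep hσ (hk' hσ) (h2 (h3 hm hb (xx f w w))) a1 a4 a5
      refine ⟨_, c.mem_L_swap hab (ρ := xx f w δ - xx f δ w) a1 a2 ?_, not_inC_of_sq _
        (fun h0 => a1 (by simpa [a6, a7] using LinearMap.congr_fun h0 y))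
        (by simp [mul_sub, sub_mul, xx_mul, a2, a3, a4, hf.comm a4])⟩
      simpa [nn_eq (c.one a).toTF (c.tp.inC_kap hab _), (c.one b).adj_kap, hf.adj_xx, smul_smul,
        hf.eps, mul_sub] using a8
    obtain ⟨μ, hμ⟩ := exists_not_fixed hσ
    have a3 := ((c.one a).AA_lam hk (h2 (h3 hm hb (μ • xx f w w)))).2 w a2
    refine ⟨_, c.mem_L_swap hab (ρ := (μ - σ μ) • xx f w w) a1 a2 ?_, not_inC_of_sq _
      (smul_ne_zero (sub_ne_zero.2 hμ.symm) (hf.xx_ne_zero a1 a1)) (by simp [xx_mul, a2])⟩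
    simpa [(c.one b).adj_kap, hf.adj_xx, (c.one a).hm.adj_smul, smul_smul, mul_left_comm ε, hf.eps,
      sub_smul, mul_sub, sub_mul] using a3)
    (fun n hn σ e a b ⟨m, hm, hb⟩ => ⟨_, lam_cj _ _ hn (e a) hm, fun H => hb (e.inC_iff.1 H)⟩)
    ⟨γ, hγ, hb⟩
  exact fun r hr => (c.one a).AA_lam hk (h2 (c.tp.mem_of_kap (fun x hx => by simpa) (h1 a) (· = a)
    (fun j hj => let ⟨m, hm, hb⟩ := h4 j hj; h3 hm hb) (by rintro _ rfl; exact hr)))

end FW

end Cfsg.Lib.Class.Wr
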