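import Cfsg.Agent.Class.TensBasic

/-!
Pairs of square-zero endomorphisms `t`, `s` in shear position: the decomposition
`V = (t s V + s t V) + (ker t s ∩ ker s t)`, a Sylow argument and a twisting argument.
-/

set_option autoImplicit false
set_option linter.unusedSectionVars false

namespace Cfsg.Lib.Class.Wr

open Module Submodule Tens
open LinearMap (range ker)

section Grp

theorem exists_conj_pgroup {G : Type*} [Group G] [Finite G] {p : ℕ} [Fact p.Prime] {a b : G}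
    (ha : a ^ p = 1) (hb : b ^ p = 1) :
    ∃ y ∈ Subgroup.closure ({a, b} : Set G), ∃ P : Subgroup G, IsPGroup p P ∧ y * a * y⁻¹ ∈ P ∧
      b ∈ P ∧ P ≤ Subgroup.closure ({a, b} : Set G) := by
  set Y := Subgroup.closure ({a, b} : Set G)
  have haY : a ∈ Y := Subgroup.subset_closure (by simp)
  have hbY : b ∈ Y := Subgroup.subset_closure (by simp)
  have key : ∀ c : Y, c ^ p = 1 → IsPGroup p (Subgroup.zpowers c) := fun c hc g => by
    obtain ⟨_, k, rfl⟩ := g
    refine ⟨1, Subtype.ext ?_⟩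
    change (c ^ k) ^ p ^ 1 = 1
    rw [pow_one, ← zpow_natCast, ← zpow_mul, mul_comm, zpow_mul, zpow_natCast, hc, one_zpow]
  obtain ⟨P₁, h₁⟩ := (key ⟨a, haY⟩ (Subtype.ext ha)).exists_le_sylow
  obtain ⟨P₂, h₂⟩ := (key ⟨b, hbY⟩ (Subtype.ext hb)).exists_le_sylow
  obtain ⟨y, hy⟩ := MulAction.exists_smul_eq Y P₁ P₂
  refine ⟨y, y.2, (P₂ : Subgroup Y).map Y.subtype, P₂.isPGroup'.map _, ?_,
    ⟨⟨b, hbY⟩, h₂ (Subgroup.mem_zpowers _), rfl⟩, Subgroup.map_subtype_le _⟩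
  refine ⟨y * ⟨a, haY⟩ * y⁻¹, ?_, rfl⟩
  rw [← hy, Sylow.coe_subgroup_smul]
  exact Subgroup.smul_mem_pointwise_smul _ (MulAut.conj y) _ (h₁ (Subgroup.mem_zpowers _))

end Grp

variable {F V : Type*} [Field F] [AddCommGroup V] [Module F V]

theorem exists_fixed_vec [Finite V] {p : ℕ} [Fact p.Prime] [CharP F p] {P : Subgroup (V ≃ₗ[F] V)}
    (hP : IsPGroup p P) {L : Submodule F V} (h0 : L ≠ ⊥) (hL : ∀ g ∈ P, ∀ v ∈ L, g v ∈ L) :
    ∃ v ∈ L, v ≠ 0 ∧ ∀ g ∈ P, g v = v := by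
  let : MulAction P L :=
    { smul := fun g x => ⟨g.1 x, hL g g.2 x x.2⟩
      one_smul := fun x => Subtype.ext rfl
      mul_smul := fun g h x => Subtype.ext rfl }
  have hd : p ∣ Nat.card L := by
    obtain ⟨w, hw, hw'⟩ := (Submodule.ne_bot_iff L).1 h0
    have h1 : addOrderOf (⟨w, hw⟩ : L) = p := by
      refine addOrderOf_eq_prime ?_ fun e => hw' (congrArg Subtype.val e)
      rw [← Nat.cast_smul_eq_nsmul F, CharP.cast_eq_zero, zero_smul]
    exact h1 ▸ addOrderOf_dvd_natCard _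
  obtain ⟨b, hb, hne⟩ := hP.exists_fixed_point_of_prime_dvd_card_of_fixed_point L hd (a := 0)
    fun g => Subtype.ext (map_zero g.1)
  exact ⟨b, b.2, fun e => hne (Subtype.ext e.symm), fun g hg => congrArg Subtype.val (hb ⟨g, hg⟩)⟩

theorem pow_apply_of_sq {x : V ≃ₗ[F] V} {t : End F V} (e : ∀ z, x z = z + t z) (h0 : t * t = 0)
    (n : ℕ) (z : V) : (x ^ n) z = z + (n : F) • t z := by
  induction n generalizing z with
  | zero => simp
  | succ n ih =>
    have := LinearMap.congr_fun h0 z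
    rw [End.mul_apply, LinearMap.zero_apply] at this
    rw [pow_succ', LinearEquiv.mul_apply, ih, e, map_add, map_smul, this]
    push_cast
    module

theorem pow_char_of_sq {p : ℕ} [CharP F p] {x : V ≃ₗ[F] V} {t : End F V}
    (e : ∀ z, x z = z + t z) (h0 : t * t = 0) : x ^ p = 1 := by
  ext z
  simp [pow_apply_of_sq e h0]

/-- Two square-zero maps of the same rank in shear position. -/
structure Shear (t s : End F V) : Prop where
  tt : t * t = 0
  ss : s * s = 0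
  rk : finrank F (range t) = finrank F (range s)
  h1 : ∀ v ∈ range t, s v ∈ range t → v ∈ range s
  h2 : ∀ v ∈ range s, t v ∈ range s → v ∈ range t

/-- The part of the space on which the pair acts like two opposite root elements. -/
def shL (t s : End F V) : Submodule F V := range (t * s) ⊔ range (s * t)

/-- The part of the space on which the pair generates a square-zero algebra. -/
def shV (t s : End F V) : Submodule F V := ker (t * s) ⊓ ker (s * t)

theorem shL_comm (t s : End F V) : shL t s = shL s t := sup_comm _ _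

theorem shV_comm (t s : End F V) : shV t s = shV s t := inf_comm _ _

theorem mem_shL {t s : End F V} {v : V} :
    v ∈ shL t s ↔ ∃ a ∈ range (t * s), ∃ b ∈ range (s * t), a + b = v := Submodule.mem_sup

theorem mem_shV {t s : End F V} {v : V} : v ∈ shV t s ↔ t (s v) = 0 ∧ s (t v) = 0 := Iff.rfl

theorem range_mul_le (t s : End F V) : range (t * s) ≤ range t := by
  rintro _ ⟨v, rfl⟩; exact ⟨s v, rfl⟩

namespace Shear

variable {t s : End F V} (h : Shear t s)
include h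

theorem symm : Shear s t := ⟨h.ss, h.tt, h.rk.symm, h.h2, h.h1⟩

theorem t_range {v : V} (hv : v ∈ range t) : t v = 0 := by
  obtain ⟨u, rfl⟩ := hv
  exact LinearMap.congr_fun h.tt u

theorem s_range {v : V} (hv : v ∈ range s) : s v = 0 := h.symm.t_range hv

theorem ker1 {v : V} (hv : v ∈ range t) (h0 : s v = 0) : v ∈ range s :=
  h.h1 v hv (h0 ▸ zero_mem _)

theorem eq_zero_of_D {v : V} (hv : v ∈ range (t * s)) (h0 : s v = 0) : v = 0 := by
  have h1 := h.ker1 (range_mul_le _ _ hv) h0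
  obtain ⟨u, rfl⟩ := hv
  exact h.t_range (h.h2 _ ⟨u, rfl⟩ h1)

theorem eq_zero_of_L {v : V} (hv : v ∈ shL t s) (h0 : t v = 0) (h1 : s v = 0) : v = 0 := by
  obtain ⟨a, ha, b, hb, rfl⟩ := mem_shL.1 hv
  rw [map_add, h.t_range (range_mul_le _ _ ha), zero_add] at h0
  rw [map_add, h.s_range (range_mul_le _ _ hb), add_zero] at h1
  rw [h.eq_zero_of_D ha h1, h.symm.eq_zero_of_D hb h0, add_zero]

theorem mem_D_of_L {v : V} (hv : v ∈ shL t s) (h0 : t v = 0) : v ∈ range (t * s) := by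
  obtain ⟨a, ha, b, hb, rfl⟩ := mem_shL.1 hv
  rw [map_add, h.t_range (range_mul_le _ _ ha), zero_add] at h0
  rwa [h.symm.eq_zero_of_D hb h0, add_zero]

theorem t_mem_D {v : V} (hv : v ∈ shL t s) : t v ∈ range (t * s) := by
  obtain ⟨a, ha, _, ⟨b, rfl⟩, rfl⟩ := mem_shL.1 hv
  rw [map_add, h.t_range (range_mul_le _ _ ha), zero_add]
  exact ⟨t b, rfl⟩

theorem s_mem_D {v : V} (hv : v ∈ shL t s) : s v ∈ range (s * t) :=
  h.symm.t_mem_D (shL_comm t s ▸ hv)

theorem eq_zero_of_LV {v : V} (hv : v ∈ shL t s) (h0 : v ∈ shV t s) : v = 0 :=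
  h.eq_zero_of_L hv (h.eq_zero_of_D (h.t_mem_D hv) h0.2)
    (h.symm.eq_zero_of_D (h.s_mem_D hv) h0.1)

theorem t_mem_J {v : V} (hv : v ∈ shV t s) : t v ∈ range t ⊓ range s :=
  ⟨⟨v, rfl⟩, h.ker1 ⟨v, rfl⟩ hv.2⟩

theorem s_mem_J {v : V} (hv : v ∈ shV t s) : s v ∈ range t ⊓ range s :=
  ⟨h.symm.ker1 ⟨v, rfl⟩ hv.1, ⟨v, rfl⟩⟩

theorem J_le : range t ⊓ range s ≤ shV t s := fun _ hv =>
  mem_shV.2 ⟨by rw [h.s_range hv.2, map_zero], by rw [h.t_range hv.1, map_zero]⟩

theorem D_le_L : range (t * s) ≤ shL t s := le_sup_left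

theorem D'_le_L : range (s * t) ≤ shL t s := le_sup_right

variable [FiniteDimensional F V]

theorem dec_s {v : V} (hv : v ∈ range s) :
    ∃ j ∈ range t ⊓ range s, ∃ b ∈ range (s * t), j + b = v := by
  have h1 := LinearMap.finrank_range_add_finrank_ker (s.domRestrict (range t))
  have e1 : range (s.domRestrict (range t)) = range (s * t) := by
    rw [LinearMap.range_domRestrict, End.mul_eq_comp, LinearMap.range_comp]
  have e2 : finrank F (ker (s.domRestrict (range t))) = finrank F ↥(range t ⊓ range s) := by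
    rw [← Submodule.finrank_map_subtype_eq, LinearMap.ker_domRestrict, Submodule.map_comap_subtype,
      show range t ⊓ ker s = range t ⊓ range s from
        le_antisymm (fun v hv => ⟨hv.1, h.ker1 hv.1 hv.2⟩) fun v hv => ⟨hv.1, h.s_range hv.2⟩]
  have e3 : (range t ⊓ range s) ⊓ range (s * t) = ⊥ :=
    (Submodule.eq_bot_iff _).2 fun v hv => h.symm.eq_zero_of_D hv.2 (h.t_range hv.1.1)
  have h2 := Submodule.finrank_sup_add_finrank_inf_eq (range t ⊓ range s) (range (s * t))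
  rw [e3, finrank_bot] at h2
  rw [e1, e2] at h1
  have h3 : (range t ⊓ range s) ⊔ range (s * t) = range s :=
    Submodule.eq_of_le_of_finrank_le (sup_le inf_le_right (range_mul_le _ _))
      (by have := h.rk; omega)
  exact Submodule.mem_sup.1 (h3.ge hv)

theorem dec_t {v : V} (hv : v ∈ range t) :
    ∃ j ∈ range t ⊓ range s, ∃ b ∈ range (t * s), j + b = v := by
  simpa only [inf_comm] using h.symm.dec_s hv

theorem exists_s_eq {b : V} (hb : b ∈ range (s * t)) : ∃ a ∈ range (t * s), s a = b := by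
  obtain ⟨v, rfl⟩ := hb
  obtain ⟨j, hj, a, ha, e⟩ := h.dec_t ⟨v, rfl⟩
  exact ⟨a, ha, by rw [End.mul_apply, ← e, map_add, h.s_range hj.2, zero_add]⟩

theorem exists_t_eq {a : V} (ha : a ∈ range (t * s)) : ∃ b ∈ range (s * t), t b = a :=
  h.symm.exists_s_eq ha

theorem dec (v : V) : ∃ a ∈ range (t * s), ∃ b ∈ range (s * t), ∃ c ∈ shV t s, v = a + b + c := by
  obtain ⟨b₁, hb₁, e₁⟩ := h.exists_t_eq (a := t (s v)) ⟨v, rfl⟩
  obtain ⟨a, ha, rfl⟩ := h.exists_s_eq hb₁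
  obtain ⟨a₁, ha₁, e₂⟩ := h.exists_s_eq (b := s (t v)) ⟨v, rfl⟩
  obtain ⟨b, hb, rfl⟩ := h.exists_t_eq ha₁
  refine ⟨a, ha, b, hb, v - a - b, ⟨?_, ?_⟩, by abel⟩
  · simp [e₁, h.s_range (range_mul_le _ _ hb)]
  · simp [e₂, h.t_range (range_mul_le _ _ ha)]

theorem dec' (v : V) : ∃ l ∈ shL t s, ∃ c ∈ shV t s, v = l + c := by
  obtain ⟨a, ha, b, hb, c, hc, e⟩ := h.dec v
  exact ⟨a + b, add_mem (h.D_le_L ha) (h.D'_le_L hb), c, hc, e⟩

theorem exists_t_eq_J {j : V} (hj : j ∈ range t ⊓ range s) : ∃ c ∈ shV t s, t c = j := by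
  obtain ⟨v, rfl⟩ := hj.1
  obtain ⟨l, hl, c, hc, rfl⟩ := h.dec' v
  refine ⟨c, hc, ?_⟩
  rw [map_add] at hj ⊢
  have : t l ∈ range t ⊓ range s := (add_mem_cancel_right (h.t_mem_J hc)).1 hj
  rw [h.eq_zero_of_D (h.t_mem_D hl) (h.s_range this.2), zero_add]

theorem mem_D_of_range {v : V} (hv : v ∈ range t) (hL : v ∈ shL t s) : v ∈ range (t * s) :=
  h.mem_D_of_L hL (h.t_range hv)

/-- The kernel of `t` is the sum of its parts in the two summands. -/
theorem dec_ker {v : V} (hv : t v = 0) :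
    ∃ a ∈ range (t * s), ∃ c ∈ shV t s, t c = 0 ∧ v = a + c := by
  obtain ⟨l, hl, c, hc, rfl⟩ := h.dec' v
  rw [map_add] at hv
  have h1 : t l = 0 := h.eq_zero_of_D (h.t_mem_D hl) (by
    rw [eq_neg_of_add_eq_zero_left hv, map_neg, (mem_shV.1 hc).2, neg_zero])
  rw [h1, zero_add] at hv
  exact ⟨l, h.mem_D_of_L hl h1, c, hc, hv, rfl⟩

theorem D_ne_bot (hne : range t ≠ range s) : range (t * s) ≠ ⊥ := fun h0 => by
  refine hne (Submodule.eq_of_le_of_finrank_le (fun v hv => ?_) h.rk.ge)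
  obtain ⟨j, hj, a, ha, rfl⟩ := h.dec_t hv
  rw [h0, Submodule.mem_bot] at ha
  rw [ha, add_zero]
  exact hj.2

end Shear

/-- The automorphisms compatible with the decomposition attached to a shear pair. -/
def shG [FiniteDimensional F V] (t s : End F V) : Subgroup (V ≃ₗ[F] V) where
  carrier := {y | (∀ v ∈ shL t s, y v ∈ shL t s) ∧ (∀ v ∈ shV t s, y v - v ∈ range t ⊓ range s) ∧
    ∀ j ∈ range t ⊓ range s, y j = j}
  one_mem' := ⟨fun _ hv => hv, fun v _ => by simp, fun _ _ => rfl⟩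
  mul_mem' := by
    rintro x y ⟨h1, h2, h3⟩ ⟨k1, k2, k3⟩
    refine ⟨fun v hv => h1 _ (k1 v hv), fun v hv => ?_, fun j hj => ?_⟩
    · have : (x * y) v - v = (y v - v) + (x v - v) := by
        rw [← h3 _ (k2 v hv), map_sub, LinearEquiv.mul_apply]; abel
      exact this ▸ add_mem (k2 v hv) (h2 v hv)
    · rw [LinearEquiv.mul_apply, k3 j hj, h3 j hj]
  inv_mem' := by
    rintro x ⟨h1, h2, h3⟩
    have h4 : ∀ j ∈ range t ⊓ range s, x⁻¹ j = j := fun j hj => by
      conv_lhs => rw [← h3 j hj]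
      exact x.symm_apply_apply j
    refine ⟨fun v hv => ?_, fun v hv => ?_, h4⟩
    · have := FE.im_eq_of_le h1
      rw [← this] at hv
      obtain ⟨u, hu, rfl⟩ := hv
      simpa using hu
    · have : x⁻¹ v - v = -(x v - v) := by
        rw [← h4 _ (h2 v hv), map_sub]
        simp
      exact this ▸ neg_mem (h2 v hv)

theorem shG_comm [FiniteDimensional F V] (t s : End F V) : shG t s = shG s t := by
  ext y
  change (_ ∧ _ ∧ _) ↔ (_ ∧ _ ∧ _)
  rw [shL_comm, shV_comm, inf_comm]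

namespace Shear

variable [FiniteDimensional F V] {t s : End F V} (h : Shear t s)
include h

theorem mem_shG_t {x : V ≃ₗ[F] V} {c : F} (e : ∀ z, x z = z + (c • t) z) : x ∈ shG t s :=
  ⟨fun v hv => by rw [e]; exact add_mem hv (smul_mem _ _ (h.D_le_L (h.t_mem_D hv))),
    fun v hv => by rw [e, add_sub_cancel_left]; exact smul_mem _ _ (h.t_mem_J hv),
    fun j hj => by rw [e, LinearMap.smul_apply, h.t_range hj.1, smul_zero, add_zero]⟩

theorem mem_shG_s {x : V ≃ₗ[F] V} {c : F} (e : ∀ z, x z = z + (c • s) z) : x ∈ shG t s :=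
  shG_comm s t ▸ h.symm.mem_shG_t e

theorem closure_le {x₁ x₂ : V ≃ₗ[F] V} (e₁ : ∀ z, x₁ z = z + t z) (e₂ : ∀ z, x₂ z = z + s z) :
    Subgroup.closure {x₁, x₂} ≤ shG t s := by
  rw [Subgroup.closure_le]
  rintro x (rfl | rfl)
  · exact h.mem_shG_t (c := 1) (by simpa using e₁)
  · exact h.mem_shG_s (c := 1) (by simpa using e₂)

theorem apply_mem_V {y : V ≃ₗ[F] V} (hy : y ∈ shG t s) {v : V} (hv : v ∈ shV t s) :
    y v ∈ shV t s := by
  simpa using add_mem (h.J_le (hy.2.1 v hv)) hv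

/-- On the second summand conjugation by a compatible automorphism does not change `t`. -/
theorem conj_t_V {y : V ≃ₗ[F] V} (hy : y ∈ shG t s) {v : V} (hv : v ∈ shV t s) :
    y (t (y⁻¹ v)) = t v := by
  have h1 := ((shG t s).inv_mem hy).2.1 v hv
  have : t (y⁻¹ v) = t v := by rw [← sub_eq_zero, ← map_sub, h.t_range h1.1]
  rw [this, hy.2.2 _ (h.t_mem_J hv)]

/-- The Sylow step: some conjugate of `range t` meets `range s` in more than `range t` does. -/
theorem exists_sylow [Finite V] {p : ℕ} [Fact p.Prime] [CharP F p] (hne : range t ≠ range s)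
    {x₁ x₂ : V ≃ₗ[F] V} (e₁ : ∀ z, x₁ z = z + t z) (e₂ : ∀ z, x₂ z = z + s z) :
    ∃ y ∈ Subgroup.closure {x₁, x₂}, ∃ v ∈ range (s * t), v ≠ 0 ∧ y⁻¹ v ∈ range (t * s) := by
  have : Finite (V ≃ₗ[F] V) := Finite.of_injective _ DFunLike.coe_injective
  obtain ⟨y, hy, P, hP, h1, h2, h3⟩ :=
    exists_conj_pgroup (pow_char_of_sq (p := p) e₁ h.tt) (pow_char_of_sq (p := p) e₂ h.ss)
  have hle := h.closure_le e₁ e₂
  obtain ⟨v, hv, hv0, hfix⟩ := exists_fixed_vec hP (L := shL t s)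
    (fun h0 => h.D_ne_bot hne (le_bot_iff.1 (h0 ▸ h.D_le_L))) fun g hg => (hle (h3 hg)).1
  refine ⟨y, hy, v, h.symm.mem_D_of_L (shL_comm t s ▸ hv) ?_, hv0,
    h.mem_D_of_L (((shG t s).inv_mem (hle hy)).1 v hv) ?_⟩
  · simpa [e₂] using hfix _ h2
  · simpa [e₁] using hfix _ h1

/-- The twisting map: the identity on `t s V` and on the second summand, `c` on `s t V`. -/
theorem exists_twist (c : F) : ∃ δ : End F V, (∀ a ∈ range (t * s), δ a = a) ∧
    (∀ b ∈ range (s * t), δ b = c • b) ∧ ∀ v ∈ shV t s, δ v = v := by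
  have hc : IsCompl (range (s * t)) (range (t * s) ⊔ shV t s) := by
    refine ⟨Submodule.disjoint_def.2 fun b hb hb' => ?_, codisjoint_iff.2 (eq_top_iff.2 fun v _ => ?_)⟩
    · obtain ⟨a, ha, v, hv, rfl⟩ := Submodule.mem_sup.1 hb'
      have : v = 0 := h.eq_zero_of_LV (by simpa using sub_mem (h.D'_le_L hb) (h.D_le_L ha)) hv
      rw [this, add_zero] at hb ⊢
      exact h.eq_zero_of_D ha (h.s_range (range_mul_le _ _ hb))
    · obtain ⟨a, ha, b, hb, c, hc, rfl⟩ := h.dec v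
      exact add_mem (add_mem (mem_sup_right (mem_sup_left ha)) (mem_sup_left hb))
        (mem_sup_right (mem_sup_right hc))
  refine ⟨LinearMap.ofIsCompl hc (c • (range (s * t)).subtype) (Submodule.subtype _),
    fun a ha => ?_, fun b hb => ?_, fun v hv => ?_⟩
  · exact LinearMap.ofIsCompl_apply_right hc ⟨a, mem_sup_left ha⟩
  · exact LinearMap.ofIsCompl_apply_left hc ⟨b, hb⟩
  · exact LinearMap.ofIsCompl_apply_right hc ⟨v, mem_sup_right hv⟩

/-- Every word in `1 + t`, `1 + s` has a twisted version inside `X`. -/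
theorem exists_twisted {X : Subgroup (V ≃ₗ[F] V)} {c : F} (hc : c ≠ 0) (h1 : UIn X (c⁻¹ • t))
    (h2 : UIn X (c • s)) {δ : End F V} (d1 : ∀ a ∈ range (t * s), δ a = a)
    (d2 : ∀ b ∈ range (s * t), δ b = c • b) {x₁ x₂ : V ≃ₗ[F] V} (e₁ : ∀ z, x₁ z = z + t z)
    (e₂ : ∀ z, x₂ z = z + s z) {y : V ≃ₗ[F] V} (hy : y ∈ Subgroup.closure {x₁, x₂}) :
    ∃ y' ∈ X, y' ∈ shG t s ∧ ∀ v ∈ shL t s, y' (δ v) = δ (y v) := by
  have k1 : ∀ (ε : F) (x : V ≃ₗ[F] V), (∀ z, x z = z + ε • t z) → UIn X (ε • c⁻¹ • t) →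
      ∃ y' ∈ X, y' ∈ shG t s ∧ ∀ v ∈ shL t s, y' (δ v) = δ (x v) := by
    rintro ε x ex ⟨g, hg, e⟩
    refine ⟨g, hg, h.mem_shG_t (c := ε * c⁻¹) (by simpa [mul_smul] using e), fun v hv => ?_⟩
    have := h.t_mem_D hv
    obtain ⟨a, ha, b, hb, rfl⟩ := mem_shL.1 hv
    have h0 := h.t_range (range_mul_le _ _ ha)
    rw [map_add, h0, zero_add] at this
    simp [e, ex, d1 a ha, d2 b hb, h0, d1 _ this, smul_smul, hc]
  have k2 : ∀ (ε : F) (x : V ≃ₗ[F] V), (∀ z, x z = z + ε • s z) → UIn X (ε • c • s) →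
      ∃ y' ∈ X, y' ∈ shG t s ∧ ∀ v ∈ shL t s, y' (δ v) = δ (x v) := by
    rintro ε x ex ⟨g, hg, e⟩
    refine ⟨g, hg, h.mem_shG_s (c := ε * c) (by simpa [mul_smul] using e), fun v hv => ?_⟩
    have := h.s_mem_D hv
    obtain ⟨a, ha, b, hb, rfl⟩ := mem_shL.1 hv
    have h0 := h.s_range (range_mul_le _ _ hb)
    rw [map_add, h0, add_zero] at this
    simp [e, ex, d1 a ha, d2 b hb, h0, d2 _ this, smul_smul, mul_comm]
  have n1 : UIn X ((-1 : F) • c⁻¹ • t) := by
    simpa using h1.neg (by rw [smul_mul_smul_comm, h.tt, smul_zero])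
  have n2 : UIn X ((-1 : F) • c • s) := by
    simpa using h2.neg (by rw [smul_mul_smul_comm, h.ss, smul_zero])
  induction hy using Subgroup.closure_induction'' with
  | mem x hx =>
    rcases hx with rfl | rfl
    · exact k1 1 _ (by simpa using e₁) (by simpa using h1)
    · exact k2 1 _ (by simpa using e₂) (by simpa using h2)
  | inv_mem x hx =>
    rcases hx with rfl | rfl
    · exact k1 (-1) _ (fun z => by rw [inv_apply_of_sq e₁ h.tt]; module) n1
    · exact k2 (-1) _ (fun z => by rw [inv_apply_of_sq e₂ h.ss]; module) n2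
  | one => exact ⟨1, X.one_mem, one_mem _, fun _ _ => rfl⟩
  | mul x y _ hy ihx ihy =>
    obtain ⟨x', hx', kx, ex⟩ := ihx
    obtain ⟨y', hy', ky, ey⟩ := ihy
    refine ⟨x' * y', X.mul_mem hx' hy', mul_mem kx ky, fun v hv => ?_⟩
    rw [LinearEquiv.mul_apply, ey v hv, ex _ ((h.closure_le e₁ e₂ hy).1 v hv)]
    rfl

/-- If a word in `1 + t`, `1 + s` maps `range t` into `range s`, then `X` contains an element
acting as the scalars `c` and `c⁻¹` on the two layers of the first summand. -/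
theorem exists_torus {X : Subgroup (V ≃ₗ[F] V)} {x₁ x₂ : V ≃ₗ[F] V} (hx₁ : x₁ ∈ X)
    (hx₂ : x₂ ∈ X) (e₁ : ∀ z, x₁ z = z + t z) (e₂ : ∀ z, x₂ z = z + s z) {y : V ≃ₗ[F] V}
    (hy : y ∈ Subgroup.closure {x₁, x₂}) (hI : ∀ v ∈ range t, y v ∈ range s) :
    ∃ ω : End F V, (∀ b ∈ range (s * t), ω b ∈ range (t * s)) ∧
      ∀ c : F, c ≠ 0 → UIn X (c⁻¹ • t) → UIn X (c • s) → ∃ g ∈ X, g ∈ shG t s ∧
        (∀ a ∈ range (t * s), g a = c • a) ∧
        ∀ b ∈ range (s * t), g b = c⁻¹ • b + (1 - c⁻¹) • ω b := by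
  have hG := h.closure_le e₁ e₂ hy
  have hX : y ∈ X := (Subgroup.closure_le X).2 (by rintro _ (rfl | rfl) <;> assumption) hy
  have hD : ∀ a ∈ range (t * s), y a ∈ range (s * t) := fun a ha =>
    h.symm.mem_D_of_range (hI a (range_mul_le _ _ ha)) (shL_comm t s ▸ hG.1 a (h.D_le_L ha))
  have hD' : ∀ b ∈ range (s * t), y⁻¹ b ∈ range (t * s) := fun b hb => by
    have h1 : (range t).map (y : End F V) = range s :=
      Submodule.eq_of_le_of_finrank_le (by rintro _ ⟨v, hv, rfl⟩; exact hI v hv)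
        (by rw [LinearEquiv.finrank_map_eq, h.rk])
    obtain ⟨v, hv, e⟩ : b ∈ (range t).map (y : End F V) := h1 ▸ range_mul_le _ _ hb
    refine h.mem_D_of_range ?_ (((shG t s).inv_mem hG).1 b (h.D'_le_L hb))
    rw [← e]
    simpa using hv
  obtain ⟨π, p1, p2, -⟩ := h.exists_twist 0
  have hπ : ∀ v ∈ shL t s, v - π v ∈ range (s * t) ∧ π v ∈ range (t * s) := fun v hv => by
    obtain ⟨a, ha, b, hb, rfl⟩ := mem_shL.1 hv
    simp [p1 a ha, p2 b hb, ha, hb]
  refine ⟨(y⁻¹ : V ≃ₗ[F] V) ∘ₗ (1 - π) ∘ₗ (y : End F V), fun b hb => ?_, fun c hc h1 h2 => ?_⟩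
  · exact hD' _ (hπ _ (hG.1 b (h.D'_le_L hb))).1
  obtain ⟨δ, d1, d2, -⟩ := h.exists_twist c
  obtain ⟨y', hy', ky, ey⟩ := h.exists_twisted hc h1 h2 d1 d2 e₁ e₂ hy
  refine ⟨y⁻¹ * y', X.mul_mem (X.inv_mem hX) hy', mul_mem (inv_mem hG) ky, fun a ha => ?_,
    fun b hb => ?_⟩
  · have := ey a (h.D_le_L ha)
    rw [d1 a ha, d2 _ (hD a ha)] at this
    simp [this]
  · have h3 := ey b (h.D'_le_L hb)
    obtain ⟨h4, h5⟩ := hπ _ (hG.1 b (h.D'_le_L hb))
    have h6 : δ (y b) = π (y b) + c • (y b - π (y b)) := by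
      rw [← d2 _ h4, ← d1 _ h5, ← map_add, d1 _ h5]
      congr 1
      abel
    rw [d2 b hb, map_smul, h6] at h3
    have h7 : y' b = c⁻¹ • y b + (1 - c⁻¹) • (y b - π (y b)) := by
      rw [← one_smul F (y' b), ← inv_mul_cancel₀ hc, mul_smul, h3, smul_add, smul_smul,
        inv_mul_cancel₀ hc]
      module
    simp [h7]

end Shear

end Cfsg.Lib.Class.Wr
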