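import Cfsg.Agent.Class.Wr.GlobB
import Cfsg.Agent.Class.Tens.Local

/-!
Tensor powers as families of commuting factor algebras; rings normalised by all factor groups.
-/

set_option autoImplicit false
set_option linter.unusedSectionVars false

namespace Cfsg.Lib.Class.Wr

open Module Submodule Tens Tn FE AO
open LinearMap (range ker)

variable {F U W V : Type*} [Field F] [AddCommGroup U] [Module F U] [AddCommGroup W] [Module F W]
  [AddCommGroup V] [Module F V]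

/-- The rank one map `y ↦ φ y • w`. -/
def rk (w : W) (φ : Dual F W) : End F W := φ.smulRight w

@[simp] theorem rk_apply (w : W) (φ : Dual F W) (y : W) : rk w φ y = φ y • w := rfl

theorem rk_mul (w γ : W) (φ ψ : Dual F W) : rk w φ * rk γ ψ = φ γ • rk w ψ := by
  ext y; simp [smul_smul, mul_comm]

theorem rk_add_left (w γ : W) (φ : Dual F W) : rk (w + γ) φ = rk w φ + rk γ φ := by ext; simp

theorem rk_add_right (w : W) (φ ψ : Dual F W) : rk w (φ + ψ) = rk w φ + rk w ψ := by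
  ext; simp [add_smul]

theorem rk_smul_left (c : F) (w : W) (φ : Dual F W) : rk (c • w) φ = c • rk w φ := by
  ext; simp [smul_smul, mul_comm]

theorem rk_smul_right (c : F) (w : W) (φ : Dual F W) : rk w (c • φ) = c • rk w φ := by
  ext; simp [smul_smul]

theorem rk_ne_zero {w : W} {φ : Dual F W} (hw : w ≠ 0) (hφ : φ ≠ 0) : rk w φ ≠ 0 := fun h => by
  obtain ⟨y, hy⟩ := Tens.exists_apply_eq hφ 1
  simpa [hy, hw] using LinearMap.congr_fun h y

theorem cj_rk (g : W ≃ₗ[F] W) (w : W) (φ : Dual F W) :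
    cj g (rk w φ) = rk (g w) (φ ∘ₗ (g⁻¹ : W ≃ₗ[F] W)) := by ext; simp

theorem sum_rk {ι : Type*} [Fintype ι] (b : Basis ι F W) : ∑ i, rk (b i) (b.coord i) = 1 := by
  ext y; simp [b.sum_repr]

theorem eq_top_of_rk [FiniteDimensional F W] {S : Submodule F (End F W)}
    (h : ∀ w φ, rk w φ ∈ S) : S = ⊤ := eq_top_iff.2 fun x _ => by
  rw [← mul_one x, ← sum_rk (finBasis F W), Finset.mul_sum]
  exact S.sum_mem fun i _ => by
    convert h (x (finBasis F W i)) ((finBasis F W).coord i) using 1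
    ext; simp

theorem cj_eq_mul (g : V ≃ₗ[F] V) (a : End F V) :
    cj g a = (g : End F V) * a * ((g⁻¹ : V ≃ₗ[F] V) : End F V) := rfl

theorem cj_eq_self {g : V ≃ₗ[F] V} {a : End F V} (e : (g : End F V) * a = a * g) :
    cj g a = a := by
  ext v
  simpa using LinearMap.congr_fun e (g⁻¹ v)

section One

variable {T T' : U →ₗ[F] W →ₗ[F] V} {m x : End F V}

theorem InC.zero : InC T 0 := ⟨0, by simp⟩

theorem InC.neg (h : InC T m) : InC T (-m) := by simpa using InC.zero.sub h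

theorem InE.zero : InE T 0 := ⟨0, by simp⟩

theorem InE.neg (h : InE T m) : InE T (-m) := by simpa using InE.zero.sub h

theorem inC_smul_one (c : F) : InC T (c • 1) := inC_one.smul c

variable (h : IsTens T)

/-- The embedding of the endomorphisms of the second factor. -/
noncomputable def kap : End F W →ₐ[F] End F V := h.inR

theorem kap_eq (b : End F W) : kap h b = h.mp 1 b := rfl

@[simp] theorem kap_apply (b : End F W) (u : U) (y : W) : kap h b (T u y) = T u (b y) := by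
  simp [kap_eq]

theorem inE_kap (b : End F W) : InE T (kap h b) := ⟨b, kap_apply h b⟩

theorem InE.exists_kap (ha : InE T x) : ∃ b, x = kap h b := (inE_iff h).1 ha

theorem InC.comm_kap (hm : InC T m) (b : End F W) : kap h b * m = m * kap h b :=
  (inE_kap h b).comm h hm

theorem kap_ne_zero [Nontrivial U] {b : End F W} (hb : b ≠ 0) : kap h b ≠ 0 := fun e => by
  obtain ⟨u, hu⟩ := exists_ne (0 : U)
  exact hb (LinearMap.ext fun y => by
    simpa [h.eq_zero_iff, hu] using LinearMap.congr_fun e (T u y))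

theorem InC.eq_zero_of_mul [Nontrivial U] (hm : InC T m) {b : End F W} (hb : b ≠ 0)
    (e : m * kap h b = 0) : m = 0 :=
  (inE_kap h b).eq_zero h hm (kap_ne_zero h hb) (by rw [hm.comm_kap h, e])

theorem mul_kap_mul (hx : InC T x) (m : End F V) (b c : End F W) :
    m * kap h b * (x * kap h c) = m * x * kap h (b * c) := by
  rw [map_mul, mul_assoc m, ← mul_assoc _ x, hx.comm_kap h]
  simp only [mul_assoc]

theorem scalar_of_inC_kap [Nontrivial U] {b : End F W} (hb : InC T (kap h b)) :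
    ∃ c : F, b = c • 1 := by
  obtain ⟨a, e⟩ := hb
  obtain ⟨u, hu⟩ := exists_ne (0 : U)
  obtain ⟨ξ, hξ⟩ := Projective.exists_dual_eq_one F hu
  exact ⟨ξ (a u), LinearMap.ext fun y => by simpa [hξ] using congrArg (h.cL ξ) (e u y)⟩

include h in
/-- `m ⊗ b` can only be in the second factor if `m` is a scalar. -/
theorem InC.scalar_of_apply (hm : InC T m) {y w : W} (hw : w ≠ 0) (hx : InE T x)
    (e : ∀ u, x (T u y) = m (T u w)) : ∃ c : F, m = c • 1 := by
  obtain ⟨a, ha⟩ := hm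
  obtain ⟨b, hb⟩ := hx
  obtain ⟨φ, hφ⟩ := Projective.exists_dual_eq_one F hw
  refine ⟨φ (b y), h.ext fun u z => ?_⟩
  have := congrArg (h.cR φ) (e u)
  simp only [ha, hb, IsTens.cR_apply, hφ, one_smul] at this
  simp [ha, ← this]

/-- The factor group element `1 ⊗ g`. -/
noncomputable def ug (g : W ≃ₗ[F] W) : V ≃ₗ[F] V := h.mpE 1 g

@[simp] theorem ug_apply (g : W ≃ₗ[F] W) (u : U) (y : W) : ug h g (T u y) = T u (g y) := by
  simp [ug]

theorem ug_inv (g : W ≃ₗ[F] W) : (ug h g)⁻¹ = ug h g⁻¹ := by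
  rw [ug, h.mpE_inv, inv_one, ug]

theorem coe_ug (g : W ≃ₗ[F] W) : (ug h g : End F V) = kap h g := h.ext fun u y => by simp

theorem ug_mem (g : W ≃ₗ[F] W) : ug h g ∈ tensG T := h.mpE_mem _ _

theorem cj_ug_kap (g : W ≃ₗ[F] W) (b : End F W) : cj (ug h g) (kap h b) = kap h (cj g b) :=
  h.ext fun u y => by simp [ug_inv]

theorem InC.cj_ug (hm : InC T m) (g : W ≃ₗ[F] W) : Wr.cj (ug h g) m = m :=
  cj_eq_self (by rw [coe_ug, hm.comm_kap])

theorem uIn_of_ug {X : Subgroup (V ≃ₗ[F] V)} {g : W ≃ₗ[F] W} (hg : ug h g ∈ X) {b : End F W}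
    (e : ∀ y, g y = y + b y) : UIn X (kap h b) :=
  ⟨_, hg, h.ind (by simp) (fun u v hu hv => by simp only [map_add, hu, hv]; abel)
    fun u y => by simp [e]⟩

theorem cj_ug_of_sq {g : W ≃ₗ[F] W} {b : End F W} (e : ∀ y, g y = y + b y) (h0 : b * b = 0)
    (x : End F V) : cj (ug h g) x = (1 + kap h b) * x * (1 - kap h b) :=
  cj_eq_of_sq (h.ind (by simp) (fun u v hu hv => by simp only [map_add, hu, hv]; abel)
    fun u y => by simp [e]) (by rw [← map_mul, h0, map_zero]) x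

/-- A matrix coefficient of `x` in the first factor. -/
noncomputable def cp (φ : Dual F W) (w : W) (x : End F V) : End F V :=
  h.mp (h.cR φ ∘ₗ x ∘ₗ T.flip w) 1

theorem inC_cp (φ : Dual F W) (w : W) (x : End F V) : InC T (cp h φ w x) := inC_mp h _

theorem cp_apply (φ : Dual F W) (w : W) (x : End F V) (u : U) (y : W) :
    cp h φ w x (T u y) = T (h.cR φ (x (T u w))) y := by simp [cp]

theorem kap_mul_mul (φ ψ : Dual F W) (w γ : W) (x : End F V) :
    kap h (rk γ φ) * x * kap h (rk w ψ) = cp h φ w x * kap h (rk γ ψ) :=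
  h.ext fun u y => by simp [cp_apply, kap_eq, rk, h.mp_smulRight']

variable [FiniteDimensional F U] [FiniteDimensional F W]

theorem ind_cp {P : End F V → Prop} (h0 : P 0) (hadd : ∀ x y, P x → P y → P (x + y))
    (H : ∀ φ w γ ψ, P (cp h φ w x * kap h (rk γ ψ))) : P x := by
  classical
  have h1 := congrArg (kap h) (sum_rk (finBasis F W))
  rw [map_one, map_sum] at h1
  have h2 : x = ∑ i, ∑ j, kap h (rk (finBasis F W i) ((finBasis F W).coord i)) * x *
      kap h (rk (finBasis F W j) ((finBasis F W).coord j)) := by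
    simp only [← Finset.mul_sum, ← Finset.sum_mul, h1, one_mul, mul_one]
  rw [h2]
  refine Finset.sum_induction _ P hadd h0 fun i _ => Finset.sum_induction _ P hadd h0 fun j _ => ?_
  rw [kap_mul_mul]
  exact H _ _ _ _

theorem inC_of_cp [Nontrivial W] {D : W → Dual F W → Prop}
    (hD : ∀ b : End F W, (∀ w φ, D w φ → φ (b w) = 0) → ∃ c : F, b = c • 1)
    (hx : ∀ w φ, D w φ → cp h φ w x = 0) : InC T x := by
  obtain ⟨w₀, hw⟩ := exists_ne (0 : W)
  obtain ⟨η, hη⟩ := Projective.exists_dual_eq_one F hw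
  refine ⟨h.cR η ∘ₗ x ∘ₗ T.flip w₀, fun u y => h.eq_of_cL fun ξ => ?_⟩
  obtain ⟨c, hc⟩ := hD (h.cL ξ ∘ₗ x ∘ₗ T u) fun w φ H => by
    have := LinearMap.congr_fun (hx w φ H) (T u w₀)
    rw [cp_apply, LinearMap.zero_apply, h.eq_zero_iff, or_iff_left hw] at this
    simp [h.apply_cL, this]
  have h1 : ∀ y, h.cL ξ (x (T u y)) = c • y := LinearMap.congr_fun hc
  simp [h1, ← h.apply_cL, hη]

variable [Nontrivial U] [Nontrivial W]

theorem InC.of_mul_kap (h' : IsTens T') (hc : Comm T T') (hm : InC T m) {b : End F W}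
    (hb : b ≠ 0) (e : InC T' (m * kap h b)) : InC T' m := inC_of_comm h' fun a ha => by
  have h1 := hc.inC h ha
  refine sub_eq_zero.1 (((h1.mul hm).sub (hm.mul h1)).eq_zero_of_mul h hb ?_)
  rw [sub_mul, mul_assoc a, ha.comm h' e, mul_assoc, mul_assoc, h1.comm_kap h, sub_self]

theorem InC.cp (h' : IsTens T') (hc : Comm T T') (hx : InC T' x) (φ : Dual F W) (w : W) :
    InC T' (cp h φ w x) := by
  obtain ⟨y, hy⟩ := exists_ne (0 : W)
  obtain ⟨η, hη⟩ := Projective.exists_dual_eq_one F hy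
  refine (inC_cp h φ w x).of_mul_kap h h' hc (rk_ne_zero hy (φ := η) (by rintro rfl; simp at hη)) ?_
  rw [← kap_mul_mul]
  exact ((hc.symm.inC h' (inE_kap h _)).mul hx).mul (hc.symm.inC h' (inE_kap h _))

theorem surj_of_cj (h' : IsTens T') {g : V ≃ₗ[F] V} (e : ∀ a, InE T a → InE T' (cj g a))
    (b : End F W) : ∃ a, cj g (kap h a) = kap h' b := by
  choose θ hθ using fun b => (e _ (inE_kap h b)).exists_kap h'
  have inj : ∀ {T : U →ₗ[F] W →ₗ[F] V} (h : IsTens T), Function.Injective (kap h) := fun h =>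
    (injective_iff_map_eq_zero _).2 fun b hb => by_contra fun h0 => kap_ne_zero h h0 hb
  let Θ : End F W →ₗ[F] End F W :=
    { toFun := θ, map_add' := fun a b => inj h' (by simp only [← hθ, map_add])
      map_smul' := fun c a => inj h' (by simp only [← hθ, map_smul, RingHom.id_apply]) }
  obtain ⟨a, rfl⟩ := (LinearMap.injective_iff_surjective (f := Θ)).1 (fun a b hab =>
    inj h ((cj g).injective (by rw [hθ, hθ]; exact congrArg _ hab))) b
  exact ⟨a, hθ a⟩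

omit [Nontrivial W] in
theorem not_comm_kap (h2 : 2 ≤ finrank F W) : ¬ ∀ a b, kap h a * kap h b = kap h b * kap h a := by
  obtain ⟨_, _, h3, h4, -, h5⟩ := exists_idem h h2
  obtain ⟨a, rfl⟩ := h3.exists_kap h
  obtain ⟨b, rfl⟩ := h4.exists_kap h
  exact fun H => h5 (H a b)

end One

/-- A tensor power, as a family of tensor decompositions. -/
structure TP {τ : Type*} (T : τ → U →ₗ[F] W →ₗ[F] V) : Prop where
  tens : ∀ i, IsTens (T i)
  comm : ∀ i j, i ≠ j → Comm (T i) (T j)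
  cent : ∀ x, (∀ i, InC (T i) x) → ∃ c : F, x = c • 1

namespace TP

variable {τ : Type*} {T : τ → U →ₗ[F] W →ₗ[F] V} (h : TP T) [FiniteDimensional F U]
  [FiniteDimensional F W] [Nontrivial U] [Nontrivial W] {i j : τ} {m x : End F V}
include h

theorem inC_kap (hij : i ≠ j) (b : End F W) : InC (T i) (kap (h.tens j) b) :=
  (h.comm i j hij).inC (h.tens i) (inE_kap _ b)

theorem inC_cj (hx : InC (T i) x) (j : τ) (g : W ≃ₗ[F] W) :
    InC (T i) (cj (ug (h.tens j) g) x) := by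
  by_cases hij : i = j
  · subst hij; rwa [hx.cj_ug]
  · rw [cj_eq_mul, ug_inv, coe_ug, coe_ug]
    exact ((h.inC_kap hij _).mul hx).mul (h.inC_kap hij _)

theorem cj_kap (hij : i ≠ j) (g : W ≃ₗ[F] W) (b : End F W) :
    cj (ug (h.tens i) g) (kap (h.tens j) b) = kap (h.tens j) b := (h.inC_kap hij b).cj_ug _ g

/-- Invariance under the factor groups. -/
def Inv (G : Subgroup (W ≃ₗ[F] W)) (M : End F V → Prop) : Prop :=
  ∀ j, ∀ g ∈ G, ∀ x, M x → M (cj (ug (h.tens j) g) x)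

/-- The coefficients of a set of endomorphisms of a factor. -/
def coef (M : Submodule F (End F V)) (j : τ) (N : Set (End F W)) : Submodule F (End F V) where
  carrier := {m | InC (T j) m ∧ ∀ ρ ∈ N, m * kap (h.tens j) ρ ∈ M}
  zero_mem' := ⟨InC.zero, by simp⟩
  add_mem' ha hb := ⟨ha.1.add hb.1, fun ρ hρ => by
    rw [add_mul]; exact add_mem (ha.2 ρ hρ) (hb.2 ρ hρ)⟩
  smul_mem' c _ ha := ⟨ha.1.smul c, fun ρ hρ => by
    rw [smul_mul_assoc]; exact M.smul_mem c (ha.2 ρ hρ)⟩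

theorem Inv.coef {G : Subgroup (W ≃ₗ[F] W)} {M : Submodule F (End F V)} (hM : h.Inv G (· ∈ M))
    (j : τ) (N : Set (End F W)) : h.Inv G (· ∈ h.coef M j N) := fun i g hg x hx => by
  by_cases hij : i = j
  · subst hij; rwa [hx.1.cj_ug]
  · exact ⟨h.inC_cj hx.1 i g, fun ρ hρ => by
      simpa only [map_mul, h.cj_kap hij] using hM i g hg _ (hx.2 ρ hρ)⟩

theorem coef_mul {M : Submodule F (End F V)} (hM : ∀ x ∈ M, ∀ y ∈ M, x * y ∈ M) {N N' : Set (End F W)}
    (hN : ∀ S : Submodule F (End F W), (∀ ρ ∈ N, ∀ ρ' ∈ N, ρ * ρ' ∈ S) → ∀ ρ ∈ N', ρ ∈ S)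
    (hm : m ∈ h.coef M j N) (hx : x ∈ h.coef M j N) : m * x ∈ h.coef M j N' :=
  ⟨hm.1.mul hx.1, hN (M.comap (LinearMap.mulLeft F (m * x) ∘ₗ (kap (h.tens j)).toLinearMap))
    fun ρ hρ ρ' hρ' => by
      simpa [mul_kap_mul _ hx.1, mul_assoc m x] using hM _ (hm.2 ρ hρ) _ (hx.2 ρ' hρ')⟩

/-- The hypotheses of the ring lemma. -/
structure Step (G : Subgroup (W ≃ₗ[F] W)) (N₁ N₂ : Set (End F W)) : Prop where
  step : ∀ j (M : Submodule F (End F V)), h.Inv G (· ∈ M) → ∀ x ∈ M, ¬ InC (T j) x →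
    ∃ m, m ≠ 0 ∧ (m ∈ h.coef M j N₁ ∨ m ∈ h.coef M j N₂)
  n1 : ∀ S : Submodule F (End F W), (∀ ρ ∈ N₁, ∀ ρ' ∈ N₁, ρ * ρ' ∈ S) → S = ⊤
  n2 : ∀ S : Submodule F (End F W), (∀ ρ ∈ N₂, ∀ ρ' ∈ N₂, ρ * ρ' ∈ S) → ∀ ρ ∈ N₁, ρ ∈ S
  ne : ∃ ρ ∈ N₂, ρ ≠ 0

variable {h} {G : Subgroup (W ≃ₗ[F] W)} {N₁ N₂ : Set (End F W)}

theorem Step.key (hs : h.Step G N₁ N₂) {s : Set τ}
    (ih : ∀ M : Submodule F (End F V), h.Inv G (· ∈ M) → (∀ x ∈ M, ∀ y ∈ M, x * y ∈ M) →
      (∀ x ∈ M, ∀ i, i ∉ s ∨ i = j → InC (T i) x) → ∀ x ∈ M, x ≠ 0 → 1 ∈ M)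
    {M : Submodule F (End F V)} (h1 : h.Inv G (· ∈ M)) (h2 : ∀ x ∈ M, ∀ y ∈ M, x * y ∈ M)
    (h3 : ∀ x ∈ M, ∀ i, i ∉ s → InC (T i) x) (hx : x ∈ M) (hx' : ¬ InC (T j) x) (b : End F W) :
    kap (h.tens j) b ∈ M := by
  have key : ∀ N : Set (End F W), (∃ ρ ∈ N, ρ ≠ 0) →
      (∀ x ∈ h.coef M j N, ∀ y ∈ h.coef M j N, x * y ∈ h.coef M j N) →
      ∀ m ∈ h.coef M j N, m ≠ 0 → 1 ∈ h.coef M j N := fun N ⟨ρ, hρ, hρ0⟩ hN =>
    ih _ (h1.coef h j N) hN fun y hy i hi => by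
      by_cases hij : i = j
      · exact hij ▸ hy.1
      · exact hy.1.of_mul_kap _ (h.tens i) (h.comm j i (Ne.symm hij)) hρ0
          (h3 _ (hy.2 ρ hρ) i (hi.resolve_right hij))
  have h4 : 1 ∈ h.coef M j N₁ := by
    by_contra h5
    have h6 : ∀ m ∈ h.coef M j N₁, m = 0 := fun m hm => by_contra fun h0 =>
      h5 (key N₁ (by
        by_contra! hc
        simpa using (hs.n1 ⊥ fun ρ hρ ρ' _ => by simp [hc ρ hρ]).ge (Submodule.mem_top (x := 1)))
        (fun x hx y hy => h.coef_mul h2 (fun S hS ρ _ => hs.n1 S hS ▸ trivial) hx hy) m hm h0)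
    obtain ⟨m, hm0, hm⟩ := hs.step j M h1 x hx hx'
    have h7 := key N₂ hs.ne (fun x hx y hy => by
      rw [h6 _ (h.coef_mul h2 hs.n2 hx hy)]; exact zero_mem _) m
      (hm.resolve_left fun hm => hm0 (h6 m hm)) hm0
    exact h5 (by simpa using h.coef_mul h2 hs.n2 h7 h7)
  simpa using (h.coef_mul h2 (N' := Set.univ) (fun S hS ρ _ => hs.n1 S hS ▸ trivial) h4 h4).2 b trivial

theorem Step.one_mem_aux (hs : h.Step G N₁ N₂) (s : Finset τ) :
    ∀ M : Submodule F (End F V), h.Inv G (· ∈ M) → (∀ x ∈ M, ∀ y ∈ M, x * y ∈ M) →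
      (∀ x ∈ M, ∀ i, i ∉ s → InC (T i) x) → ∀ x ∈ M, x ≠ 0 → 1 ∈ M := by
  classical
  induction s using Finset.induction_on with
  | empty =>
    intro M _ _ h3 x hx h0
    obtain ⟨c, rfl⟩ := h.cent x fun i => h3 x hx i (by simp)
    exact (M.smul_mem_iff (left_ne_zero_of_smul h0)).1 hx
  | insert j s hj ih =>
    intro M h1 h2 h3 x hx h0
    by_cases hc : ∀ y ∈ M, InC (T j) y
    · exact ih M h1 h2 (fun y hy i hi => by
        by_cases hij : i = j
        · exact hij ▸ hc y hy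
        · exact h3 y hy i (by simp [hi, hij])) x hx h0
    push Not at hc
    obtain ⟨y, hy, hy'⟩ := hc
    simpa using hs.key (s := ↑(insert j s)) (fun M a b c => ih M a b fun y hy i hi => c y hy i (by
      by_cases hij : i = j <;> simp [hi, hij])) h1 h2 (by simpa using h3) hy hy' 1

variable [Fintype τ]

/-- A non-zero ring normalised by all factor groups contains the identity. -/
theorem Step.one_mem (hs : h.Step G N₁ N₂) {M : Submodule F (End F V)} (h1 : h.Inv G (· ∈ M))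
    (h2 : ∀ x ∈ M, ∀ y ∈ M, x * y ∈ M) (hx : x ∈ M) (h0 : x ≠ 0) : 1 ∈ M :=
  hs.one_mem_aux Finset.univ M h1 h2 (by simp) x hx h0

/-- A ring normalised by all factor groups centralises or contains each factor algebra. -/
theorem Step.kap_mem (hs : h.Step G N₁ N₂) {M : Submodule F (End F V)} (h1 : h.Inv G (· ∈ M))
    (h2 : ∀ x ∈ M, ∀ y ∈ M, x * y ∈ M) (hx : x ∈ M) (hx' : ¬ InC (T j) x) (b : End F W) :
    kap (h.tens j) b ∈ M :=
  hs.key (s := Set.univ) (fun _ a b _ _ hy h0 => hs.one_mem a b hy h0) h1 h2 (by simp) hx hx' b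

omit [Fintype τ] in
variable (h) in
theorem mem_of_kap_aux {M : Submodule F (End F V)} (h1 : 1 ∈ M)
    (h2 : ∀ x ∈ M, ∀ y ∈ M, x * y ∈ M) (s : Finset τ) (hs : ∀ j ∈ s, ∀ b, kap (h.tens j) b ∈ M) :
    ∀ x, (∀ i, i ∉ s → InC (T i) x) → x ∈ M := by
  classical
  induction s using Finset.induction_on with
  | empty =>
    intro x hx
    obtain ⟨c, rfl⟩ := h.cent x fun i => hx i (by simp)
    exact M.smul_mem c h1
  | insert j s hj ih =>
    intro x hx
    refine ind_cp (h.tens j) (P := (· ∈ M)) M.zero_mem (fun _ _ => M.add_mem) fun φ w γ ψ =>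
      h2 _ (ih (fun i hi => hs i (by simp [hi])) _ fun i hi => ?_) _ (hs j (by simp) _)
    by_cases hij : i = j
    · exact hij ▸ inC_cp _ _ _ _
    · exact (hx i (by simp [hi, hij])).cp _ (h.tens i) (h.comm j i (Ne.symm hij)) φ w

variable (h) in
/-- The factor algebras generate. -/
theorem mem_of_kap {M : Submodule F (End F V)} (h1 : 1 ∈ M) (h2 : ∀ x ∈ M, ∀ y ∈ M, x * y ∈ M)
    (p : τ → Prop) (hs : ∀ j, ¬ p j → ∀ b, kap (h.tens j) b ∈ M) (hx : ∀ i, p i → InC (T i) x) :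
    x ∈ M := by
  classical
  exact h.mem_of_kap_aux h1 h2 (Finset.univ.filter (¬ p ·)) (by simpa) x (by simpa)

/-- `n` permutes the factors. -/
def Pm (h : TP T) (n : V ≃ₗ[F] V) (σ : Equiv.Perm τ) : Prop :=
  ∀ i b, cj n (kap (h.tens i) b) = kap (h.tens (σ i)) b

omit [Fintype τ] in
theorem Pm.inC_iff {n : V ≃ₗ[F] V} {σ : Equiv.Perm τ} (hn : h.Pm n σ) :
    InC (T (σ i)) (cj n x) ↔ InC (T i) x :=
  ⟨fun H => inC_of_comm (h.tens i) fun a ha => by
    obtain ⟨a, rfl⟩ := ha.exists_kap (h.tens i)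
    exact (cj n).injective (by rw [map_mul, map_mul, hn, H.comm_kap]),
  fun H => inC_of_comm (h.tens _) fun a ha => by
    obtain ⟨a, rfl⟩ := ha.exists_kap (h.tens _)
    rw [← hn, ← map_mul, H.comm_kap, map_mul]⟩

omit [Fintype τ] in
theorem Pm.mul {n n' : V ≃ₗ[F] V} {σ σ' : Equiv.Perm τ} (hn : h.Pm n σ) (hn' : h.Pm n' σ') :
    h.Pm (n * n') (σ * σ') := fun i b => by rw [cj_mul, hn', hn]; rfl

omit [Fintype τ] in
theorem Pm.inv {n : V ≃ₗ[F] V} {σ : Equiv.Perm τ} (hn : h.Pm n σ) : h.Pm n⁻¹ σ⁻¹ := fun i b => by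
  have := hn (σ⁻¹ i) b
  simp only [Equiv.Perm.coe_inv, Equiv.apply_symm_apply] at this
  rw [← this, cj_inv_cj]

/-- `g` permutes the factor algebras. -/
def IsWr (T : τ → U →ₗ[F] W →ₗ[F] V) (g : V ≃ₗ[F] V) : Prop :=
  ∃ σ : Equiv.Perm τ, ∀ i a, InE (T i) a → InE (T (σ i)) (cj g a)

omit [Fintype τ] in
theorem Pm.isWr {n : V ≃ₗ[F] V} {σ : Equiv.Perm τ} (hn : h.Pm n σ) : IsWr T n :=
  ⟨σ, fun i a ha => by obtain ⟨a, rfl⟩ := ha.exists_kap (h.tens i); rw [hn]; exact inE_kap _ _⟩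

omit [Fintype τ] in
variable (h) in
theorem isWr_ug (j : τ) (g : W ≃ₗ[F] W) : IsWr T (ug (h.tens j) g) := ⟨1, fun i a ha => by
  obtain ⟨a, rfl⟩ := ha.exists_kap (h.tens i)
  by_cases hij : j = i
  · subst hij; rw [cj_ug_kap]; exact inE_kap _ _
  · rw [h.cj_kap hij]; exact ha⟩

/-- `X` induces all even permutations of the factors. -/
def Alt [DecidableEq τ] (h : TP T) (X : Subgroup (V ≃ₗ[F] V)) : Prop :=
  ∀ σ : Equiv.Perm τ, Equiv.Perm.sign σ = 1 → ∃ n ∈ X, h.Pm n σ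

variable [DecidableEq τ] {X : Subgroup (V ≃ₗ[F] V)}

theorem alt_of_comm {K : Subgroup (V ≃ₗ[F] V)} (hK : ∀ σ, ∃ n ∈ K, h.Pm n σ)
    (hX : ∀ n ∈ K, ∀ n' ∈ K, IsWr T (n * n' * n⁻¹ * n'⁻¹) → n * n' * n⁻¹ * n'⁻¹ ∈ X) : h.Alt X := by
  let S : Subgroup (Equiv.Perm τ) :=
    { carrier := {σ | ∃ n ∈ X, h.Pm n σ}
      one_mem' := ⟨1, one_mem _, fun _ _ => rfl⟩
      mul_mem' := fun ⟨_, a, b⟩ ⟨_, c, d⟩ => ⟨_, mul_mem a c, b.mul d⟩
      inv_mem' := fun ⟨_, a, b⟩ => ⟨_, inv_mem a, b.inv⟩ }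
  have : alternatingGroup τ ≤ S := by
    rw [← Equiv.Perm.closure_three_cycles_eq_alternating, Subgroup.closure_le]
    intro c hc
    obtain ⟨ρ, hρ⟩ := isConj_iff.1 (Equiv.Perm.isConj_iff_cycleType_eq.2 c.cycleType_inv.symm)
    obtain ⟨n, hn, e⟩ := hK ρ
    obtain ⟨n', hn', e'⟩ := hK c
    have h1 := ((e.mul e').mul e.inv).mul e'.inv
    have h2 : c⁻¹ * c⁻¹ = c := by
      have := pow_orderOf_eq_one c
      rw [Equiv.Perm.IsThreeCycle.orderOf hc] at this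
      rw [← mul_inv_rev, inv_eq_iff_mul_eq_one, ← this, pow_three, mul_assoc]
    rw [hρ, h2] at h1
    exact ⟨_, hX n hn n' hn' h1.isWr, h1⟩
  exact fun σ hσ => this (Equiv.Perm.mem_alternatingGroup.2 hσ)

theorem Alt.cyc (hp : h.Alt X) {a b c : τ} (hab : a ≠ b) (hac : a ≠ c) (hbc : b ≠ c) :
    ∃ n ∈ X, ∃ σ, h.Pm n σ ∧ σ a = b ∧ σ b = c ∧ σ c = a := by
  obtain ⟨n, hn, e⟩ := hp (Equiv.swap a c * Equiv.swap a b) (by simp [hab, hac])
  exact ⟨n, hn, _, e, by simp [Equiv.swap_apply_of_ne_of_ne hab.symm hbc], by simp,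
    by simp [Equiv.swap_apply_of_ne_of_ne hac.symm hbc.symm]⟩

theorem Alt.dbl (hp : h.Alt X) {a b c d : τ} (hab : a ≠ b) (hac : a ≠ c) (had : a ≠ d)
    (hbc : b ≠ c) (hbd : b ≠ d) (hcd : c ≠ d) :
    ∃ n ∈ X, ∃ σ, h.Pm n σ ∧ σ a = b ∧ σ b = a ∧ σ c = d := by
  obtain ⟨n, hn, e⟩ := hp (Equiv.swap a b * Equiv.swap c d) (by simp [hab, hcd])
  exact ⟨n, hn, _, e, by simp [Equiv.swap_apply_of_ne_of_ne hac had],
    by simp [Equiv.swap_apply_of_ne_of_ne hbc hbd],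
    by simp [Equiv.swap_apply_of_ne_of_ne had.symm hbd.symm]⟩

/-- The conclusion drawn from the global theorem. -/
theorem Alt.isWr (hp : h.Alt X) (h2 : 2 ≤ finrank F W)
    (hg : ∀ i, ∀ g ∈ X, Good (T i) (tr (T i) g)) {g : V ≃ₗ[F] V} (hgX : g ∈ X) :
    IsWr T g := by
  have key : ∀ i, ∃ j, ∀ a, InE (T i) a → InE (T j) (cj g a) := fun i => by
    by_contra! hc
    have h0 : ∀ {j n}, n ∈ X → (∀ b, cj n (kap (h.tens i) b) = kap (h.tens j) b) →
        ∀ a, InE (T i) a → InC (T j) (cj g a) := fun {j n} hn e a ha => by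
      rcases hg i _ (mul_mem (inv_mem hn) hgX) with h3 | h3
      · obtain ⟨a, ha, h4⟩ := hc j
        obtain ⟨b, hb⟩ := (ha.cj_of_mem (same_tr.1 h3)).exists_kap (h.tens i)
        exact (h4 (by rw [← cj_cj_inv n (cj g a), ← cj_mul n⁻¹, hb, e]; exact inE_kap _ _)).elim
      · refine inC_of_comm (h.tens j) fun b hb => ?_
        obtain ⟨b, rfl⟩ := hb.exists_kap (h.tens j)
        simpa [e, cj_mul] using congrArg (cj n) (h3 _ _ (inE_kap (h.tens i) b) (ha.cj _))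
    have h1 : ∀ a, InE (T i) a → ∀ j, InC (T j) (cj g a) := fun a ha j => by
      by_cases hij : i = j
      · exact hij ▸ h0 (one_mem X) (fun _ => rfl) a ha
      by_cases hk : ∃ k, i ≠ k ∧ j ≠ k
      · obtain ⟨k, h3, h4⟩ := hk
        obtain ⟨n, hn, σ, e, rfl, -⟩ := hp.cyc hij h3 h4
        exact h0 hn (e i) a ha
      obtain ⟨a, ha, h4⟩ := hc j
      obtain ⟨b, hb⟩ := h.mem_of_kap (M := range (kap (h.tens j)).toLinearMap) ⟨1, map_one (kap _)⟩
        (by rintro _ ⟨a, rfl⟩ _ ⟨b, rfl⟩; exact ⟨a * b, map_mul (kap _) _ _⟩) (· = i) (fun k hk' b => by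
          obtain rfl : j = k := by_contra fun h5 => hk ⟨k, Ne.symm hk', h5⟩
          exact ⟨b, rfl⟩) (x := cj g a) (by rintro _ rfl; exact h0 (one_mem X) (fun _ => rfl) a ha)
      exact (h4 (hb ▸ inE_kap _ b)).elim
    refine not_comm_kap (h.tens i) h2 fun a b => (cj g).injective ?_
    obtain ⟨c, hc⟩ := h.cent _ (h1 _ (inE_kap (h.tens i) a))
    simp [hc]
  choose s hs using key
  refine ⟨Equiv.ofBijective s (Finite.injective_iff_bijective.1 fun i j hij => by_contra fun h0 =>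
    not_comm_kap (h.tens (s i)) h2 fun a b => ?_), hs⟩
  obtain ⟨a, ha⟩ := surj_of_cj (h.tens i) (h.tens _) (hs i) a
  obtain ⟨b, hb⟩ := surj_of_cj (h.tens j) (h.tens (s i)) (hij ▸ hs j) b
  rw [← ha, ← hb, ← map_mul, ← map_mul, (h.inC_kap h0 b).comm_kap]

end TP

end Cfsg.Lib.Class.Wr
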