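import Cfsg.Agent.Class.Wr.FormMat

/-!
The stabiliser of the tensor square of a three-dimensional unitary space is maximal if `q ≠ 2`.
-/

set_option autoImplicit false
set_option linter.unusedSectionVars false

namespace Cfsg.Lib.Class.Wr

open Module Submodule Tens Tn FE AO Form
open LinearMap (range ker)

section Abs

variable {F U W V : Type*} [Field F] [AddCommGroup U] [Module F U] [AddCommGroup W] [Module F W]
  [AddCommGroup V] [Module F V] [FiniteDimensional F U] [FiniteDimensional F W]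
  {X : Subgroup (V ≃ₗ[F] V)} [Nontrivial U] [Finite F] {σ : F →+* F}

/-- A nonscalar long root coefficient gives all of them. -/
theorem F1.full_of_uctx {T : U →ₗ[F] W →ₗ[F] V} {h : U →ₛₗ[σ] U →ₗ[F] F} {f : W →ₛₗ[σ] W →ₗ[F] F}
    {β : V →ₛₗ[σ] V →ₗ[F] F} (c : F1 T h 1 f 1 β X) (d : UCtx T h f β X) (hU : 3 ≤ finrank F U)
    (hW : 3 ≤ finrank F W) (hq : ∃ a, σ a = a ∧ a ≠ 0 ∧ a ≠ 1) {γ : End F V}
    (hγ : γ ∈ Lam c.hT f X) (H : ¬ ∃ s : F, γ = s • 1) (r : End F V) (hr : InC T r) :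
    r - (1 : F) • adj β r ∈ Lam c.hT f X := by
  have := c.hT.finiteDimensional
  obtain ⟨w, w0, w1⟩ := c.ft.exists_iso
  obtain ⟨γ, rfl⟩ := hγ.1.exists_mp c.hT
  have h1 : d.flip.ctx.Gam w γ := by
    obtain ⟨k, hk, e⟩ := hγ.2 w w1
    refine ⟨k, hk, fun v => (e v).trans (congrArg (v + ·) ?_)⟩
    refine c.hT.ind (P := fun v => (c.hT.mp γ 1 * kap c.hT (xx f w w)) v =
      T.flip w (γ (d.flip.ctx.c w v))) (by simp) (fun a b ha hb => by simp only [map_add, ha, hb])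
      (fun x y => ?_) v
    have := d.flip.ctx.c_apply w y x
    rw [LinearMap.flip_apply] at this
    simp [this]
  have h2 := d.tvS_all hU hq fun y p hy hp => d.flip.tvS_of_gam hW (Or.inl hU) w0 w1 h1
    (fun ⟨s, e⟩ => H ⟨s, c.hT.ext fun x y => by simp [e]⟩) p y hp hy
  obtain ⟨s, s0, s1⟩ := c.ft.skew
  have h3 : ∀ u, c.hT.mp (s • xx h u u) 1 ∈ Lam c.hT f X := fun u =>
    ⟨inC_mp _ _, fun p hp => by
      obtain ⟨k, hk, e⟩ := h2 u p hp s s1
      refine ⟨k, hk, fun v => (e v).trans (congrArg (v + ·) ?_)⟩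
      exact c.hT.ind (P := fun v => (s * β (T u p) v) • T u p =
        (c.hT.mp (s • xx h u u) 1 * kap c.hT (xx f p p)) v) (by simp)
        (fun a b ha hb => by simp only [map_add, ← ha, ← hb, mul_add, add_smul])
        (fun x y => by simp [c.tens, smul_smul, mul_comm, mul_assoc]) v⟩
  obtain ⟨r, rfl⟩ := hr.exists_mp c.hT
  rw [c.adj_mp, c.hh.adj_one, one_smul]
  have h4 : ∀ a b : End F U, c.hT.mp (a + b) 1 = c.hT.mp a 1 + c.hT.mp b 1 := fun a b =>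
    c.hT.ext fun x y => by simp
  have h5 : ∀ (t : F) (a : End F U), c.hT.mp (t • a) 1 = t • c.hT.mp a 1 := fun t a =>
    c.hT.ext fun x y => by simp
  have h6 := eq_top_of_rk (S :=
    { carrier := {r : End F U | ∀ t : F,
        c.hT.mp (t • r) 1 - c.hT.mp (adj h (t • r)) 1 ∈ Lam c.hT f X}
      zero_mem' := fun t => by simp [c.hf.adj_zero]
      add_mem' := fun h1 h2 t => by
        convert add_mem (h1 t) (h2 t) using 1
        rw [smul_add, c.hf.adj_add, h4, h4]; abel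
      smul_mem' := fun s r h1 t => smul_smul t s r ▸ h1 _ }) fun u φ t => by
    obtain ⟨z, hz⟩ := c.hf.exists_eq_dual φ
    obtain rfl : h z = φ := LinearMap.ext hz
    have := sub_mem (sub_mem (h3 ((t / s) • u + z)) (h3 ((t / s) • u))) (h3 z)
    convert this using 1
    rw [show rk u (h z) = xx h u z from rfl, c.hf.adj_smul, c.hf.adj_xx]
    simp only [xx_add_left, xx_add_right, xx_smul_left, xx_smul_right, smul_add, h4, h5, map_div₀,
      show σ s = -s by linear_combination s1]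
    match_scalars <;> field_simp <;> ring
  simpa using h6.ge (mem_top (x := r)) 1

variable {τ : Type*} {T : τ → U →ₗ[F] W →ₗ[F] V} {h : τ → U →ₛₗ[σ] U →ₗ[F] F}
  {f : W →ₛₗ[σ] W →ₗ[F] F} {β : V →ₛₗ[σ] V →ₗ[F] F} {ε₂ ε : F} [Nontrivial W] [Fintype τ]
  [DecidableEq τ]

theorem FW.isWr_of_scalar (c : FW T h ε₂ f ε β X) (hp : c.tp.Alt X) (hσ : σ ≠ RingHom.id F)
    (hs : Sm σ W) (H : ∀ a, ∀ γ ∈ c.L a, ∃ s : F, γ = s • 1) {g : V ≃ₗ[F] V} (hg : g ∈ X) :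
    TP.IsWr T g := by
  cases isEmpty_or_nonempty τ
  · exact ⟨1, fun i => isEmptyElim i⟩
  have hf := c.ft (Classical.arbitrary τ)
  refine hp.isWr hf.two (fun i g hg => ?_) hg
  have t := c.one i
  obtain ⟨s, s0, s1⟩ := hf.skew
  have h1 : ∀ {w}, w ≠ 0 → f w w = 0 → Rt X (T i) w (s • f w) := fun h1 h2 =>
    t.rt_iff.2 ⟨h1, h2, s, s0, s1, rfl⟩
  have h2 : 3 ≤ finrank F W := (hf.typ.resolve_right fun h => hσ h.1).2.2
  have hL : Loc X (T i) := ⟨t.hT, fun w φ hw y hy =>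
    let ⟨a1, a2, _⟩ := t.rt_iff.1 hw
    mem_tensG_form t.toTF hf (Or.inr hs) t.le t.ge a1 a2 (c.zz (fun h => (hσ h).elim)
      (H i) a1 a2) hy,
    fun w φ w' φ' hw hw' => by
      obtain ⟨a1, a2, -⟩ := t.rt_iff.1 hw
      obtain ⟨a3, a4, -⟩ := t.rt_iff.1 hw'
      obtain ⟨g, hg, rfl⟩ := hf.trans a1 a3 (by rw [a2, a4])
      exact ⟨_, t.ge g hg, ug_mem _ g, fun u => ⟨u, by simp⟩⟩,
    fun ρ hρ => hf.scalar_of_iso fun p a1 a2 =>
      (mem_span_singleton.1 (hρ p _ (h1 a1 a2))).imp fun _ => Eq.symm, hf.two, Or.inr h2⟩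
  obtain ⟨-, l, l0, l1⟩ := hs
  have a1 : σ (σ l * l) = σ l * l := by rw [map_mul, hf.hm.invol, mul_comm]
  have a2 : σ l * l ≠ 0 := by simpa
  generalize σ l * l = a at a1 a2 l1
  refine hL.good_of_scalar a2 l1 (fun w φ hw => ?_) (Or.inl h2) (fun y => ?_) hg
  · obtain ⟨b1, b2, r, b3, b4, rfl⟩ := t.rt_iff.1 hw
    exact ⟨t.rt_iff.2 ⟨b1, b2, a * r, mul_ne_zero a2 b3, by
      rw [map_mul, a1]; linear_combination a * b4, smul_smul _ _ _⟩,
      t.rt_iff.2 ⟨b1, b2, a⁻¹ * r, mul_ne_zero (inv_ne_zero a2) b3, by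
      rw [map_mul, map_inv₀, a1]; linear_combination a⁻¹ * b4, smul_smul _ _ _⟩⟩
  · obtain ⟨p, b1, b2, b3⟩ := hf.exists_perp_one y
    exact ⟨p, _, h1 b1 b2, by simp [hf.hm.comm b3]⟩

theorem TP.isWr_of_tensG (t : TP T) (h2 : Fintype.card τ ≤ 2) {b : τ} {g : V ≃ₗ[F] V}
    (hg : g ∈ tensG (T b)) : TP.IsWr T g := ⟨1, fun i a ha => by
  by_cases hi : i = b
  · subst hi; exact ha.cj_of_mem hg
  obtain ⟨ρ, rfl⟩ := ha.exists_kap (t.tens i)
  obtain ⟨ρ', e⟩ := t.mem_of_kap (M := range (kap (t.tens i)).toLinearMap) ⟨1, map_one (kap _)⟩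
    (by rintro _ ⟨a, rfl⟩ _ ⟨b, rfl⟩; exact ⟨a * b, map_mul (kap _) _ _⟩) (· = b) (fun k hk ρ => by
      obtain rfl : i = k := by_contra fun h5 => by
        have := Finset.card_le_univ ({i, k, b} : Finset τ)
        rw [Finset.card_eq_three.2 ⟨i, k, b, h5, hi, hk, rfl⟩] at this
        omega
      exact ⟨ρ, rfl⟩) (x := cj g (kap (t.tens i) ρ))
    (by rintro _ rfl; exact (t.inC_kap (Ne.symm hi) ρ).cj_of_mem hg)
  exact e ▸ inE_kap _ ρ'⟩

end Abs

open Asch Matrix Cfsg.Geo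
open scoped MatrixGroups

/-- `SU₃(q) ∘ SU₃(q).2` is maximal in `SU₉(q)` for `q ≠ 2`. -/
theorem isMaximalIn_SU_wreath_three_two {F : Type*} [Field F] [Fintype F] {n q : ℕ}
    (hF : Fintype.card F = q ^ 2) (hq : q ≠ 2) {e : Fin n ≃ (Fin 2 → Fin 3)} {P : GL (Fin n) F}
    {f : (Fin 3 → F) → (Fin 3 → F) → F} (hf : IsUnitaryFormPow q f)
    (hT : IsTensorPowerFormStructure (fun x : F => x ^ q) (hermForm n F q) f e P) :
    IsMaximalIn (GU n F q ⊓ specialLinear (Fin n) F)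
      (tensorWreathSubgroup 3 2 e P ⊓ (GU n F q ⊓ specialLinear (Fin n) F)) := by
  have hβ := herm_hermSesq hF n
  have hσ := frobq_ne_id hF
  obtain ⟨c, -, H⟩ := IsTensorPowerFormStructure.ptw (σ := frobqEquiv hF)
    (isSesq_of_isUnitaryFormPow hF hf).pre hT
  replace H : ∀ x y, hermSesq hF n (vec e P (ptw x)) (vec e P (ptw y)) =
    c * ∏ i, TvP.sesqOf hF hf (x i) (y i) := fun x y => H y x
  obtain ⟨h, t⟩ := exists_tf_tw (s := 1) (ε' := 1) H (by simpa using hm_of_herm hβ)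
    (hm_of_herm (TvP.herm_sesqOf hF hf)) fun i u w w' h => by
      simpa using hβ.exists_trace_eq ((one_mul _).symm.trans h.symm)
  have hW : FT (TvP.sesqOf hF hf) 1 :=
    ⟨hm_of_herm (TvP.herm_sesqOf hF hf), Or.inl ⟨hσ, rfl, by simp⟩⟩
  have hU := three_le_pow (F := F) (k := 3) (s := 1) (by omega) le_rfl (Or.inl le_rfl)
  obtain ⟨a, a1, a2, a3⟩ := exists_fixed_ne_of_ne_two hF hq
  refine isMaximalIn_wreath (s := 1) e P (by omega) (G' := SI (hermSesq hF n)) (fun g => and_congr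
      ⟨fun hg u v => ?_, fun hg => ?_⟩ (mem_specialLinear_iff_glLin g))
    ((TvP.tvIrr_SUG hF ?_).not_le_tensorWreathSubgroup (by omega) le_rfl e P) fun X hX hX' => ?_
  · exact (guEquivIsomGroup hF n ⟨g, hg⟩).2 u v
  · have := TvP.toGL_mem_GU hF ⟨_, hg⟩
    rwa [show TvP.toGL hF n ⟨_, hg⟩ = g from (glLin _ F).injective
      (LinearEquiv.ext (TvP.toGL_mulVec hF _))] at this
  · have h1 : n = 9 := by simpa using Fintype.card_congr e
    omega
  have c : FW (tw (s := 1) e P) h 1 (TvP.sesqOf hF hf) 1 (hermSesq hF n) X :=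
    ⟨tp_tw e P, fun i => ⟨t i, hW, hX.trans inf_le_left, fun g hg =>
      hX' _ ⟨(t i).ug_isom hg.1, MonoidHom.mem_ker.2 (Units.ext (by
        have h2 : LinearMap.det (g : Module.End F (Fin 3 → F)) = 1 := by
          rw [← LinearEquiv.coe_det, MonoidHom.mem_ker.1 hg.2]; rfl
        rw [LinearEquiv.coe_det, coe_ug, kap_eq, Tn.IsTens.det_mp, h2]
        simp))⟩ ((tp_tw e P).isWr_ug i g)⟩⟩
  by_cases H1 : ∀ a, ∀ γ ∈ c.L a, ∃ s : F, γ = s • 1
  · refine Or.inl fun g hg => c.isWr_of_scalar (TP.alt_of_comm (K := isomGroup (hermSesq hF n))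
      (fun π => (exists_pm_isom (s := 1) H π).imp fun n h => ⟨h.1, h.2.1⟩)
      fun n hn n' hn' => hX' _ (Subgroup.mem_inf.2 ⟨mul_mem (mul_mem (mul_mem hn hn') (inv_mem hn))
        (inv_mem hn'), by simp [MonoidHom.mem_ker]⟩)) hσ ⟨Or.inl hσ, ?_⟩ H1 hg
    obtain ⟨l, rfl⟩ := exists_norm_eq hσ hβ.invol a1
    exact ⟨l, right_ne_zero_of_mul a2, a3⟩
  push Not at H1
  obtain ⟨b, γ, h1, h2⟩ := H1
  exact Or.inr ((c.one b).SI_le ((c.one b).full_of_uctx ⟨t b, hσ, fun g hg => hX hg,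
    fun g h3 h4 h5 => hX' g ⟨h4, h5⟩ (c.tp.isWr_of_tensG (by simp) h3)⟩ hU (by simp)
    ⟨a, a1, a2, a3⟩ h1 (not_exists.2 h2)) hU hβ (one_mul 1))

end Cfsg.Lib.Class.Wr
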